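import Cfsg.Agent.Lib.Helper8.IdGr
import Cfsg.Agent.Lib.Helper8.ChevBasic
import Cfsg.Prelude.Def_ChevAutomorphisms

set_option autoImplicit false
namespace Cfsg.Agent.Lib.Helper8
open Cfsg Cfsg.Lie

def chainGo (D : ChevalleyDatum) (r : ℕ) : ℕ → List (ℕ × ℤ) → Bool
  | _, [] => true
  | s, (u, _) :: l => (D.chainRoot r s 1 == some u) && decide (s < D.nroots) && chainGo D r u l

def chkChainChar (D : ChevalleyDatum) : Bool :=
  (List.range D.nroots).all fun r => (D.chain.getD r #[]).toList.all fun e => chainGo D r e.1 e.2.toList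

theorem chkChainChar_G2 : chkChainChar chevG2 = true := by decide +kernel
theorem chkChainChar_B2 : chkChainChar chevB2 = true := by decide +kernel
theorem chkChainChar_D4 : chkChainChar chevD4 = true := by decide +kernel
theorem chkChainChar_F4 : chkChainChar chevF4 = true := by decide +kernel
theorem chkChainChar_E6 : chkChainChar chevE6 = true := by decide +kernel
theorem chkChainChar_E7 : chkChainChar chevE7 = true := by decide +kernel
theorem chkChainChar_E8 : chkChainChar chevE8 = true := by decide +kernel

theorem chkChainChar_all {D : ChevalleyDatum} (hD : D ∈ allData) : chkChainChar D = true := by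
  simp only [allData, List.mem_cons, List.not_mem_nil, or_false] at hD
  rcases hD with rfl | rfl | rfl | rfl | rfl | rfl | rfl
  · exact chkChainChar_G2
  · exact chkChainChar_B2
  · exact chkChainChar_D4
  · exact chkChainChar_F4
  · exact chkChainChar_E6
  · exact chkChainChar_E7
  · exact chkChainChar_E8

theorem chainGo_spec {D : ChevalleyDatum} {F : Type*} [Field F] {χ : ℕ → Fˣ} (hχ : D.IsRootCharacter χ)
    {r : ℕ} (hr : r < D.nroots) : ∀ (l : List (ℕ × ℤ)) (s m : ℕ), chainGo D r s l = true →
      ∀ q ∈ l.zipIdx m, χ q.1.1 = χ r ^ (q.2 + 1 - m) * χ s := by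
  intro l
  induction l with
  | nil => intro s m _ q hq; simp at hq
  | cons a l ih =>
    obtain ⟨u, z⟩ := a
    intro s m h q hq
    rw [chainGo, Bool.and_eq_true, Bool.and_eq_true, beq_iff_eq, decide_eq_true_eq] at h
    have hu : χ u = χ r * χ s := hχ.2 r s u hr h.1.2 h.1.1
    rw [List.zipIdx_cons, List.mem_cons] at hq
    rcases hq with rfl | hq
    · simp only
      rw [show m + 1 - m = 1 by omega, pow_one, hu]
    · have h1 := ih u (m + 1) h.2 q hq
      have h2 : m + 1 ≤ q.2 := List.le_snd_of_mem_zipIdx hq
      rw [h1, hu, ← mul_assoc, ← pow_succ]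
      congr 2
      omega

theorem charDiag_eq (D : ChevalleyDatum) {F : Type*} [Field F] (χ : ℕ → Fˣ) :
    D.charDiag F χ = Matrix.diagonal (fun i : D.Idx => (if code i < D.rank then (1 : F) else (χ (code i - D.rank) : F))) := by
  unfold ChevalleyDatum.charDiag
  congr 1
  funext i
  rcases i with i | s
  · rw [code_inl, if_pos i.2]; rfl
  · rw [code_inr, if_neg (by omega), Nat.add_sub_cancel_left]; rfl

theorem charDiag_mul_inv (D : ChevalleyDatum) {F : Type*} [Field F] (χ : ℕ → Fˣ) :
    D.charDiag F χ * D.charDiag F (fun s => (χ s)⁻¹) = 1 := by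
  unfold ChevalleyDatum.charDiag
  rw [Matrix.diagonal_mul_diagonal, ← Matrix.diagonal_one]
  congr 1
  funext i
  rcases i with i | s
  · simp
  · simp

theorem charDiag_mul_x {D : ChevalleyDatum} (hD : D ∈ allData) {F : Type*} [Field F] {χ : ℕ → Fˣ}
    (hχ : D.IsRootCharacter χ) {r : ℕ} (hr : r < D.nroots) (t : F) :
    D.charDiag F χ * D.x F r t = D.x F r ((χ r : F) * t) * D.charDiag F χ := by
  rw [charDiag_eq]
  refine diag_mul_x D (fun j => if j < D.rank then (1 : F) else (χ (j - D.rank) : F)) (χ r : F) hr ?_ t
  intro j hj e he he1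
  have hneg : (χ (D.negIdx.getD r 0) : F) = (χ r : F)⁻¹ := by
    have := hχ.1 r hr
    rw [ChevalleyDatum.neg] at this
    rw [this, Units.val_inv_eq_inv_val]
  have hne : (χ r : F) ≠ 0 := (χ r).ne_zero
  have hr' : ¬ (D.rank + r < D.rank) := by omega
  unfold colSpec at he
  split_ifs at he with c1 c2 c3 c4
  · simp only [List.mem_cons, List.not_mem_nil, or_false] at he
    rcases he with rfl | rfl
    · simp
    · simp only
      rw [if_neg hr', if_pos c1, Nat.add_sub_cancel_left]; simp
  · simp at he
  · simp only [List.mem_cons, List.not_mem_nil, or_false] at he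
    subst he; simp
  · simp only [List.mem_cons, List.mem_map, List.mem_range] at he
    rcases he with rfl | rfl | ⟨i, hi, rfl⟩
    · simp
    · simp only
      rw [if_neg hr', if_neg c1, Nat.add_sub_cancel_left, c4, hneg]
      field_simp
    · simp only
      rw [if_pos hi, if_neg c1, c4, hneg]
      field_simp
  · rw [List.mem_cons] at he
    rcases he with rfl | he
    · simp
    · simp only [chainSpec, List.mem_flatMap, List.mem_map, List.mem_filter, decide_eq_true_eq] at he
      obtain ⟨e', ⟨he', hs⟩, q, hq, rfl⟩ := he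
      have h := chkChainChar_all hD
      rw [chkChainChar, List.all_eq_true] at h
      have h1 := h r (List.mem_range.mpr hr)
      rw [List.all_eq_true] at h1
      have h2 := chainGo_spec hχ hr _ _ 0 (h1 e' he') q hq
      simp only
      rw [if_neg (by omega), if_neg c1, Nat.add_sub_cancel_left, h2, hs]
      simp

end Cfsg.Agent.Lib.Helper8
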