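import Cfsg.Agent.Lib.Helper8.ChevBasic

set_option autoImplicit false
set_option linter.unusedSimpArgs false

namespace Cfsg.Agent.Lib.Helper8

open Cfsg Cfsg.Lie

theorem xMat_map (D : ChevalleyDatum) {F : Type*} [Field F] (f : F →+* F) (r : Fin D.nroots) (t : F) :
    (D.xMat F r t).map f = D.xMat F r (f t) := by
  ext row col
  rcases col with i | s
  · rcases row with i' | u
    · simp only [ChevalleyDatum.xMat, Matrix.map_apply, Matrix.of_apply]
      split_ifs <;> simp
    · simp only [ChevalleyDatum.xMat, Matrix.map_apply, Matrix.of_apply]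
      split_ifs <;> simp
  · rcases row with i' | u
    · simp only [ChevalleyDatum.xMat, Matrix.map_apply, Matrix.of_apply]
      split_ifs <;> simp
    · simp only [ChevalleyDatum.xMat, Matrix.map_apply, Matrix.of_apply]
      split_ifs <;> simp [List.sum_map_hom, map_list_sum, Function.comp_def]

/-- the automorphism of `GL` induced by a field automorphism -/
noncomputable def glEquiv (D : ChevalleyDatum) {F : Type*} [Field F] (f : F ≃+* F) :
    GL D.Idx F ≃* GL D.Idx F :=
  Units.mapEquiv (f.mapMatrix : Matrix D.Idx D.Idx F ≃+* Matrix D.Idx D.Idx F).toMulEquiv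

theorem glEquiv_coe (D : ChevalleyDatum) {F : Type*} [Field F] (f : F ≃+* F) (g : GL D.Idx F) :
    ((glEquiv D f g : GL D.Idx F) : Matrix D.Idx D.Idx F) = (g : Matrix D.Idx D.Idx F).map f := rfl

theorem glEquiv_map_group (D : ChevalleyDatum) {F : Type*} [Field F] (f : F ≃+* F) :
    (D.group F).map (glEquiv D f).toMonoidHom = D.group F := by
  rw [ChevalleyDatum.group, MonoidHom.map_closure]
  congr 1
  ext g
  simp only [Set.mem_image, Set.mem_setOf_eq]
  constructor
  · rintro ⟨g', ⟨r, t, hg'⟩, rfl⟩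
    refine ⟨r, f t, ?_⟩
    show ((glEquiv D f g' : GL D.Idx F) : Matrix D.Idx D.Idx F) = _
    rw [glEquiv_coe, hg']
    exact xMat_map D (f : F →+* F) r t
  · rintro ⟨r, t, hg⟩
    refine ⟨(glEquiv D f).symm g, ⟨r, f.symm t, ?_⟩, by simp⟩
    have h1 : ((glEquiv D f ((glEquiv D f).symm g) : GL D.Idx F) : Matrix D.Idx D.Idx F)
        = D.xMat F r t := by simp [hg]
    rw [glEquiv_coe] at h1
    have h2 := xMat_map D (f : F →+* F) r (f.symm t)
    simp only [RingEquiv.coe_toRingHom, RingEquiv.apply_symm_apply] at h2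
    rw [← h2] at h1
    exact Matrix.map_injective f.injective h1

theorem field_aut (D : ChevalleyDatum) {F : Type*} [Field F] (f : F ≃+* F) :
    ∃ α : ↥(D.group F) ≃* ↥(D.group F), ∀ (g : ↥(D.group F)) (r : ℕ) (t : F), r < D.nroots →
      ((g : GL D.Idx F) : Matrix D.Idx D.Idx F) = D.x F r t →
        ((α g : GL D.Idx F) : Matrix D.Idx D.Idx F) = D.x F r (f t) := by
  refine ⟨((glEquiv D f).subgroupMap (D.group F)).trans
    (MulEquiv.subgroupCongr (glEquiv_map_group D f)), ?_⟩
  intro g r t hr hg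
  show ((glEquiv D f (g : GL D.Idx F) : GL D.Idx F) : Matrix D.Idx D.Idx F) = _
  rw [glEquiv_coe, hg, ChevalleyDatum.x, dif_pos hr, ChevalleyDatum.x, dif_pos hr]
  exact xMat_map D (f : F →+* F) ⟨r, hr⟩ t

end Cfsg.Agent.Lib.Helper8
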