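import Cfsg.Agent.Lib.Helper8.Tw6

set_option autoImplicit false
set_option linter.unusedSectionVars false
set_option linter.unusedVariables false

/-! Towards the presentation of the Weyl group: a height functional, and peeling off the longest element of
a dihedral parabolic subgroup. -/

namespace Cfsg.Agent.Lib.Helper8

open Cfsg Cfsg.Lie

/-- coefficients of a functional that is positive exactly on the positive roots -/
def eOf (D : ChevalleyDatum) : List ℤ :=
  if D.nroots = 12 then [6, 10] else if D.nroots = 8 then [3, 4] else if D.nroots = 24 then [6, 10, 6, 6]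
  else if D.nroots = 48 then [16, 30, 42, 22] else if D.nroots = 72 then [16, 22, 30, 42, 30, 16]
  else if D.nroots = 126 then [34, 49, 66, 96, 75, 52, 27] else [92, 136, 182, 270, 220, 168, 114, 58]

def hgFl (D : ChevalleyDatum) (l : List ℕ) (r : ℕ) : ℤ := (l.map (fun k => (eOf D).getD k 0 * D.cartan k r)).sum

def hgF (D : ChevalleyDatum) (r : ℕ) : ℤ := hgFl D (List.range D.rank) r

theorem hgF_sign : ∀ D ∈ allData, ∀ r < D.nroots,
    (r < D.nroots / 2 → hgF D r < 0) ∧ (D.nroots / 2 ≤ r → 0 < hgF D r) := by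
  apply all_of <;> decide +kernel

/-- `β = a γ + b δ`, in the coordinates given by the Cartan integers -/
def LinC (D : ChevalleyDatum) (β : ℕ) (a b : ℤ) (γ δ : ℕ) : Prop :=
  ∀ k < D.rank, D.cartan k β = a * D.cartan k γ + b * D.cartan k δ

theorem LinC.hgFl {D : ChevalleyDatum} {β γ δ : ℕ} {a b : ℤ} (h : LinC D β a b γ δ) :
    ∀ l : List ℕ, (∀ k ∈ l, k < D.rank) → hgFl D l β = a * hgFl D l γ + b * hgFl D l δ
  | [], _ => by simp [Helper8.hgFl]
  | k :: l, hl => by
    have ih := LinC.hgFl h l (fun j hj => hl j (List.mem_cons_of_mem _ hj))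
    have hk := h k (hl k List.mem_cons_self)
    unfold Helper8.hgFl at ih ⊢
    simp only [List.map_cons, List.sum_cons]
    rw [ih, hk]
    ring

theorem LinC.hgF {D : ChevalleyDatum} {β γ δ : ℕ} {a b : ℤ} (h : LinC D β a b γ δ) :
    hgF D β = a * hgF D γ + b * hgF D δ :=
  h.hgFl _ (fun k hk => List.mem_range.mp hk)

/-- the alternating word of length `k` beginning with `p` -/
def alt : ℕ → ℕ → ℕ → List ℕ
  | 0, _, _ => []
  | k + 1, p, q => p :: alt k q p

theorem alt_length : ∀ (k p q : ℕ), (alt k p q).length = k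
  | 0, _, _ => rfl
  | k + 1, p, q => by
    show (alt k q p).length + 1 = k + 1
    rw [alt_length]

theorem alt_lt {l : ℕ} : ∀ (k : ℕ) {p q : ℕ}, p < l → q < l → ∀ i ∈ alt k p q, i < l
  | 0, _, _, _, _, i, hi => by simp [alt] at hi
  | k + 1, p, q, hp, hq, i, hi => by
    rcases List.mem_cons.mp hi with rfl | hi
    · exact hp
    · exact alt_lt k hq hp i hi

/-- the roots made negative by the alternating word -/
def rootsB (D : ChevalleyDatum) : ℕ → ℕ → ℕ → List ℕ
  | 0, _, _ => []
  | k + 1, p, q => D.simple p :: (rootsB D k q p).map (D.reflectRoot p)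

/-- the order of the product of two fundamental reflections -/
def mOf (D : ChevalleyDatum) (p q : ℕ) : ℕ :=
  if p = q then 1 else if D.cartan p (D.simple q) * D.cartan q (D.simple p) = 0 then 2
  else if D.cartan p (D.simple q) * D.cartan q (D.simple p) = 1 then 3
  else if D.cartan p (D.simple q) * D.cartan q (D.simple p) = 2 then 4 else 6

theorem mOf_comm (D : ChevalleyDatum) (p q : ℕ) : mOf D p q = mOf D q p := by
  unfold mOf
  rw [mul_comm (D.cartan p (D.simple q))]
  by_cases h : p = q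
  · rw [if_pos h, if_pos h.symm]
  · rw [if_neg h, if_neg (show ¬ q = p from fun e => h e.symm)]

theorem mOf_pos (D : ChevalleyDatum) (p q : ℕ) : ∃ m, mOf D p q = m + 1 := by
  unfold mOf
  split_ifs
  exacts [⟨0, rfl⟩, ⟨1, rfl⟩, ⟨2, rfl⟩, ⟨3, rfl⟩, ⟨5, rfl⟩]

theorem chkLin_all : ∀ D ∈ allData, ∀ p < D.rank, ∀ q < D.rank, p ≠ q → ∀ β ∈ rootsB D (mOf D p q) p q,
    ∃ a : ℕ, a < 4 ∧ ∃ b : ℕ, b < 4 ∧ 0 < a + b ∧ ∀ k < D.rank,
      D.cartan k β = (a : ℤ) * D.cartan k (D.simple p) + (b : ℤ) * D.cartan k (D.simple q) := by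
  apply all_of <;> decide +kernel

theorem chkBraid_all : ∀ D ∈ allData, ∀ p < D.rank, ∀ q < D.rank, ∀ i < D.rank,
    wR D (alt (mOf D p q) p q) (D.simple i) = wR D (alt (mOf D p q) q p) (D.simple i) := by
  apply all_of <;> decide +kernel

theorem chkPow_all : ∀ D ∈ allData, ∀ p < D.rank, ∀ q < D.rank, ∀ i < D.rank,
    wR D (List.replicate (mOf D p q) [q, p]).flatten (D.simple i) = D.simple i := by
  apply all_of <;> decide +kernel

end Cfsg.Agent.Lib.Helper8
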