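import Cfsg.Agent.Lib.Helper8.Cox5

set_option autoImplicit false
set_option linter.unusedSectionVars false
set_option linter.unusedVariables false

/-! Generation of the Coxeter groups by the Coxeter element and a few reflections: certificates. -/

namespace Cfsg.Agent.Lib.Helper8

open Cfsg Cfsg.Lie

/-- each step `(A, B, C)` says that the word `C` represents the conjugate of `B` by `A` -/
noncomputable def chkSLP (D : ChevalleyDatum) : List (List ℕ) → List (List ℕ × List ℕ × List ℕ) → Bool
  | _, [] => true
  | acc, st :: rest =>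
    decide (st.1 ∈ acc) && (decide (st.2.1 ∈ acc) && (st.2.2.all (fun i => decide (i < D.rank)) &&
      ((List.range D.rank).all (fun a => decide (wR9 (nrowOf D) (st.1.reverse ++ st.2.1 ++ st.1) (D.simple a) =
        wR9 (nrowOf D) st.2.2 (D.simple a))) && chkSLP D (st.2.2 :: acc) rest)))

section
variable {D : ChevalleyDatum} (hD : D ∈ allData) {n : ℕ} (M : CoxeterMatrix (Fin n)) (hn : n = D.rank)
  (hM : ∀ i j : Fin n, M i j = mOf D i.val j.val)
include hD hn hM

theorem slp_sound (H : Subgroup M.Group) : ∀ (steps : List (List ℕ × List ℕ × List ℕ)) (acc : List (List ℕ)),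
    (∀ w ∈ acc, (∀ i ∈ w, i < n) ∧ om (cC M) w ∈ H) → chkSLP D acc steps = true →
    ∀ w ∈ acc ++ steps.map (fun st => st.2.2), om (cC M) w ∈ H
  | [], acc, hacc, _, w, hw => by
    simp only [List.map_nil, List.append_nil] at hw
    exact (hacc w hw).2
  | st :: rest, acc, hacc, h, w, hw => by
    obtain ⟨A, B, Cw⟩ := st
    simp only [chkSLP, Bool.and_eq_true, decide_eq_true_eq, List.all_eq_true, List.mem_range] at h
    obtain ⟨hA, hB, hC, hE, hrest⟩ := h
    have hCn : ∀ i ∈ Cw, i < n := fun i hi => hn ▸ hC i hi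
    have hAn := (hacc A hA).1
    have hBn := (hacc B hB).1
    have hW : ∀ i ∈ A.reverse ++ B ++ A, i < n := by
      intro i hi
      rcases List.mem_append.mp hi with h1 | h1
      · rcases List.mem_append.mp h1 with h2 | h2
        · exact hAn i (List.mem_reverse.mp h2)
        · exact hBn i h2
      · exact hAn i h1
    have e : om (cC M) Cw = om (cC M) (A.reverse ++ B ++ A) := by
      apply thC_injective hD M hn hM
      rw [thC_om hD M hn hM hCn, thC_om hD M hn hM hW]
      apply om_eq_of_simple hD hC (fun i hi => hn ▸ hW i hi)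
      intro a ha
      rw [← wR9_eq hD _ hC (simple_lt hD ha), ← wR9_eq hD _ (fun i hi => hn ▸ hW i hi) (simple_lt hD ha)]
      exact (hE a ha).symm
    have hCH : om (cC M) Cw ∈ H := by
      rw [e, om_append, om_append, om_reverse (cC M) (l := n) (fun p _ => cC_sq M p) A hAn, ← mul_assoc]
      exact H.mul_mem (H.mul_mem (hacc A hA).2 (hacc B hB).2) (H.inv_mem (hacc A hA).2)
    apply slp_sound H rest (Cw :: acc) _ hrest w
    · simp only [List.map_cons, List.mem_append, List.mem_cons, List.mem_map] at hw ⊢
      tauto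
    · intro v hv
      rcases List.mem_cons.mp hv with rfl | hv
      · exact ⟨hCn, hCH⟩
      · exact hacc v hv

theorem gen_of_slp (H : Subgroup M.Group) (hx : ((List.finRange n).map M.simple).prod ∈ H) (Tl : List ℕ)
    (hT : ∀ i ∈ Tl, i < n ∧ cC M i ∈ H) (steps : List (List ℕ × List ℕ × List ℕ))
    (h : chkSLP D ((List.range n).reverse :: Tl.map (fun i => [i])) steps = true)
    (hall : ∀ i < n, [i] ∈ ((List.range n).reverse :: Tl.map (fun i => [i])) ++ steps.map (fun st => st.2.2)) :
    H = ⊤ := by
  have h1 := slp_sound hD M hn hM H steps _ (by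
    intro w hw
    rcases List.mem_cons.mp hw with rfl | hw
    · refine ⟨fun i hi => List.mem_range.mp (List.mem_reverse.mp hi), ?_⟩
      rw [← coxElt_eq]
      exact hx
    · obtain ⟨i, hi, rfl⟩ := List.mem_map.mp hw
      refine ⟨fun a ha => by rw [List.mem_singleton.mp ha]; exact (hT i hi).1, ?_⟩
      rw [om_singleton]
      exact (hT i hi).2) h
  rw [eq_top_iff]
  intro x _
  obtain ⟨L, hL, rfl⟩ := exists_word M x
  induction L with
  | nil => exact H.one_mem
  | cons p L ih =>
    have hp := h1 [p] (hall p (hL p List.mem_cons_self))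
    rw [om_singleton] at hp
    exact H.mul_mem (ih (fun j hj => hL j (List.mem_cons_of_mem _ hj)) trivial) hp

theorem simple_ne {i j : Fin n} (s : ℕ) (hs : s < D.nroots)
    (h : D.reflectRoot i.val s ≠ D.reflectRoot j.val s) : M.simple i ≠ M.simple j := by
  intro e
  have e1 := congrArg (thC hD M hn hM) e
  rw [thC_simple, thC_simple] at e1
  have e2 := congrArg (fun f : Equiv.Perm ℕ => f s) e1
  rw [sP_apply hD (hn ▸ i.isLt), sP_apply hD (hn ▸ j.isLt), rf, rf, if_pos hs, if_pos hs] at e2
  exact h e2

end

theorem gen_rank2 (M : CoxeterMatrix (Fin 2)) :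
    ∃ T : Finset M.Group, T.card = 1 ∧ (∀ t ∈ T, ∃ (g : M.Group) (i : Fin 2), t = g * M.simple i * g⁻¹) ∧
      Subgroup.closure (({((List.finRange 2).map M.simple).prod} : Set M.Group) ∪ ↑T) = ⊤ := by
  refine ⟨{M.simple 0}, Finset.card_singleton _, ?_, ?_⟩
  · intro t ht
    rw [Finset.mem_singleton] at ht
    exact ⟨1, 0, by rw [ht]; group⟩
  · have hprod : ((List.finRange 2).map M.simple).prod = M.simple 0 * M.simple 1 := by
      simp [List.finRange_succ]
    rw [hprod, eq_top_iff, ← M.toCoxeterSystem.subgroup_closure_range_simple, Subgroup.closure_le]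
    rintro _ ⟨i, rfl⟩
    have h0 : M.simple 0 ∈ Subgroup.closure (({M.simple 0 * M.simple 1} : Set M.Group) ∪
        ↑({M.simple 0} : Finset M.Group)) := Subgroup.subset_closure (Or.inr (by simp))
    have h01 : M.simple 0 * M.simple 1 ∈ Subgroup.closure (({M.simple 0 * M.simple 1} : Set M.Group) ∪
        ↑({M.simple 0} : Finset M.Group)) := Subgroup.subset_closure (Or.inl rfl)
    fin_cases i
    · exact h0
    · have h1 := Subgroup.mul_mem _ h0 h01
      rw [← mul_assoc] at h1
      have h2 : M.simple 0 * M.simple 0 = 1 := M.toCoxeterSystem.simple_mul_simple_self 0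
      rw [h2, one_mul] at h1
      exact h1

end Cfsg.Agent.Lib.Helper8
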