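import Cfsg.Agent.Lib.Helper8.Cox10

set_option autoImplicit false
set_option linter.unusedSectionVars false
set_option linter.unusedVariables false
set_option maxRecDepth 100000

/-! Generation of the Coxeter groups by the Coxeter element and a few reflections: the data. -/

namespace Cfsg.Agent.Lib.Helper8

open Cfsg Cfsg.Lie

def slpD4 : List (List ℕ × List ℕ × List ℕ) :=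
  [([3, 2, 1, 0], [0], [1]),
   ([3, 2, 1, 0], [2], [2, 1, 0, 1, 2]),
   ([3, 2, 1, 0], [1], [3, 2, 1, 0, 1, 2, 3]),
   ([3, 2, 1, 0, 1, 2, 3], [2, 1, 0, 1, 2], [3])]

theorem slpD4_chk : chkSLP chevD4 ((List.range 4).reverse :: ([0, 2] : List ℕ).map (fun i => [i])) slpD4 = true := by
  decide +kernel

theorem slpD4_all : ∀ i < 4, [i] ∈ ((List.range 4).reverse :: ([0, 2] : List ℕ).map (fun i => [i])) ++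
    slpD4.map (fun st => st.2.2) := by
  decide +kernel

theorem genD4 : ∃ T : Finset coxeterD4.Group, T.card = 2 ∧
    (∀ t ∈ T, ∃ (g : coxeterD4.Group) (i : Fin 4), t = g * coxeterD4.simple i * g⁻¹) ∧
      Subgroup.closure (({((List.finRange 4).map coxeterD4.simple).prod} : Set coxeterD4.Group) ∪ ↑T) = ⊤ := by
  classical
  refine ⟨{coxeterD4.simple 0, coxeterD4.simple 2}, Finset.card_pair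
    (simple_ne (D := chevD4) (by simp [allData]) coxeterD4 rfl mat_D4 (i := 0) (j := 2) (chevD4.simple 0) (by decide +kernel)
      (by decide +kernel)), ?_, ?_⟩
  · intro t ht
    rw [Finset.mem_insert, Finset.mem_singleton] at ht
    rcases ht with ht | ht
    · exact ⟨1, 0, by rw [ht]; group⟩
    · exact ⟨1, 2, by rw [ht]; group⟩
  · apply gen_of_slp (D := chevD4) (by simp [allData]) coxeterD4 rfl mat_D4 _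
      (Subgroup.subset_closure (Or.inl rfl)) [0, 2] _ slpD4 slpD4_chk slpD4_all
    intro i hi
    simp only [List.mem_cons, List.not_mem_nil, or_false] at hi
    rcases hi with rfl | rfl
    · exact ⟨by decide, Subgroup.subset_closure (Or.inr (by
        rw [show cC coxeterD4 0 = coxeterD4.simple 0 from cC_val coxeterD4 (0 : Fin 4)]
        simp))⟩
    · exact ⟨by decide, Subgroup.subset_closure (Or.inr (by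
        rw [show cC coxeterD4 2 = coxeterD4.simple 2 from cC_val coxeterD4 (2 : Fin 4)]
        simp))⟩

def slpF4 : List (List ℕ × List ℕ × List ℕ) :=
  [([3, 2, 1, 0], [0], [1]),
   ([3, 2, 1, 0], [2], [3])]

theorem slpF4_chk : chkSLP chevF4 ((List.range 4).reverse :: ([0, 2] : List ℕ).map (fun i => [i])) slpF4 = true := by
  decide +kernel

theorem slpF4_all : ∀ i < 4, [i] ∈ ((List.range 4).reverse :: ([0, 2] : List ℕ).map (fun i => [i])) ++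
    slpF4.map (fun st => st.2.2) := by
  decide +kernel

theorem genF4 : ∃ T : Finset CoxeterMatrix.F₄.Group, T.card = 2 ∧
    (∀ t ∈ T, ∃ (g : CoxeterMatrix.F₄.Group) (i : Fin 4), t = g * CoxeterMatrix.F₄.simple i * g⁻¹) ∧
      Subgroup.closure (({((List.finRange 4).map CoxeterMatrix.F₄.simple).prod} : Set CoxeterMatrix.F₄.Group) ∪ ↑T) = ⊤ := by
  classical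
  refine ⟨{CoxeterMatrix.F₄.simple 0, CoxeterMatrix.F₄.simple 2}, Finset.card_pair
    (simple_ne (D := chevF4) (by simp [allData]) CoxeterMatrix.F₄ rfl mat_F4 (i := 0) (j := 2) (chevF4.simple 0) (by decide +kernel)
      (by decide +kernel)), ?_, ?_⟩
  · intro t ht
    rw [Finset.mem_insert, Finset.mem_singleton] at ht
    rcases ht with ht | ht
    · exact ⟨1, 0, by rw [ht]; group⟩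
    · exact ⟨1, 2, by rw [ht]; group⟩
  · apply gen_of_slp (D := chevF4) (by simp [allData]) CoxeterMatrix.F₄ rfl mat_F4 _
      (Subgroup.subset_closure (Or.inl rfl)) [0, 2] _ slpF4 slpF4_chk slpF4_all
    intro i hi
    simp only [List.mem_cons, List.not_mem_nil, or_false] at hi
    rcases hi with rfl | rfl
    · exact ⟨by decide, Subgroup.subset_closure (Or.inr (by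
        rw [show cC CoxeterMatrix.F₄ 0 = CoxeterMatrix.F₄.simple 0 from cC_val CoxeterMatrix.F₄ (0 : Fin 4)]
        simp))⟩
    · exact ⟨by decide, Subgroup.subset_closure (Or.inr (by
        rw [show cC CoxeterMatrix.F₄ 2 = CoxeterMatrix.F₄.simple 2 from cC_val CoxeterMatrix.F₄ (2 : Fin 4)]
        simp))⟩

def slpE6 : List (List ℕ × List ℕ × List ℕ) :=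
  [([5, 4, 3, 2, 1, 0], [0], [2]),
   ([5, 4, 3, 2, 1, 0], [2], [3, 1, 3]),
   ([3, 1, 3], [2], [2, 3, 1, 3, 2]),
   ([5, 4, 3, 2, 1, 0], [3, 1, 3], [4, 3, 2, 0, 2, 3, 4]),
   ([4, 3, 2, 0, 2, 3, 4], [3, 1, 3], [3, 4, 1, 3, 2, 0, 2, 3, 1, 4, 3]),
   ([4, 3, 2, 0, 2, 3, 4], [2, 3, 1, 3, 2], [2, 3, 4, 1, 3, 2, 0, 2, 3, 1, 4, 3, 2]),
   ([5, 4, 3, 2, 1, 0], [4, 3, 2, 0, 2, 3, 4], [5, 4, 2, 3, 1, 3, 2, 4, 5]),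
   ([5, 4, 2, 3, 1, 3, 2, 4, 5], [4, 3, 2, 0, 2, 3, 4], [4, 5, 2, 3, 4, 1, 3, 2, 0, 2, 3, 1, 4, 3, 2, 5, 4]),
   ([0], [3, 4, 1, 3, 2, 0, 2, 3, 1, 4, 3], [3, 4, 2, 3, 1, 3, 2, 4, 3]),
   ([5, 4, 2, 3, 1, 3, 2, 4, 5], [3, 4, 1, 3, 2, 0, 2, 3, 1, 4, 3], [1, 3, 4, 5, 2, 3, 4, 1, 3, 2, 0, 2, 3, 1, 4, 3, 2, 5, 4, 3, 1]),
   ([4, 5, 2, 3, 4, 1, 3, 2, 0, 2, 3, 1, 4, 3, 2, 5, 4], [2, 3, 4, 1, 3, 2, 0, 2, 3, 1, 4, 3, 2], [5, 4, 5]),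
   ([5, 4, 3, 2, 1, 0], [5, 4, 2, 3, 1, 3, 2, 4, 5], [3]),
   ([3], [5, 4, 2, 3, 1, 3, 2, 4, 5], [5, 3, 4, 2, 3, 1, 3, 2, 4, 3, 5]),
   ([3], [4, 5, 2, 3, 4, 1, 3, 2, 0, 2, 3, 1, 4, 3, 2, 5, 4], [3, 4, 5, 2, 3, 4, 1, 3, 2, 0, 2, 3, 1, 4, 3, 2, 5, 4, 3]),
   ([5, 3, 4, 2, 3, 1, 3, 2, 4, 3, 5], [3, 4, 2, 3, 1, 3, 2, 4, 3], [5]),
   ([3, 4, 5, 2, 3, 4, 1, 3, 2, 0, 2, 3, 1, 4, 3, 2, 5, 4, 3], [1, 3, 4, 5, 2, 3, 4, 1, 3, 2, 0, 2, 3, 1, 4, 3, 2, 5, 4, 3, 1], [1]),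
   ([5], [5, 4, 5], [4])]

theorem slpE6_chk : chkSLP chevE6 ((List.range 6).reverse :: ([0] : List ℕ).map (fun i => [i])) slpE6 = true := by
  decide +kernel

theorem slpE6_all : ∀ i < 6, [i] ∈ ((List.range 6).reverse :: ([0] : List ℕ).map (fun i => [i])) ++
    slpE6.map (fun st => st.2.2) := by
  decide +kernel

theorem genE6 : ∃ T : Finset CoxeterMatrix.E₆.Group, T.card = 1 ∧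
    (∀ t ∈ T, ∃ (g : CoxeterMatrix.E₆.Group) (i : Fin 6), t = g * CoxeterMatrix.E₆.simple i * g⁻¹) ∧
      Subgroup.closure (({((List.finRange 6).map CoxeterMatrix.E₆.simple).prod} : Set CoxeterMatrix.E₆.Group) ∪ ↑T) = ⊤ := by
  refine ⟨{CoxeterMatrix.E₆.simple 0}, Finset.card_singleton _, ?_, ?_⟩
  · intro t ht
    rw [Finset.mem_singleton] at ht
    exact ⟨1, 0, by rw [ht]; group⟩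
  · apply gen_of_slp (D := chevE6) (by simp [allData]) CoxeterMatrix.E₆ rfl mat_E6 _
      (Subgroup.subset_closure (Or.inl rfl)) [0] _ slpE6 slpE6_chk slpE6_all
    intro i hi
    rw [List.mem_singleton] at hi
    subst hi
    exact ⟨by decide, Subgroup.subset_closure (Or.inr (by
      rw [show cC CoxeterMatrix.E₆ 0 = CoxeterMatrix.E₆.simple 0 from cC_val CoxeterMatrix.E₆ (0 : Fin 6)]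
      simp))⟩

def slpE7 : List (List ℕ × List ℕ × List ℕ) :=
  [([6, 5, 4, 3, 2, 1, 0], [1], [3, 2, 0, 2, 3]),
   ([3, 2, 0, 2, 3], [1], [1, 3, 2, 0, 2, 3, 1]),
   ([6, 5, 4, 3, 2, 1, 0], [3, 2, 0, 2, 3], [4, 2, 3, 1, 3, 2, 4]),
   ([4, 2, 3, 1, 3, 2, 4], [3, 2, 0, 2, 3], [2, 3, 4, 1, 3, 2, 0, 2, 3, 1, 4, 3, 2]),
   ([2, 3, 4, 1, 3, 2, 0, 2, 3, 1, 4, 3, 2], [1, 3, 2, 0, 2, 3, 1], [4, 3, 2, 3, 4]),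
   ([6, 5, 4, 3, 2, 1, 0], [4, 2, 3, 1, 3, 2, 4], [5, 3, 4, 1, 3, 2, 0, 2, 3, 1, 4, 3, 5]),
   ([5, 3, 4, 1, 3, 2, 0, 2, 3, 1, 4, 3, 5], [4, 2, 3, 1, 3, 2, 4], [1, 3, 4, 5, 2, 3, 4, 1, 3, 2, 0, 2, 3, 1, 4, 3, 2, 5, 4, 3, 1]),
   ([1, 3, 4, 5, 2, 3, 4, 1, 3, 2, 0, 2, 3, 1, 4, 3, 2, 5, 4, 3, 1], [2, 3, 4, 1, 3, 2, 0, 2, 3, 1, 4, 3, 2], [5, 4, 3, 1, 3, 4, 5]),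
   ([5, 3, 4, 1, 3, 2, 0, 2, 3, 1, 4, 3, 5], [4, 3, 2, 3, 4], [3, 4, 5, 2, 3, 4, 1, 3, 2, 0, 2, 3, 1, 4, 3, 2, 5, 4, 3]),
   ([5, 4, 3, 1, 3, 4, 5], [4, 3, 2, 3, 4], [4, 5, 3, 4, 2, 3, 1, 3, 2, 4, 3, 5, 4]),
   ([6, 5, 4, 3, 2, 1, 0], [5, 3, 4, 1, 3, 2, 0, 2, 3, 1, 4, 3, 5], [6, 4, 5, 2, 3, 4, 1, 3, 2, 0, 2, 3, 1, 4, 3, 2, 5, 4, 6]),
   ([1, 3, 2, 0, 2, 3, 1], [5, 3, 4, 1, 3, 2, 0, 2, 3, 1, 4, 3, 5], [5, 4, 3, 4, 5]),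
   ([6, 4, 5, 2, 3, 4, 1, 3, 2, 0, 2, 3, 1, 4, 3, 2, 5, 4, 6], [5, 3, 4, 1, 3, 2, 0, 2, 3, 1, 4, 3, 5], [0, 2, 3, 4, 5, 6, 1, 3, 4, 5, 2, 3, 4, 1, 3, 2, 0, 2, 3, 1, 4, 3, 2, 5, 4, 3, 1, 6, 5, 4, 3, 2, 0]),
   ([0, 2, 3, 4, 5, 6, 1, 3, 4, 5, 2, 3, 4, 1, 3, 2, 0, 2, 3, 1, 4, 3, 2, 5, 4, 3, 1, 6, 5, 4, 3, 2, 0], [1, 3, 4, 5, 2, 3, 4, 1, 3, 2, 0, 2, 3, 1, 4, 3, 2, 5, 4, 3, 1], [6, 5, 4, 3, 2, 0, 2, 3, 4, 5, 6]),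
   ([6, 4, 5, 2, 3, 4, 1, 3, 2, 0, 2, 3, 1, 4, 3, 2, 5, 4, 6], [5, 4, 3, 1, 3, 4, 5], [4, 5, 6, 1, 3, 4, 5, 2, 3, 4, 1, 3, 2, 0, 2, 3, 1, 4, 3, 2, 5, 4, 3, 1, 6, 5, 4]),
   ([6, 5, 4, 3, 2, 0, 2, 3, 4, 5, 6], [5, 4, 3, 1, 3, 4, 5], [5, 6, 4, 5, 3, 4, 1, 3, 2, 0, 2, 3, 1, 4, 3, 5, 4, 6, 5]),
   ([0, 2, 3, 4, 5, 6, 1, 3, 4, 5, 2, 3, 4, 1, 3, 2, 0, 2, 3, 1, 4, 3, 2, 5, 4, 3, 1, 6, 5, 4, 3, 2, 0], [3, 4, 5, 2, 3, 4, 1, 3, 2, 0, 2, 3, 1, 4, 3, 2, 5, 4, 3], [6, 5, 4, 1, 3, 2, 0, 2, 3, 1, 4, 5, 6]),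
   ([6, 5, 4, 3, 2, 0, 2, 3, 4, 5, 6], [4, 5, 3, 4, 2, 3, 1, 3, 2, 4, 3, 5, 4], [4, 5, 6, 3, 4, 5, 2, 3, 4, 1, 3, 2, 0, 2, 3, 1, 4, 3, 2, 5, 4, 3, 6, 5, 4]),
   ([6, 5, 4, 3, 2, 1, 0], [6, 4, 5, 2, 3, 4, 1, 3, 2, 0, 2, 3, 1, 4, 3, 2, 5, 4, 6], [5, 3, 4, 2, 3, 1, 3, 2, 4, 3, 5]),
   ([5, 3, 4, 2, 3, 1, 3, 2, 4, 3, 5], [6, 4, 5, 2, 3, 4, 1, 3, 2, 0, 2, 3, 1, 4, 3, 2, 5, 4, 6], [2, 3, 4, 5, 6, 1, 3, 4, 5, 2, 3, 4, 1, 3, 2, 0, 2, 3, 1, 4, 3, 2, 5, 4, 3, 1, 6, 5, 4, 3, 2]),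
   ([5, 3, 4, 2, 3, 1, 3, 2, 4, 3, 5], [5, 4, 3, 4, 5], [2, 3, 1, 3, 2]),
   ([2, 3, 4, 5, 6, 1, 3, 4, 5, 2, 3, 4, 1, 3, 2, 0, 2, 3, 1, 4, 3, 2, 5, 4, 3, 1, 6, 5, 4, 3, 2], [0, 2, 3, 4, 5, 6, 1, 3, 4, 5, 2, 3, 4, 1, 3, 2, 0, 2, 3, 1, 4, 3, 2, 5, 4, 3, 1, 6, 5, 4, 3, 2, 0], [0]),
   ([5, 3, 4, 2, 3, 1, 3, 2, 4, 3, 5], [6, 5, 4, 3, 2, 0, 2, 3, 4, 5, 6], [5, 6, 3, 4, 5, 2, 3, 4, 1, 3, 2, 0, 2, 3, 1, 4, 3, 2, 5, 4, 3, 6, 5]),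
   ([2, 3, 1, 3, 2], [6, 5, 4, 3, 2, 0, 2, 3, 4, 5, 6], [6, 5, 2, 3, 4, 1, 3, 2, 0, 2, 3, 1, 4, 3, 2, 5, 6]),
   ([2, 3, 4, 5, 6, 1, 3, 4, 5, 2, 3, 4, 1, 3, 2, 0, 2, 3, 1, 4, 3, 2, 5, 4, 3, 1, 6, 5, 4, 3, 2], [4, 5, 6, 1, 3, 4, 5, 2, 3, 4, 1, 3, 2, 0, 2, 3, 1, 4, 3, 2, 5, 4, 3, 1, 6, 5, 4], [3, 2, 3]),
   ([2, 3, 1, 3, 2], [5, 6, 4, 5, 3, 4, 1, 3, 2, 0, 2, 3, 1, 4, 3, 5, 4, 6, 5], [5, 6, 1, 3, 4, 5, 2, 3, 4, 1, 3, 2, 0, 2, 3, 1, 4, 3, 2, 5, 4, 3, 1, 6, 5]),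
   ([0], [6, 5, 4, 1, 3, 2, 0, 2, 3, 1, 4, 5, 6], [6, 5, 4, 2, 3, 1, 3, 2, 4, 5, 6]),
   ([5, 6, 3, 4, 5, 2, 3, 4, 1, 3, 2, 0, 2, 3, 1, 4, 3, 2, 5, 4, 3, 6, 5], [4, 5, 6, 3, 4, 5, 2, 3, 4, 1, 3, 2, 0, 2, 3, 1, 4, 3, 2, 5, 4, 3, 6, 5, 4], [4]),
   ([6, 5, 4, 3, 2, 1, 0], [5, 3, 4, 2, 3, 1, 3, 2, 4, 3, 5], [6, 4, 5, 3, 4, 1, 3, 2, 0, 2, 3, 1, 4, 3, 5, 4, 6]),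
   ([6, 4, 5, 3, 4, 1, 3, 2, 0, 2, 3, 1, 4, 3, 5, 4, 6], [5, 3, 4, 2, 3, 1, 3, 2, 4, 3, 5], [3, 4, 5, 6, 1, 3, 4, 5, 2, 3, 4, 1, 3, 2, 0, 2, 3, 1, 4, 3, 2, 5, 4, 3, 1, 6, 5, 4, 3]),
   ([3, 4, 5, 6, 1, 3, 4, 5, 2, 3, 4, 1, 3, 2, 0, 2, 3, 1, 4, 3, 2, 5, 4, 3, 1, 6, 5, 4, 3], [2, 3, 4, 5, 6, 1, 3, 4, 5, 2, 3, 4, 1, 3, 2, 0, 2, 3, 1, 4, 3, 2, 5, 4, 3, 1, 6, 5, 4, 3, 2], [2]),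
   ([6, 4, 5, 3, 4, 1, 3, 2, 0, 2, 3, 1, 4, 3, 5, 4, 6], [2, 3, 1, 3, 2], [6, 1, 3, 4, 5, 2, 3, 4, 1, 3, 2, 0, 2, 3, 1, 4, 3, 2, 5, 4, 3, 1, 6]),
   ([2], [6, 5, 2, 3, 4, 1, 3, 2, 0, 2, 3, 1, 4, 3, 2, 5, 6], [6, 5, 3, 4, 1, 3, 2, 0, 2, 3, 1, 4, 3, 5, 6]),
   ([2], [3, 2, 3], [3]),
   ([6, 1, 3, 4, 5, 2, 3, 4, 1, 3, 2, 0, 2, 3, 1, 4, 3, 2, 5, 4, 3, 1, 6], [5, 6, 1, 3, 4, 5, 2, 3, 4, 1, 3, 2, 0, 2, 3, 1, 4, 3, 2, 5, 4, 3, 1, 6, 5], [5]),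
   ([6, 5, 3, 4, 1, 3, 2, 0, 2, 3, 1, 4, 3, 5, 6], [5, 6, 1, 3, 4, 5, 2, 3, 4, 1, 3, 2, 0, 2, 3, 1, 4, 3, 2, 5, 4, 3, 1, 6, 5], [5, 4, 2, 3, 1, 3, 2, 4, 5]),
   ([5, 4, 2, 3, 1, 3, 2, 4, 5], [6, 5, 4, 2, 3, 1, 3, 2, 4, 5, 6], [6])]

theorem slpE7_chk : chkSLP chevE7 ((List.range 7).reverse :: ([1] : List ℕ).map (fun i => [i])) slpE7 = true := by
  decide +kernel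

theorem slpE7_all : ∀ i < 7, [i] ∈ ((List.range 7).reverse :: ([1] : List ℕ).map (fun i => [i])) ++
    slpE7.map (fun st => st.2.2) := by
  decide +kernel

theorem genE7 : ∃ T : Finset CoxeterMatrix.E₇.Group, T.card = 1 ∧
    (∀ t ∈ T, ∃ (g : CoxeterMatrix.E₇.Group) (i : Fin 7), t = g * CoxeterMatrix.E₇.simple i * g⁻¹) ∧
      Subgroup.closure (({((List.finRange 7).map CoxeterMatrix.E₇.simple).prod} : Set CoxeterMatrix.E₇.Group) ∪ ↑T) = ⊤ := by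
  refine ⟨{CoxeterMatrix.E₇.simple 1}, Finset.card_singleton _, ?_, ?_⟩
  · intro t ht
    rw [Finset.mem_singleton] at ht
    exact ⟨1, 1, by rw [ht]; group⟩
  · apply gen_of_slp (D := chevE7) (by simp [allData]) CoxeterMatrix.E₇ rfl mat_E7 _
      (Subgroup.subset_closure (Or.inl rfl)) [1] _ slpE7 slpE7_chk slpE7_all
    intro i hi
    rw [List.mem_singleton] at hi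
    subst hi
    exact ⟨by decide, Subgroup.subset_closure (Or.inr (by
      rw [show cC CoxeterMatrix.E₇ 1 = CoxeterMatrix.E₇.simple 1 from cC_val CoxeterMatrix.E₇ (1 : Fin 7)]
      simp))⟩

def slpE8 : List (List ℕ × List ℕ × List ℕ) :=
  [([7, 6, 5, 4, 3, 2, 1, 0], [0], [2]),
   ([2], [0], [2, 0, 2]),
   ([7, 6, 5, 4, 3, 2, 1, 0], [2], [3, 1, 3]),
   ([3, 1, 3], [2], [2, 3, 1, 3, 2]),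
   ([3, 1, 3], [2, 0, 2], [1, 3, 2, 0, 2, 3, 1]),
   ([7, 6, 5, 4, 3, 2, 1, 0], [3, 1, 3], [4, 3, 2, 0, 2, 3, 4]),
   ([4, 3, 2, 0, 2, 3, 4], [3, 1, 3], [3, 4, 1, 3, 2, 0, 2, 3, 1, 4, 3]),
   ([4, 3, 2, 0, 2, 3, 4], [2, 3, 1, 3, 2], [2, 3, 4, 1, 3, 2, 0, 2, 3, 1, 4, 3, 2]),
   ([3, 4, 1, 3, 2, 0, 2, 3, 1, 4, 3], [1, 3, 2, 0, 2, 3, 1], [4, 3, 4]),
   ([7, 6, 5, 4, 3, 2, 1, 0], [4, 3, 2, 0, 2, 3, 4], [5, 4, 2, 3, 1, 3, 2, 4, 5]),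
   ([5, 4, 2, 3, 1, 3, 2, 4, 5], [4, 3, 2, 0, 2, 3, 4], [4, 5, 2, 3, 4, 1, 3, 2, 0, 2, 3, 1, 4, 3, 2, 5, 4]),
   ([5, 4, 2, 3, 1, 3, 2, 4, 5], [3, 4, 1, 3, 2, 0, 2, 3, 1, 4, 3], [1, 3, 4, 5, 2, 3, 4, 1, 3, 2, 0, 2, 3, 1, 4, 3, 2, 5, 4, 3, 1]),
   ([4, 5, 2, 3, 4, 1, 3, 2, 0, 2, 3, 1, 4, 3, 2, 5, 4], [2, 3, 4, 1, 3, 2, 0, 2, 3, 1, 4, 3, 2], [5, 4, 5]),
   ([5, 4, 2, 3, 1, 3, 2, 4, 5], [4, 3, 4], [4, 5, 3, 4, 2, 3, 1, 3, 2, 4, 3, 5, 4]),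
   ([7, 6, 5, 4, 3, 2, 1, 0], [5, 4, 2, 3, 1, 3, 2, 4, 5], [6, 5, 3, 4, 1, 3, 2, 0, 2, 3, 1, 4, 3, 5, 6]),
   ([6, 5, 3, 4, 1, 3, 2, 0, 2, 3, 1, 4, 3, 5, 6], [5, 4, 2, 3, 1, 3, 2, 4, 5], [5, 6, 1, 3, 4, 5, 2, 3, 4, 1, 3, 2, 0, 2, 3, 1, 4, 3, 2, 5, 4, 3, 1, 6, 5]),
   ([6, 5, 3, 4, 1, 3, 2, 0, 2, 3, 1, 4, 3, 5, 6], [4, 5, 2, 3, 4, 1, 3, 2, 0, 2, 3, 1, 4, 3, 2, 5, 4], [0, 2, 3, 4, 5, 6, 1, 3, 4, 5, 2, 3, 4, 1, 3, 2, 0, 2, 3, 1, 4, 3, 2, 5, 4, 3, 1, 6, 5, 4, 3, 2, 0]),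
   ([5, 6, 1, 3, 4, 5, 2, 3, 4, 1, 3, 2, 0, 2, 3, 1, 4, 3, 2, 5, 4, 3, 1, 6, 5], [1, 3, 4, 5, 2, 3, 4, 1, 3, 2, 0, 2, 3, 1, 4, 3, 2, 5, 4, 3, 1], [6, 5, 6]),
   ([0, 2, 3, 4, 5, 6, 1, 3, 4, 5, 2, 3, 4, 1, 3, 2, 0, 2, 3, 1, 4, 3, 2, 5, 4, 3, 1, 6, 5, 4, 3, 2, 0], [1, 3, 4, 5, 2, 3, 4, 1, 3, 2, 0, 2, 3, 1, 4, 3, 2, 5, 4, 3, 1], [6, 5, 4, 3, 2, 0, 2, 3, 4, 5, 6]),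
   ([6, 5, 3, 4, 1, 3, 2, 0, 2, 3, 1, 4, 3, 5, 6], [5, 4, 5], [5, 6, 4, 5, 3, 4, 1, 3, 2, 0, 2, 3, 1, 4, 3, 5, 4, 6, 5]),
   ([6, 5, 3, 4, 1, 3, 2, 0, 2, 3, 1, 4, 3, 5, 6], [4, 5, 3, 4, 2, 3, 1, 3, 2, 4, 3, 5, 4], [3, 4, 5, 6, 1, 3, 4, 5, 2, 3, 4, 1, 3, 2, 0, 2, 3, 1, 4, 3, 2, 5, 4, 3, 1, 6, 5, 4, 3]),
   ([7, 6, 5, 4, 3, 2, 1, 0], [6, 5, 3, 4, 1, 3, 2, 0, 2, 3, 1, 4, 3, 5, 6], [7, 6, 4, 5, 2, 3, 4, 1, 3, 2, 0, 2, 3, 1, 4, 3, 2, 5, 4, 6, 7]),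
   ([7, 6, 4, 5, 2, 3, 4, 1, 3, 2, 0, 2, 3, 1, 4, 3, 2, 5, 4, 6, 7], [6, 5, 3, 4, 1, 3, 2, 0, 2, 3, 1, 4, 3, 5, 6], [6, 7, 0, 2, 3, 4, 5, 6, 1, 3, 4, 5, 2, 3, 4, 1, 3, 2, 0, 2, 3, 1, 4, 3, 2, 5, 4, 3, 1, 6, 5, 4, 3, 2, 0, 7, 6]),
   ([7, 6, 4, 5, 2, 3, 4, 1, 3, 2, 0, 2, 3, 1, 4, 3, 2, 5, 4, 6, 7], [5, 6, 1, 3, 4, 5, 2, 3, 4, 1, 3, 2, 0, 2, 3, 1, 4, 3, 2, 5, 4, 3, 1, 6, 5], [2, 1, 3, 4, 5, 6, 7, 0, 2, 3, 4, 5, 6, 1, 3, 4, 5, 2, 3, 4, 1, 3, 2, 0, 2, 3, 1, 4, 3, 2, 5, 4, 3, 1, 6, 5, 4, 3, 2, 0, 7, 6, 5, 4, 3, 1, 2]),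
   ([6, 7, 0, 2, 3, 4, 5, 6, 1, 3, 4, 5, 2, 3, 4, 1, 3, 2, 0, 2, 3, 1, 4, 3, 2, 5, 4, 3, 1, 6, 5, 4, 3, 2, 0, 7, 6], [0, 2, 3, 4, 5, 6, 1, 3, 4, 5, 2, 3, 4, 1, 3, 2, 0, 2, 3, 1, 4, 3, 2, 5, 4, 3, 1, 6, 5, 4, 3, 2, 0], [7, 6, 7]),
   ([2, 1, 3, 4, 5, 6, 7, 0, 2, 3, 4, 5, 6, 1, 3, 4, 5, 2, 3, 4, 1, 3, 2, 0, 2, 3, 1, 4, 3, 2, 5, 4, 3, 1, 6, 5, 4, 3, 2, 0, 7, 6, 5, 4, 3, 1, 2], [0, 2, 3, 4, 5, 6, 1, 3, 4, 5, 2, 3, 4, 1, 3, 2, 0, 2, 3, 1, 4, 3, 2, 5, 4, 3, 1, 6, 5, 4, 3, 2, 0], [7, 6, 5, 4, 2, 3, 1, 3, 2, 4, 5, 6, 7]),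
   ([7, 6, 4, 5, 2, 3, 4, 1, 3, 2, 0, 2, 3, 1, 4, 3, 2, 5, 4, 6, 7], [6, 5, 6], [6, 7, 5, 6, 4, 5, 2, 3, 4, 1, 3, 2, 0, 2, 3, 1, 4, 3, 2, 5, 4, 6, 5, 7, 6]),
   ([6, 7, 0, 2, 3, 4, 5, 6, 1, 3, 4, 5, 2, 3, 4, 1, 3, 2, 0, 2, 3, 1, 4, 3, 2, 5, 4, 3, 1, 6, 5, 4, 3, 2, 0, 7, 6], [6, 5, 4, 3, 2, 0, 2, 3, 4, 5, 6], [7, 6, 1, 3, 4, 5, 2, 3, 4, 1, 3, 2, 0, 2, 3, 1, 4, 3, 2, 5, 4, 3, 1, 6, 7]),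
   ([7, 6, 4, 5, 2, 3, 4, 1, 3, 2, 0, 2, 3, 1, 4, 3, 2, 5, 4, 6, 7], [5, 6, 4, 5, 3, 4, 1, 3, 2, 0, 2, 3, 1, 4, 3, 5, 4, 6, 5], [4, 5, 6, 7, 0, 2, 3, 4, 5, 6, 1, 3, 4, 5, 2, 3, 4, 1, 3, 2, 0, 2, 3, 1, 4, 3, 2, 5, 4, 3, 1, 6, 5, 4, 3, 2, 0, 7, 6, 5, 4]),
   ([7, 6, 5, 4, 2, 3, 1, 3, 2, 4, 5, 6, 7], [5, 6, 4, 5, 3, 4, 1, 3, 2, 0, 2, 3, 1, 4, 3, 5, 4, 6, 5], [5, 6, 7, 4, 5, 6, 1, 3, 4, 5, 2, 3, 4, 1, 3, 2, 0, 2, 3, 1, 4, 3, 2, 5, 4, 3, 1, 6, 5, 4, 7, 6, 5]),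
   ([7, 6, 1, 3, 4, 5, 2, 3, 4, 1, 3, 2, 0, 2, 3, 1, 4, 3, 2, 5, 4, 3, 1, 6, 7], [5, 6, 4, 5, 3, 4, 1, 3, 2, 0, 2, 3, 1, 4, 3, 5, 4, 6, 5], [1, 3, 4, 5, 6, 7, 0, 2, 3, 4, 5, 6, 1, 3, 4, 5, 2, 3, 4, 1, 3, 2, 0, 2, 3, 1, 4, 3, 2, 5, 4, 3, 1, 6, 5, 4, 3, 2, 0, 7, 6, 5, 4, 3, 1]),
   ([7, 6, 4, 5, 2, 3, 4, 1, 3, 2, 0, 2, 3, 1, 4, 3, 2, 5, 4, 6, 7], [3, 4, 5, 6, 1, 3, 4, 5, 2, 3, 4, 1, 3, 2, 0, 2, 3, 1, 4, 3, 2, 5, 4, 3, 1, 6, 5, 4, 3], [4, 3, 2, 1, 3, 4, 5, 6, 7, 0, 2, 3, 4, 5, 6, 1, 3, 4, 5, 2, 3, 4, 1, 3, 2, 0, 2, 3, 1, 4, 3, 2, 5, 4, 3, 1, 6, 5, 4, 3, 2, 0, 7, 6, 5, 4, 3, 1, 2, 3, 4]),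
   ([7, 6, 7], [3, 4, 5, 6, 1, 3, 4, 5, 2, 3, 4, 1, 3, 2, 0, 2, 3, 1, 4, 3, 2, 5, 4, 3, 1, 6, 5, 4, 3], [6, 7, 3, 4, 5, 6, 1, 3, 4, 5, 2, 3, 4, 1, 3, 2, 0, 2, 3, 1, 4, 3, 2, 5, 4, 3, 1, 6, 5, 4, 3, 7, 6]),
   ([6, 7, 5, 6, 4, 5, 2, 3, 4, 1, 3, 2, 0, 2, 3, 1, 4, 3, 2, 5, 4, 6, 5, 7, 6], [3, 4, 5, 6, 1, 3, 4, 5, 2, 3, 4, 1, 3, 2, 0, 2, 3, 1, 4, 3, 2, 5, 4, 3, 1, 6, 5, 4, 3], [6, 5, 4, 3, 2, 1, 3, 4, 5, 6, 7, 0, 2, 3, 4, 5, 6, 1, 3, 4, 5, 2, 3, 4, 1, 3, 2, 0, 2, 3, 1, 4, 3, 2, 5, 4, 3, 1, 6, 5, 4, 3, 2, 0, 7, 6, 5, 4, 3, 1, 2, 3, 4, 5, 6]),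
   ([7, 6, 5, 4, 3, 2, 1, 0], [7, 6, 4, 5, 2, 3, 4, 1, 3, 2, 0, 2, 3, 1, 4, 3, 2, 5, 4, 6, 7], [5, 3, 4, 2, 3, 1, 3, 2, 4, 3, 5]),
   ([5, 3, 4, 2, 3, 1, 3, 2, 4, 3, 5], [7, 6, 4, 5, 2, 3, 4, 1, 3, 2, 0, 2, 3, 1, 4, 3, 2, 5, 4, 6, 7], [7, 2, 3, 4, 5, 6, 1, 3, 4, 5, 2, 3, 4, 1, 3, 2, 0, 2, 3, 1, 4, 3, 2, 5, 4, 3, 1, 6, 5, 4, 3, 2, 7]),
   ([5, 3, 4, 2, 3, 1, 3, 2, 4, 3, 5], [6, 7, 0, 2, 3, 4, 5, 6, 1, 3, 4, 5, 2, 3, 4, 1, 3, 2, 0, 2, 3, 1, 4, 3, 2, 5, 4, 3, 1, 6, 5, 4, 3, 2, 0, 7, 6], [3, 2, 1, 3, 4, 5, 6, 7, 0, 2, 3, 4, 5, 6, 1, 3, 4, 5, 2, 3, 4, 1, 3, 2, 0, 2, 3, 1, 4, 3, 2, 5, 4, 3, 1, 6, 5, 4, 3, 2, 0, 7, 6, 5, 4, 3, 1, 2, 3]),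
   ([7, 2, 3, 4, 5, 6, 1, 3, 4, 5, 2, 3, 4, 1, 3, 2, 0, 2, 3, 1, 4, 3, 2, 5, 4, 3, 1, 6, 5, 4, 3, 2, 7], [2, 1, 3, 4, 5, 6, 7, 0, 2, 3, 4, 5, 6, 1, 3, 4, 5, 2, 3, 4, 1, 3, 2, 0, 2, 3, 1, 4, 3, 2, 5, 4, 3, 1, 6, 5, 4, 3, 2, 0, 7, 6, 5, 4, 3, 1, 2], [6, 5, 4, 1, 3, 2, 0, 2, 3, 1, 4, 5, 6]),
   ([3, 2, 1, 3, 4, 5, 6, 7, 0, 2, 3, 4, 5, 6, 1, 3, 4, 5, 2, 3, 4, 1, 3, 2, 0, 2, 3, 1, 4, 3, 2, 5, 4, 3, 1, 6, 5, 4, 3, 2, 0, 7, 6, 5, 4, 3, 1, 2, 3], [2, 1, 3, 4, 5, 6, 7, 0, 2, 3, 4, 5, 6, 1, 3, 4, 5, 2, 3, 4, 1, 3, 2, 0, 2, 3, 1, 4, 3, 2, 5, 4, 3, 1, 6, 5, 4, 3, 2, 0, 7, 6, 5, 4, 3, 1, 2], [3]),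
   ([5, 3, 4, 2, 3, 1, 3, 2, 4, 3, 5], [7, 6, 7], [7, 6, 5, 3, 4, 2, 3, 1, 3, 2, 4, 3, 5, 6, 7]),
   ([7, 6, 5, 3, 4, 2, 3, 1, 3, 2, 4, 3, 5, 6, 7], [7, 6, 1, 3, 4, 5, 2, 3, 4, 1, 3, 2, 0, 2, 3, 1, 4, 3, 2, 5, 4, 3, 1, 6, 7], [4, 1, 3, 2, 0, 2, 3, 1, 4]),
   ([5, 3, 4, 2, 3, 1, 3, 2, 4, 3, 5], [4, 5, 6, 7, 0, 2, 3, 4, 5, 6, 1, 3, 4, 5, 2, 3, 4, 1, 3, 2, 0, 2, 3, 1, 4, 3, 2, 5, 4, 3, 1, 6, 5, 4, 3, 2, 0, 7, 6, 5, 4], [5, 4, 3, 2, 1, 3, 4, 5, 6, 7, 0, 2, 3, 4, 5, 6, 1, 3, 4, 5, 2, 3, 4, 1, 3, 2, 0, 2, 3, 1, 4, 3, 2, 5, 4, 3, 1, 6, 5, 4, 3, 2, 0, 7, 6, 5, 4, 3, 1, 2, 3, 4, 5]),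
   ([7, 6, 5, 3, 4, 2, 3, 1, 3, 2, 4, 3, 5, 6, 7], [4, 5, 6, 7, 0, 2, 3, 4, 5, 6, 1, 3, 4, 5, 2, 3, 4, 1, 3, 2, 0, 2, 3, 1, 4, 3, 2, 5, 4, 3, 1, 6, 5, 4, 3, 2, 0, 7, 6, 5, 4], [7, 6, 5, 4, 3, 2, 1, 3, 4, 5, 6, 7, 0, 2, 3, 4, 5, 6, 1, 3, 4, 5, 2, 3, 4, 1, 3, 2, 0, 2, 3, 1, 4, 3, 2, 5, 4, 3, 1, 6, 5, 4, 3, 2, 0, 7, 6, 5, 4, 3, 1, 2, 3, 4, 5, 6, 7]),
   ([4, 1, 3, 2, 0, 2, 3, 1, 4], [4, 5, 6, 7, 0, 2, 3, 4, 5, 6, 1, 3, 4, 5, 2, 3, 4, 1, 3, 2, 0, 2, 3, 1, 4, 3, 2, 5, 4, 3, 1, 6, 5, 4, 3, 2, 0, 7, 6, 5, 4], [5, 6, 7, 4, 5, 6, 3, 4, 5, 2, 3, 4, 1, 3, 2, 0, 2, 3, 1, 4, 3, 2, 5, 4, 3, 6, 5, 4, 7, 6, 5]),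
   ([5, 6, 7, 4, 5, 6, 3, 4, 5, 2, 3, 4, 1, 3, 2, 0, 2, 3, 1, 4, 3, 2, 5, 4, 3, 6, 5, 4, 7, 6, 5], [5, 6, 7, 4, 5, 6, 1, 3, 4, 5, 2, 3, 4, 1, 3, 2, 0, 2, 3, 1, 4, 3, 2, 5, 4, 3, 1, 6, 5, 4, 7, 6, 5], [1]),
   ([6, 5, 4, 1, 3, 2, 0, 2, 3, 1, 4, 5, 6], [1, 3, 4, 5, 6, 7, 0, 2, 3, 4, 5, 6, 1, 3, 4, 5, 2, 3, 4, 1, 3, 2, 0, 2, 3, 1, 4, 3, 2, 5, 4, 3, 1, 6, 5, 4, 3, 2, 0, 7, 6, 5, 4, 3, 1], [7, 3, 4, 5, 6, 1, 3, 4, 5, 2, 3, 4, 1, 3, 2, 0, 2, 3, 1, 4, 3, 2, 5, 4, 3, 1, 6, 5, 4, 3, 7]),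
   ([3, 2, 1, 3, 4, 5, 6, 7, 0, 2, 3, 4, 5, 6, 1, 3, 4, 5, 2, 3, 4, 1, 3, 2, 0, 2, 3, 1, 4, 3, 2, 5, 4, 3, 1, 6, 5, 4, 3, 2, 0, 7, 6, 5, 4, 3, 1, 2, 3], [4, 3, 2, 1, 3, 4, 5, 6, 7, 0, 2, 3, 4, 5, 6, 1, 3, 4, 5, 2, 3, 4, 1, 3, 2, 0, 2, 3, 1, 4, 3, 2, 5, 4, 3, 1, 6, 5, 4, 3, 2, 0, 7, 6, 5, 4, 3, 1, 2, 3, 4], [4]),
   ([5, 4, 3, 2, 1, 3, 4, 5, 6, 7, 0, 2, 3, 4, 5, 6, 1, 3, 4, 5, 2, 3, 4, 1, 3, 2, 0, 2, 3, 1, 4, 3, 2, 5, 4, 3, 1, 6, 5, 4, 3, 2, 0, 7, 6, 5, 4, 3, 1, 2, 3, 4, 5], [4, 3, 2, 1, 3, 4, 5, 6, 7, 0, 2, 3, 4, 5, 6, 1, 3, 4, 5, 2, 3, 4, 1, 3, 2, 0, 2, 3, 1, 4, 3, 2, 5, 4, 3, 1, 6, 5, 4, 3, 2, 0, 7, 6, 5, 4, 3, 1, 2, 3, 4], [5]),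
   ([7, 3, 4, 5, 6, 1, 3, 4, 5, 2, 3, 4, 1, 3, 2, 0, 2, 3, 1, 4, 3, 2, 5, 4, 3, 1, 6, 5, 4, 3, 7], [6, 7, 3, 4, 5, 6, 1, 3, 4, 5, 2, 3, 4, 1, 3, 2, 0, 2, 3, 1, 4, 3, 2, 5, 4, 3, 1, 6, 5, 4, 3, 7, 6], [6]),
   ([7, 6, 5, 4, 3, 2, 1, 3, 4, 5, 6, 7, 0, 2, 3, 4, 5, 6, 1, 3, 4, 5, 2, 3, 4, 1, 3, 2, 0, 2, 3, 1, 4, 3, 2, 5, 4, 3, 1, 6, 5, 4, 3, 2, 0, 7, 6, 5, 4, 3, 1, 2, 3, 4, 5, 6, 7], [6, 5, 4, 3, 2, 1, 3, 4, 5, 6, 7, 0, 2, 3, 4, 5, 6, 1, 3, 4, 5, 2, 3, 4, 1, 3, 2, 0, 2, 3, 1, 4, 3, 2, 5, 4, 3, 1, 6, 5, 4, 3, 2, 0, 7, 6, 5, 4, 3, 1, 2, 3, 4, 5, 6], [7])]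

theorem slpE8_chk : chkSLP chevE8 ((List.range 8).reverse :: ([0] : List ℕ).map (fun i => [i])) slpE8 = true := by
  decide +kernel

theorem slpE8_all : ∀ i < 8, [i] ∈ ((List.range 8).reverse :: ([0] : List ℕ).map (fun i => [i])) ++
    slpE8.map (fun st => st.2.2) := by
  decide +kernel

theorem genE8 : ∃ T : Finset CoxeterMatrix.E₈.Group, T.card = 1 ∧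
    (∀ t ∈ T, ∃ (g : CoxeterMatrix.E₈.Group) (i : Fin 8), t = g * CoxeterMatrix.E₈.simple i * g⁻¹) ∧
      Subgroup.closure (({((List.finRange 8).map CoxeterMatrix.E₈.simple).prod} : Set CoxeterMatrix.E₈.Group) ∪ ↑T) = ⊤ := by
  refine ⟨{CoxeterMatrix.E₈.simple 0}, Finset.card_singleton _, ?_, ?_⟩
  · intro t ht
    rw [Finset.mem_singleton] at ht
    exact ⟨1, 0, by rw [ht]; group⟩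
  · apply gen_of_slp (D := chevE8) (by simp [allData]) CoxeterMatrix.E₈ rfl mat_E8 _
      (Subgroup.subset_closure (Or.inl rfl)) [0] _ slpE8 slpE8_chk slpE8_all
    intro i hi
    rw [List.mem_singleton] at hi
    subst hi
    exact ⟨by decide, Subgroup.subset_closure (Or.inr (by
      rw [show cC CoxeterMatrix.E₈ 0 = CoxeterMatrix.E₈.simple 0 from cC_val CoxeterMatrix.E₈ (0 : Fin 8)]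
      simp))⟩

end Cfsg.Agent.Lib.Helper8
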