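import Cfsg.Agent.Lib.Helper8.Cox1

set_option autoImplicit false
set_option linter.unusedSectionVars false
set_option linter.unusedVariables false

/-! Matsumoto's theorem for the Weyl groups of the data. -/

namespace Cfsg.Agent.Lib.Helper8

open Cfsg Cfsg.Lie

section
variable {D : ChevalleyDatum} (hD : D ∈ allData)
include hD

theorem LinC.reflect {β γ δ : ℕ} {a b : ℤ} (h : LinC D β a b γ δ) {i : ℕ} (hi : i < D.rank)
    (hβ : β < D.nroots) (hγ : γ < D.nroots) (hδ : δ < D.nroots) :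
    LinC D (D.reflectRoot i β) a b (D.reflectRoot i γ) (D.reflectRoot i δ) := by
  intro k hk
  rw [cartan_reflect hD hi hk hβ, cartan_reflect hD hi hk hγ, cartan_reflect hD hi hk hδ, h k hk, h i hi]
  ring

theorem LinC.wR : ∀ (L : List ℕ), (∀ i ∈ L, i < D.rank) → ∀ {β γ δ : ℕ} {a b : ℤ}, LinC D β a b γ δ →
    β < D.nroots → γ < D.nroots → δ < D.nroots → LinC D (wR D L β) a b (wR D L γ) (wR D L δ)
  | [], _, _, _, _, _, _, h, _, _, _ => h
  | i :: L, hL, _, _, _, _, _, h, hβ, hγ, hδ => by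
    have hi := hL i List.mem_cons_self
    exact LinC.wR L (fun j hj => hL j (List.mem_cons_of_mem _ hj)) (h.reflect hD hi hβ hγ hδ)
      (reflect_lt hD hi hβ) (reflect_lt hD hi hγ) (reflect_lt hD hi hδ)

theorem hgF_neg {r : ℕ} (h : D.IsNegRoot r) : hgF D r < 0 :=
  (hgF_sign D hD r h.1).1 ((isNeg_iff hD).mp h)

theorem hgF_pos {r : ℕ} (h : D.IsPosRoot r) : 0 < hgF D r :=
  (hgF_sign D hD r h.1).2 ((isPos_iff hD).mp h).1

theorem neg_of_lin {β γ δ : ℕ} {a b : ℤ} (h : LinC D β a b γ δ) (ha : 0 ≤ a) (hb : 0 ≤ b) (hab : 0 < a + b)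
    {L : List ℕ} (hL : ∀ i ∈ L, i < D.rank) (hβ : β < D.nroots) (hγ : γ < D.nroots) (hδ : δ < D.nroots)
    (h1 : D.IsNegRoot (wR D L γ)) (h2 : D.IsNegRoot (wR D L δ)) : D.IsNegRoot (wR D L β) := by
  rcases pos_or_neg hD (wR_lt hD L hL hβ) with h3 | h3
  · exfalso
    have e := (LinC.wR hD L hL h hβ hγ hδ).hgF
    have p1 := hgF_neg hD h1
    have p2 := hgF_neg hD h2
    have p3 := hgF_pos hD h3
    rw [e] at p3
    rcases ha.lt_or_eq with ha' | ha'
    · nlinarith
    · rw [← ha'] at p3 hab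
      nlinarith
  · exact h3

theorem rootsB_lt : ∀ (k : ℕ) {p q : ℕ}, p < D.rank → q < D.rank → ∀ β ∈ rootsB D k p q, β < D.nroots
  | 0, _, _, _, _, β, hβ => by simp [rootsB] at hβ
  | k + 1, p, q, hp, hq, β, hβ => by
    rcases List.mem_cons.mp hβ with rfl | hβ
    · exact simple_lt hD hp
    · obtain ⟨γ, hγ, rfl⟩ := List.mem_map.mp hβ
      exact reflect_lt hD hp (rootsB_lt k hq hp γ hγ)

theorem peelD : ∀ (k : ℕ) {p q : ℕ}, p < D.rank → q < D.rank → ∀ {L : List ℕ}, Red D L →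
    (∀ β ∈ rootsB D k p q, D.IsNegRoot (wR D L β)) →
    ∃ M, Red D (alt k p q ++ M) ∧ om (sP hD) (alt k p q ++ M) = om (sP hD) L
  | 0, _, _, _, _, L, hL, _ => ⟨L, hL, rfl⟩
  | k + 1, p, q, hp, hq, L, hL, hneg => by
    obtain ⟨M1, hM1, e1⟩ := peel1 hD hL hp (hneg _ List.mem_cons_self)
    have h1 : ∀ β ∈ rootsB D k q p, D.IsNegRoot (wR D M1 β) := by
      intro β hβ
      have hβl := rootsB_lt hD k hq hp β hβ
      have h2 := (om_eq_iff hD hM1.lt hL.lt).mp e1 _ (reflect_lt hD hp hβl)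
      have h3 : wR D (p :: M1) (D.reflectRoot p β) = wR D M1 (D.reflectRoot p (D.reflectRoot p β)) := rfl
      rw [h3, reflect_reflect hD hp hβl] at h2
      rw [h2]
      exact hneg _ (List.mem_cons_of_mem _ (List.mem_map_of_mem hβ))
    obtain ⟨M2, hM2, e2⟩ := peelD k hq hp hM1.2.2 h1
    refine ⟨M2, ⟨hp, ?_, hM2⟩, ?_⟩
    · show D.IsPosRoot (wR D (alt k q p ++ M2) (D.simple p))
      rw [(om_eq_iff hD hM2.lt hM1.2.2.lt).mp e2 _ (simple_lt hD hp)]
      exact hM1.2.1
    · show om (sP hD) (alt k q p ++ M2) * sP hD p = _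
      rw [e2]
      exact e1

theorem rootsB_neg {p q : ℕ} (hp : p < D.rank) (hq : q < D.rank) (hpq : p ≠ q) {L : List ℕ}
    (hL : ∀ i ∈ L, i < D.rank) (h1 : D.IsNegRoot (wR D L (D.simple p))) (h2 : D.IsNegRoot (wR D L (D.simple q))) :
    ∀ β ∈ rootsB D (mOf D p q) p q, D.IsNegRoot (wR D L β) := by
  intro β hβ
  obtain ⟨a, -, b, -, hab, h⟩ := chkLin_all D hD p hp q hq hpq β hβ
  exact neg_of_lin hD (a := (a : ℤ)) (b := (b : ℤ)) h (Int.natCast_nonneg a) (Int.natCast_nonneg b)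
    (by exact_mod_cast hab) hL (rootsB_lt hD _ hp hq β hβ) (simple_lt hD hp) (simple_lt hD hq) h1 h2

theorem braidW {p q : ℕ} (hp : p < D.rank) (hq : q < D.rank) :
    om (sP hD) (alt (mOf D p q) p q) = om (sP hD) (alt (mOf D p q) q p) :=
  om_eq_of_simple hD (alt_lt _ hp hq) (alt_lt _ hq hp) (chkBraid_all D hD p hp q hq)

end

section
variable {D : ChevalleyDatum} (hD : D ∈ allData) {C : Type*} [Group C] (c : ℕ → C)
  (csq : ∀ p < D.rank, c p * c p = 1)
  (cbr : ∀ p < D.rank, ∀ q < D.rank, p ≠ q → om c (alt (mOf D p q) p q) = om c (alt (mOf D p q) q p))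
include hD csq cbr

theorem matsumoto : ∀ (n : ℕ) {L L' : List ℕ}, L.length ≤ n → Red D L → Red D L' →
    om (sP hD) L = om (sP hD) L' → om c L = om c L'
  | 0, L, L', hn, hL, hL', e => by
    have h0 : L = [] := List.length_eq_zero_iff.mp (Nat.le_zero.mp hn)
    have h1 := red_length_eq hD hL hL' e
    rw [h0] at h1
    have h2 : L' = [] := List.length_eq_zero_iff.mp h1.symm
    rw [h0, h2]
  | n + 1, [], L', hn, hL, hL', e => by
    have h1 := red_length_eq hD hL hL' e
    have h2 : L' = [] := List.length_eq_zero_iff.mp h1.symm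
    rw [h2]
  | n + 1, p :: L1, [], hn, hL, hL', e => by
    have h1 := red_length_eq hD hL hL' e
    simp at h1
  | n + 1, p :: L1, q :: L1', hn, hL, hL', e => by
    have ih := @matsumoto n
    have hlen := red_length_eq hD hL hL' e
    simp only [List.length_cons] at hn hlen
    have hp := hL.1
    have hq := hL'.1
    by_cases hpq : p = q
    · subst hpq
      have e1 : om (sP hD) L1 = om (sP hD) L1' := mul_right_cancel e
      show om c L1 * c p = om c L1' * c p
      rw [ih (by omega) hL.2.2 hL'.2.2 e1]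
    · have negP : D.IsNegRoot (wR D (p :: L1) (D.simple p)) := by
        rw [wR_neg_simple' hD hL.2.2.lt hp]
        exact (isNeg_neg_iff hD hL.2.1.1).mpr hL.2.1
      have negQ : D.IsNegRoot (wR D (p :: L1) (D.simple q)) := by
        rw [(om_eq_iff hD hL.lt hL'.lt).mp e _ (simple_lt hD hq), wR_neg_simple' hD hL'.2.2.lt hq]
        exact (isNeg_neg_iff hD hL'.2.1.1).mpr hL'.2.1
      obtain ⟨M, hM, eM⟩ := peelD hD (mOf D p q) hp hq hL (rootsB_neg hD hp hq hpq hL.lt negP negQ)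
      obtain ⟨M', hM', eM'⟩ := peelD hD (mOf D q p) hq hp hL
        (rootsB_neg hD hq hp (fun h => hpq h.symm) hL.lt negQ negP)
      rw [mOf_comm D q p] at hM' eM'
      have lenM := red_length_eq hD hM hL eM
      rw [List.length_append, alt_length, List.length_cons] at lenM
      have e3 : om (sP hD) M = om (sP hD) M' := by
        have h := eM.trans eM'.symm
        rw [om_append, om_append, braidW hD hp hq] at h
        exact mul_right_cancel h
      obtain ⟨m0, hm0⟩ := mOf_pos D p q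
      have c3 := ih (by omega) (red_of_append hD hM) (red_of_append hD hM') e3
      have cb := cbr p hp q hq hpq
      rw [hm0] at hM hM' eM eM' cb
      have e1 : om (sP hD) L1 = om (sP hD) (alt m0 q p ++ M) := (mul_right_cancel eM).symm
      have e2 : om (sP hD) L1' = om (sP hD) (alt m0 p q ++ M') := (mul_right_cancel (eM'.trans e)).symm
      have c1 := ih (by omega) hL.2.2 hM.2.2 e1
      have c2 := ih (by omega) hL'.2.2 hM'.2.2 e2
      show om c L1 * c p = om c L1' * c q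
      rw [c1, c2]
      show om c (alt (m0 + 1) p q ++ M) = om c (alt (m0 + 1) q p ++ M')
      rw [om_append, om_append, cb, c3]

theorem exists_red_c : ∀ (L : List ℕ), (∀ i ∈ L, i < D.rank) →
    ∃ L', Red D L' ∧ om (sP hD) L = om (sP hD) L' ∧ om c L = om c L'
  | [], _ => ⟨[], trivial, rfl, rfl⟩
  | p :: L0, hL => by
    have hp := hL p List.mem_cons_self
    obtain ⟨L1, r1, e1, c1⟩ := exists_red_c L0 (fun j hj => hL j (List.mem_cons_of_mem _ hj))
    rcases pos_or_neg hD (wR_lt hD L1 r1.lt (simple_lt hD hp)) with hpos | hneg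
    · refine ⟨p :: L1, ⟨hp, hpos, r1⟩, ?_, ?_⟩
      · show om (sP hD) L0 * sP hD p = om (sP hD) L1 * sP hD p
        rw [e1]
      · show om c L0 * c p = om c L1 * c p
        rw [c1]
    · obtain ⟨M, hM, eM⟩ := peel1 hD r1 hp hneg
      have cM := matsumoto hD c csq cbr _ (le_refl _) hM r1 eM
      refine ⟨M, hM.2.2, ?_, ?_⟩
      · show om (sP hD) L0 * sP hD p = _
        rw [e1, ← eM]
        show om (sP hD) M * sP hD p * sP hD p = _
        rw [mul_assoc, sP_sq, mul_one]
      · show om c L0 * c p = _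
        rw [c1, ← cM]
        show om c M * c p * c p = _
        rw [mul_assoc, csq p hp, mul_one]

theorem om_c_eq {L L' : List ℕ} (hL : ∀ i ∈ L, i < D.rank) (hL' : ∀ i ∈ L', i < D.rank)
    (e : om (sP hD) L = om (sP hD) L') : om c L = om c L' := by
  obtain ⟨L1, r1, e1, c1⟩ := exists_red_c hD c csq cbr L hL
  obtain ⟨L2, r2, e2, c2⟩ := exists_red_c hD c csq cbr L' hL'
  rw [c1, c2]
  exact matsumoto hD c csq cbr _ (le_refl _) r1 r2 (e1.symm.trans (e.trans e2))

end

end Cfsg.Agent.Lib.Helper8
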