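import Cfsg.Agent.Lib.Helper8.Cox2

set_option autoImplicit false
set_option linter.unusedSectionVars false
set_option linter.unusedVariables false

/-! The Weyl group of a datum is the Coxeter group of its type. -/

namespace Cfsg.Agent.Lib.Helper8

open Cfsg Cfsg.Lie

theorem om_replicate {W : Type*} [Group W] (s : ℕ → W) (A : List ℕ) :
    ∀ k : ℕ, om s (List.replicate k A).flatten = om s A ^ k
  | 0 => by simp [om]
  | k + 1 => by
    rw [List.replicate_succ, List.flatten_cons, om_append, om_replicate s A k, pow_succ]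

theorem map_om {W W' : Type*} [Group W] [Group W'] (f : W →* W') (s : ℕ → W) :
    ∀ L : List ℕ, f (om s L) = om (fun p => f (s p)) L
  | [] => map_one f
  | p :: L => by
    show f (om s L * s p) = om (fun p => f (s p)) L * f (s p)
    rw [map_mul, map_om f s L]

theorem om_congr {W : Type*} [Group W] {s s' : ℕ → W} {l : ℕ} (h : ∀ p < l, s p = s' p) :
    ∀ L : List ℕ, (∀ i ∈ L, i < l) → om s L = om s' L
  | [], _ => rfl
  | p :: L, hL => by
    show om s L * s p = om s' L * s' p
    rw [om_congr h L (fun j hj => hL j (List.mem_cons_of_mem _ hj)), h p (hL p List.mem_cons_self)]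

/-- the generators of the Coxeter group, indexed by numbers -/
noncomputable def cC {n : ℕ} (M : CoxeterMatrix (Fin n)) (p : ℕ) : M.Group :=
  if h : p < n then M.simple ⟨p, h⟩ else 1

theorem cC_val {n : ℕ} (M : CoxeterMatrix (Fin n)) (i : Fin n) : cC M i.val = M.simple i := by
  unfold cC
  rw [dif_pos i.isLt]

theorem cC_sq {n : ℕ} (M : CoxeterMatrix (Fin n)) (p : ℕ) : cC M p * cC M p = 1 := by
  unfold cC
  by_cases h : p < n
  · rw [dif_pos h]
    exact M.toCoxeterSystem.simple_mul_simple_self _
  · rw [dif_neg h, one_mul]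

theorem om_alt_eq {n : ℕ} (M : CoxeterMatrix (Fin n)) : ∀ (k : ℕ) (i j : Fin n),
    M.toCoxeterSystem.wordProd (CoxeterSystem.alternatingWord j i k) = om (cC M) (alt k i.val j.val)
  | 0, _, _ => by simp [CoxeterSystem.alternatingWord, alt, om]
  | k + 1, i, j => by
    rw [CoxeterSystem.alternatingWord_succ, CoxeterSystem.wordProd_concat, om_alt_eq M k j i]
    show _ = om (cC M) (alt k j.val i.val) * cC M i.val
    rw [cC_val]
    rfl

theorem cC_braid {n : ℕ} (M : CoxeterMatrix (Fin n)) (i j : Fin n) :
    om (cC M) (alt (M i j) i.val j.val) = om (cC M) (alt (M i j) j.val i.val) := by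
  rw [← om_alt_eq, ← om_alt_eq]
  have h := M.toCoxeterSystem.wordProd_braidWord_eq j i
  unfold CoxeterSystem.braidWord at h
  rw [M.symmetric j i] at h
  exact h

theorem exists_word {n : ℕ} (M : CoxeterMatrix (Fin n)) (x : M.Group) :
    ∃ L : List ℕ, (∀ i ∈ L, i < n) ∧ x = om (cC M) L := by
  obtain ⟨ω, rfl⟩ := M.toCoxeterSystem.wordProd_surjective x
  induction ω using List.reverseRecOn with
  | nil => exact ⟨[], by simp, by simp [om]⟩
  | append_singleton ω i ih =>
    obtain ⟨L, hL, e⟩ := ih
    refine ⟨i.val :: L, ?_, ?_⟩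
    · intro j hj
      rcases List.mem_cons.mp hj with rfl | hj
      · exact i.isLt
      · exact hL j hj
    · rw [CoxeterSystem.wordProd_append, e]
      show _ = om (cC M) L * cC M i.val
      rw [cC_val]
      simp [CoxeterSystem.wordProd]

section
variable {D : ChevalleyDatum} (hD : D ∈ allData) {n : ℕ} (M : CoxeterMatrix (Fin n)) (hn : n = D.rank)
  (hM : ∀ i j : Fin n, M i j = mOf D i.val j.val)
include hn hM

theorem sP_liftable : M.IsLiftable (fun i : Fin n => sP hD i.val) := by
  intro i j
  have hi : i.val < D.rank := hn ▸ i.isLt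
  have hj : j.val < D.rank := hn ▸ j.isLt
  have h1 : sP hD i.val * sP hD j.val = om (sP hD) [j.val, i.val] := by simp [om]
  show (sP hD i.val * sP hD j.val) ^ M i j = 1
  rw [h1, ← om_replicate, hM]
  have h2 : (1 : Equiv.Perm ℕ) = om (sP hD) [] := rfl
  rw [h2]
  apply om_eq_of_simple hD _ (by simp) (chkPow_all D hD i.val hi j.val hj)
  intro a ha
  obtain ⟨A, hA, haA⟩ := List.mem_flatten.mp ha
  rw [List.eq_of_mem_replicate hA] at haA
  simp only [List.mem_cons, List.not_mem_nil, or_false] at haA
  rcases haA with rfl | rfl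
  · exact hj
  · exact hi

/-- the action of the Coxeter group on the root indices -/
noncomputable def thC : M.Group →* Equiv.Perm ℕ := M.toCoxeterSystem.lift ⟨_, sP_liftable hD M hn hM⟩

theorem thC_simple (i : Fin n) : thC hD M hn hM (M.simple i) = sP hD i.val :=
  M.toCoxeterSystem.lift_apply_simple (sP_liftable hD M hn hM) i

theorem thC_om {L : List ℕ} (hL : ∀ i ∈ L, i < n) : thC hD M hn hM (om (cC M) L) = om (sP hD) L := by
  rw [map_om]
  apply om_congr (l := n) _ L hL
  intro p hp
  have := thC_simple hD M hn hM ⟨p, hp⟩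
  rw [← cC_val] at this
  exact this

theorem thC_injective : Function.Injective (thC hD M hn hM) := by
  rw [injective_iff_map_eq_one]
  intro x hx
  obtain ⟨L, hL, rfl⟩ := exists_word M x
  rw [thC_om hD M hn hM hL] at hx
  have hL' : ∀ i ∈ L, i < D.rank := fun i hi => hn ▸ hL i hi
  have := om_c_eq hD (cC M) (fun p _ => cC_sq M p) (fun p hp q hq _ => by
    have h := cC_braid M ⟨p, hn ▸ hp⟩ ⟨q, hn ▸ hq⟩
    rw [hM] at h
    exact h) hL' (L' := []) (by simp) hx
  exact this

end

end Cfsg.Agent.Lib.Helper8
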