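import Mathlib

set_option autoImplicit false
set_option linter.unusedSectionVars false
set_option linter.unusedVariables false

/-! Homomorphisms out of dihedral groups; the Coxeter group of type `G₂` is dihedral of order 12. -/

namespace Cfsg.Agent.Lib.Helper8

section
variable {G : Type*} [Group G] {n : ℕ} (a b : G)

/-- `a ^ i` for `i` modulo `n` -/
noncomputable def dihP (i : ZMod n) : G := a ^ (ZMod.cast i : ℤ)

variable {a b} (ha : a ^ n = 1)
include ha

theorem zpow_congr_mod {k k' : ℤ} (h : (k : ZMod n) = (k' : ZMod n)) : a ^ k = a ^ k' := by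
  rw [ZMod.intCast_eq_intCast_iff_dvd_sub] at h
  obtain ⟨c, hc⟩ := h
  have : k' = k + n * c := by omega
  rw [this, zpow_add, zpow_mul, zpow_natCast, ha, one_zpow, mul_one]

theorem dihP_int (k : ℤ) : dihP (n := n) a (k : ZMod n) = a ^ k := by
  unfold dihP
  apply zpow_congr_mod ha
  rw [ZMod.intCast_cast, ZMod.cast_id', id]

theorem dihP_add (i j : ZMod n) : dihP a (i + j) = dihP a i * dihP a j := by
  have h := dihP_int ha ((ZMod.cast i : ℤ) + (ZMod.cast j : ℤ))
  rw [Int.cast_add, ZMod.intCast_cast, ZMod.intCast_cast, ZMod.cast_id', id, id, zpow_add] at h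
  exact h

theorem dihP_sub (i j : ZMod n) : dihP a (j - i) = (dihP a i)⁻¹ * dihP a j := by
  have h := dihP_int ha (-(ZMod.cast i : ℤ) + (ZMod.cast j : ℤ))
  rw [Int.cast_add, Int.cast_neg, ZMod.intCast_cast, ZMod.intCast_cast, ZMod.cast_id', id, id, zpow_add,
    zpow_neg] at h
  have e : j - i = -i + j := by ring
  rw [e]
  exact h

theorem dihP_zero : dihP (n := n) a 0 = 1 := by
  have h := dihP_int ha 0
  rwa [Int.cast_zero, zpow_zero] at h

variable (hb : b * b = 1) (hab : b * a * b = a⁻¹)
include hb hab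

omit ha in
theorem dihP_swap (i : ZMod n) : dihP a i * b = b * (dihP a i)⁻¹ := by
  have hbi : b⁻¹ = b := inv_eq_of_mul_eq_one_left hb
  have h1 : ∀ k : ℤ, b * a ^ k * b⁻¹ = (a ^ k)⁻¹ := by
    intro k
    rw [← conj_zpow, hbi, hab, inv_zpow]
  unfold dihP
  have h2 := h1 (ZMod.cast i : ℤ)
  rw [hbi] at h2
  calc a ^ (ZMod.cast i : ℤ) * b = b * b * a ^ (ZMod.cast i : ℤ) * b := by rw [hb, one_mul]
    _ = b * (b * a ^ (ZMod.cast i : ℤ) * b) := by group
    _ = _ := by rw [h2]

/-- the homomorphism from the dihedral group given by `a` and `b` -/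
noncomputable def dihLift : DihedralGroup n →* G where
  toFun d := match d with
    | .r i => dihP a i
    | .sr i => b * dihP a i
  map_one' := dihP_zero ha
  map_mul' := by
    rintro (i | i) (j | j)
    · show dihP a (i + j) = _
      exact dihP_add ha i j
    · show b * dihP a (j - i) = dihP a i * (b * dihP a j)
      rw [dihP_sub ha, ← mul_assoc (dihP a i), dihP_swap hb hab, mul_assoc]
    · show b * dihP a (i + j) = b * dihP a i * dihP a j
      rw [dihP_add ha, mul_assoc]
    · show dihP a (j - i) = b * dihP a i * (b * dihP a j)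
      rw [dihP_sub ha, mul_assoc b, ← mul_assoc (dihP a i), dihP_swap hb hab, ← mul_assoc, ← mul_assoc, hb,
        one_mul]

theorem dihLift_r (i : ZMod n) : dihLift ha hb hab (DihedralGroup.r i) = dihP a i := rfl
theorem dihLift_sr (i : ZMod n) : dihLift ha hb hab (DihedralGroup.sr i) = b * dihP a i := rfl

end

section

/-- the Coxeter system of type `G₂` -/
abbrev csG2 : CoxeterSystem CoxeterMatrix.G₂ CoxeterMatrix.G₂.Group := CoxeterMatrix.G₂.toCoxeterSystem

theorem g2cox_a : (csG2.simple 0 * csG2.simple 1) ^ 6 = 1 := csG2.simple_mul_simple_pow 0 1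
theorem g2cox_b : csG2.simple 0 * csG2.simple 0 = 1 := csG2.simple_mul_simple_self 0
theorem g2cox_ab : csG2.simple 0 * (csG2.simple 0 * csG2.simple 1) * csG2.simple 0 = (csG2.simple 0 * csG2.simple 1)⁻¹ := by
  rw [mul_inv_rev, csG2.inv_simple, csG2.inv_simple, ← mul_assoc, g2cox_b, one_mul]

/-- from the dihedral group to the Coxeter group -/
noncomputable def dihToG2 : DihedralGroup 6 →* CoxeterMatrix.G₂.Group := dihLift g2cox_a g2cox_b g2cox_ab

theorem g2_liftable : CoxeterMatrix.G₂.IsLiftable (fun i : Fin 2 => (DihedralGroup.sr (i.val : ZMod 6))) := by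
  intro i j
  fin_cases i <;> fin_cases j <;> decide

/-- from the Coxeter group to the dihedral group -/
noncomputable def g2ToDih : CoxeterMatrix.G₂.Group →* DihedralGroup 6 := csG2.lift ⟨_, g2_liftable⟩

theorem g2ToDih_simple (i : Fin 2) : g2ToDih (csG2.simple i) = DihedralGroup.sr (i.val : ZMod 6) :=
  csG2.lift_apply_simple g2_liftable i

theorem g2ToDih_dihP (i : ZMod 6) : g2ToDih (dihP (csG2.simple 0 * csG2.simple 1) i) = DihedralGroup.r i := by
  unfold dihP
  rw [map_zpow, map_mul, g2ToDih_simple, g2ToDih_simple]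
  have : (DihedralGroup.sr ((0 : Fin 2).val : ZMod 6)) * DihedralGroup.sr ((1 : Fin 2).val : ZMod 6) =
      DihedralGroup.r 1 := by decide
  rw [this, DihedralGroup.r_one_zpow, ZMod.intCast_cast, ZMod.cast_id', id]

theorem g2ToDih_dihToG2 (d : DihedralGroup 6) : g2ToDih (dihToG2 d) = d := by
  rcases d with i | i
  · exact g2ToDih_dihP i
  · show g2ToDih (csG2.simple 0 * dihP (csG2.simple 0 * csG2.simple 1) i) = _
    rw [map_mul, g2ToDih_dihP, g2ToDih_simple]
    show DihedralGroup.sr (((0 : ℕ) : ZMod 6) + i) = _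
    simp

theorem dihToG2_injective : Function.Injective dihToG2 :=
  Function.LeftInverse.injective g2ToDih_dihToG2

theorem dihToG2_surjective : Function.Surjective dihToG2 := by
  rw [← MonoidHom.range_eq_top, eq_top_iff, ← csG2.subgroup_closure_range_simple, Subgroup.closure_le]
  rintro _ ⟨i, rfl⟩
  fin_cases i
  · refine ⟨DihedralGroup.sr 0, ?_⟩
    show csG2.simple 0 * dihP (csG2.simple 0 * csG2.simple 1) 0 = _
    rw [dihP_zero g2cox_a, mul_one]
    rfl
  · refine ⟨DihedralGroup.sr 1, ?_⟩
    show csG2.simple 0 * dihP (csG2.simple 0 * csG2.simple 1) 1 = _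
    have h := dihP_int g2cox_a 1
    rw [Int.cast_one, zpow_one] at h
    rw [h, ← mul_assoc, g2cox_b, one_mul]
    rfl

end

end Cfsg.Agent.Lib.Helper8
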