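import Cfsg.Agent.Lib.Helper8.Tw14
import Cfsg.Agent.Lib.Helper8.DihCox

set_option autoImplicit false
set_option linter.unusedSectionVars false
set_option linter.unusedVariables false
set_option linter.unusedSimpArgs false

/-! The quotient `N¹/H¹` from a table of the action on the roots; the case of `³D₄`. -/

namespace Cfsg.Agent.Lib.Helper8

open Cfsg Cfsg.Lie

theorem Act.congrT {D : ChevalleyDatum} {hD : D ∈ allData} {F : Type*} [Field F] {m : GL D.Idx F} {π π' : ℕ → ℕ}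
    (h : Act hD m π) (e : ∀ s < D.nroots, π s = π' s) : Act hD m π' := by
  refine ⟨fun s hs => by rw [← e s hs]; exact h.lt s hs, fun s hs => ?_, fun s hs => ?_⟩
  · rw [← e s hs, ← e _ (neg_lt' hD _ hs)]; exact h.neg s hs
  · rw [← e s hs]; exact h.conj s hs

section
variable {D : ChevalleyDatum} (hD : D ∈ allData) {F : Type*} [Field F] {Q : Type*} [Group Q]
include hD

theorem exists_hom_of_table (G1 : Subgroup (GL D.Idx F)) (T : Q → ℕ → ℕ)
    (T1 : ∀ s < D.nroots, T 1 s = s)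
    (Tmul : ∀ d d' : Q, ∀ s < D.nroots, T d (T d' s) = T (d * d') s)
    (Tinj : ∀ d : Q, (∀ s < D.nroots, T d s = s) → d = 1)
    (cover : ∀ n ∈ D.monomialSubgroup F ⊓ G1, ∃ d, Act hD n (T d))
    (surj : ∀ d, ∃ n ∈ D.monomialSubgroup F ⊓ G1, Act hD n (T d)) :
    ∃ ψ : ↥(D.monomialSubgroup F ⊓ G1) →* Q, Function.Surjective ψ ∧
      ψ.ker = (D.diagonalSubgroup F ⊓ G1).subgroupOf (D.monomialSubgroup F ⊓ G1) := by
  have huniq : ∀ {n : GL D.Idx F} {d d' : Q}, Act hD n (T d) → Act hD n (T d') → d = d' := by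
    intro n d d' h h'
    have h1 : d⁻¹ * d' = 1 := by
      apply Tinj
      intro s hs
      rw [← Tmul _ _ s hs, ← Act.unique h h' s hs, Tmul _ _ s hs, inv_mul_cancel, T1 s hs]
    exact (inv_mul_eq_one.mp h1)
  let f : ↥(D.monomialSubgroup F ⊓ G1) → Q := fun n => (cover n.1 n.2).choose
  have hf : ∀ n : ↥(D.monomialSubgroup F ⊓ G1), Act hD n.1 (T (f n)) := fun n => (cover n.1 n.2).choose_spec
  have hone : Act hD (1 : GL D.Idx F) (T (1 : Q)) := by
    have h := act_tG hD (F := F) 1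
    rw [tG_one] at h
    exact h.congrT (fun s hs => (T1 s hs).symm)
  let ψ : ↥(D.monomialSubgroup F ⊓ G1) →* Q :=
    { toFun := f
      map_one' := huniq (hf 1) hone
      map_mul' := fun a b => huniq (hf (a * b)) (((hf a).mul (hf b)).congrT (fun s hs => Tmul _ _ s hs)) }
  refine ⟨ψ, ?_, ?_⟩
  · intro d
    obtain ⟨n, hn, h⟩ := surj d
    exact ⟨⟨n, hn⟩, huniq (hf ⟨n, hn⟩) h⟩
  · ext ⟨n, hn⟩
    rw [MonoidHom.mem_ker, Subgroup.mem_subgroupOf]
    show f ⟨n, hn⟩ = 1 ↔ n ∈ _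
    constructor
    · intro h
      have h1 := hf ⟨n, hn⟩
      rw [h] at h1
      have h2 := same_act_diag hD hn.1 (one_mem _) h1 hone (fun _ _ => rfl)
      rw [inv_one, mul_one] at h2
      exact Subgroup.mem_inf.mpr ⟨h2, hn.2⟩
    · intro h
      have h1 := h.1
      rw [diag_eq_torus hD] at h1
      obtain ⟨c, hc⟩ := h1
      have h2 : Act hD n (T (1 : Q)) := by
        rw [← hc]
        exact (act_tG hD c).congrT (fun s hs => (T1 s hs).symm)
      exact huniq (hf ⟨n, hn⟩) h2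

end

section
variable {D : ChevalleyDatum} (hD : D ∈ allData) {tab tab' : List (ℕ × ℤ)} {r0 : List ℕ} {Bl M0 : List (List ℕ)}
  (S : TwS D tab tab' r0 Bl M0) {K : Type*} [Field K] (φ : K →+* K)
include S

/-- an element of `N¹` acts as a word in the blocks -/
theorem mono_tw_act {n : GL D.Idx K} (hn : n ∈ D.monomialSubgroup K ⊓ twG hD φ Bl) :
    ∃ M : List (List ℕ), (∀ J ∈ M, J ∈ Bl) ∧ Act hD n (wR D M.flatten) := by
  obtain ⟨hn1, hn2⟩ := hn
  obtain ⟨u, hu, h, hh, M, hM1, hM2, u', hu', e⟩ := twG_normal_form hD S φ hn2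
  have hm := nR_mem_mono (F := K) hD M.flatten hM2.lt
  have h1 := bruhat_unique hD hm hn1 (mul_mem (posU_le_borel hD hu.1) (diag_le_borel hD hh.1))
    (one_mem _) (posU_le_borel hD (Uw_le_posU _ hu'.1)) (one_mem _)
    (by rw [← e, one_mul, mul_one])
  refine ⟨M, hM1, ?_⟩
  rw [diag_eq_torus hD] at h1
  obtain ⟨c, hc⟩ := h1
  have a := (act_nR (F := K) hD M.flatten hM2.lt).mul (act_tG hD c)
  rw [hc, mul_inv_cancel_left] at a
  exact a

theorem exists_hom_tw {Q : Type*} [Group Q] (word : Q → List (List ℕ))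
    (hw : ∀ d, ∀ J ∈ word d, J ∈ Bl)
    (T1 : ∀ s < D.nroots, wR D (word 1).flatten s = s)
    (Tmul : ∀ d d' : Q, ∀ s < D.nroots,
      wR D (word d).flatten (wR D (word d').flatten s) = wR D (word (d * d')).flatten s)
    (Tinj : ∀ d : Q, (∀ s < D.nroots, wR D (word d).flatten s = s) → d = 1)
    (gen : ∀ J ∈ Bl, ∃ d : Q, ∀ s < D.nroots, wR D J s = wR D (word d).flatten s) :
    ∃ ψ : ↥(D.monomialSubgroup K ⊓ twG hD φ Bl) →* Q, Function.Surjective ψ ∧
      ψ.ker = (D.diagonalSubgroup K ⊓ twG hD φ Bl).subgroupOf (D.monomialSubgroup K ⊓ twG hD φ Bl) := by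
  have hlt : ∀ {M : List (List ℕ)}, (∀ J ∈ M, J ∈ Bl) → ∀ i ∈ M.flatten, i < D.rank := by
    intro M hM i hi
    obtain ⟨J, hJ, hiJ⟩ := List.mem_flatten.mp hi
    exact (S.bl J (hM J hJ)).lt i hiJ
  apply exists_hom_of_table hD (twG hD φ Bl) (fun d => wR D (word d).flatten) T1 Tmul Tinj
  · intro n hn
    obtain ⟨M, hM, hA⟩ := mono_tw_act hD S φ hn
    have key : ∀ M : List (List ℕ), (∀ J ∈ M, J ∈ Bl) →
        ∃ d : Q, ∀ s < D.nroots, wR D M.flatten s = wR D (word d).flatten s := by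
      intro M
      induction M with
      | nil => exact fun _ => ⟨1, fun s hs => (T1 s hs).symm⟩
      | cons J M ih =>
        intro hM
        obtain ⟨d, hd⟩ := ih (fun A hA => hM A (List.mem_cons_of_mem _ hA))
        obtain ⟨dJ, hdJ⟩ := gen J (hM J List.mem_cons_self)
        refine ⟨d * dJ, fun s hs => ?_⟩
        have hJl := (S.bl J (hM J List.mem_cons_self)).lt
        rw [List.flatten_cons, wR_append, hd _ ((act_nR (F := K) hD J hJl).lt s hs), hdJ s hs, Tmul _ _ s hs]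
    obtain ⟨d, hd⟩ := key M hM
    exact ⟨d, hA.congrT hd⟩
  · intro d
    exact ⟨nR hD K (word d).flatten, Subgroup.mem_inf.mpr ⟨nR_mem_mono hD _ (hlt (hw d)),
      nR_flatten_mem hD φ Bl S.bl (hw d)⟩, act_nR hD _ (hlt (hw d))⟩

end

/-- words for the elements of the Weyl group of `³D₄` -/
def wordD4 : DihedralGroup 6 → List (List ℕ)
  | .r i => (List.replicate i.val [[0, 2, 3], [1]]).flatten
  | .sr i => (List.replicate i.val [[0, 2, 3], [1]]).flatten ++ [[1]]

theorem wordD4_mem : ∀ d, ∀ J ∈ wordD4 d, J ∈ blD4 := by decide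
theorem wordD4_one : ∀ s < chevD4.nroots, wR chevD4 (wordD4 1).flatten s = s := by decide +kernel
theorem wordD4_mul : ∀ d d' : DihedralGroup 6, ∀ s < chevD4.nroots,
    wR chevD4 (wordD4 d).flatten (wR chevD4 (wordD4 d').flatten s) = wR chevD4 (wordD4 (d * d')).flatten s := by
  decide +kernel
theorem wordD4_inj : ∀ d : DihedralGroup 6, (∀ s < chevD4.nroots, wR chevD4 (wordD4 d).flatten s = s) → d = 1 := by
  decide +kernel
theorem wordD4_gen : ∀ J ∈ blD4, ∃ d : DihedralGroup 6, ∀ s < chevD4.nroots,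
    wR chevD4 J s = wR chevD4 (wordD4 d).flatten s := by decide +kernel

theorem exists_hom_D4 {K : Type*} [Field K] (φ : K →+* K) :
    ∃ ψ : ↥(chevD4.monomialSubgroup K ⊓ twG hD4 φ blD4) →* CoxeterMatrix.G₂.Group, Function.Surjective ψ ∧
      ψ.ker = (chevD4.diagonalSubgroup K ⊓ twG hD4 φ blD4).subgroupOf
        (chevD4.monomialSubgroup K ⊓ twG hD4 φ blD4) := by
  obtain ⟨ψ, h1, h2⟩ := exists_hom_tw hD4 twS_D4 φ wordD4 wordD4_mem wordD4_one wordD4_mul wordD4_inj wordD4_gen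
  refine ⟨dihToG2.comp ψ, dihToG2_surjective.comp h1, ?_⟩
  rw [← h2]
  ext x
  rw [MonoidHom.mem_ker, MonoidHom.mem_ker, MonoidHom.comp_apply]
  constructor
  · intro h
    apply dihToG2_injective
    rw [h, map_one]
  · intro h
    rw [h, map_one]

end Cfsg.Agent.Lib.Helper8
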