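import Cfsg.Agent.Lib.Helper8.Cox3
import Cfsg.Agent.Lib.Helper8.WQ

set_option autoImplicit false
set_option linter.unusedSectionVars false
set_option linter.unusedVariables false

/-! `N/H` is the Coxeter group of the type. -/

namespace Cfsg.Agent.Lib.Helper8

open Cfsg Cfsg.Lie

theorem mat_G2 : ∀ i j : Fin 2, CoxeterMatrix.G₂ i j = mOf chevG2 i.val j.val := by
  intro i j
  fin_cases i <;> fin_cases j <;> decide +kernel
theorem mat_B2 : ∀ i j : Fin 2, CoxeterMatrix.B 2 i j = mOf chevB2 i.val j.val := by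
  intro i j
  fin_cases i <;> fin_cases j <;> decide +kernel
theorem mat_D4 : ∀ i j : Fin 4, coxeterD4 i j = mOf chevD4 i.val j.val := by
  intro i j
  fin_cases i <;> fin_cases j <;> decide +kernel
theorem mat_F4 : ∀ i j : Fin 4, CoxeterMatrix.F₄ i j = mOf chevF4 i.val j.val := by
  intro i j
  fin_cases i <;> fin_cases j <;> decide +kernel
theorem mat_E6 : ∀ i j : Fin 6, CoxeterMatrix.E₆ i j = mOf chevE6 i.val j.val := by
  intro i j
  fin_cases i <;> fin_cases j <;> decide +kernel
theorem mat_E7 : ∀ i j : Fin 7, CoxeterMatrix.E₇ i j = mOf chevE7 i.val j.val := by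
  intro i j
  fin_cases i <;> fin_cases j <;> decide +kernel
theorem mat_E8 : ∀ i j : Fin 8, CoxeterMatrix.E₈ i j = mOf chevE8 i.val j.val := by
  intro i j
  fin_cases i <;> fin_cases j <;> decide +kernel

section
variable {D : ChevalleyDatum} (hD : D ∈ allData) {n : ℕ} (M : CoxeterMatrix (Fin n)) (hn : n = D.rank)
  (hM : ∀ i j : Fin n, M i j = mOf D i.val j.val) (F : Type*) [Field F]
include hD hn hM

theorem weyl_hom :
    ∃ φ : ↥(D.monomialSubgroup F) →* M.Group, Function.Surjective φ ∧
      φ.ker = (D.diagonalSubgroup F).subgroupOf (D.monomialSubgroup F) ∧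
      ∀ (i : Fin n) (g : ↥(D.monomialSubgroup F)),
        ((g : GL D.Idx F) : Matrix D.Idx D.Idx F) = D.nMat F (D.simple i) 1 → φ g = M.simple i := by
  let θ := thC hD M hn hM
  have hθ : Function.Injective θ := thC_injective hD M hn hM
  have huniq : ∀ {m : GL D.Idx F} {d d' : M.Group}, Act hD m (θ d) → Act hD m (θ d') → d = d' := by
    intro m d d' h h'
    apply hθ
    obtain ⟨L, hL, rfl⟩ := exists_word M d
    obtain ⟨L', hL', rfl⟩ := exists_word M d'
    have e := Act.unique h h'
    show thC hD M hn hM _ = thC hD M hn hM _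
    rw [thC_om hD M hn hM hL, thC_om hD M hn hM hL']
    have e1 : θ (om (cC M) L) = om (sP hD) L := thC_om hD M hn hM hL
    have e2 : θ (om (cC M) L') = om (sP hD) L' := thC_om hD M hn hM hL'
    rw [e1, e2] at e
    ext s
    by_cases hs : s < D.nroots
    · exact e s hs
    · rw [om_apply_ge hD L hs, om_apply_ge hD L' hs]
  have hword : ∀ (L : List ℕ), (∀ i ∈ L, i < D.rank) → Act hD (nR hD F L) (θ (om (cC M) L)) := by
    intro L hL
    have e1 : θ (om (cC M) L) = om (sP hD) L := thC_om hD M hn hM (fun i hi => hn ▸ hL i hi)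
    rw [e1]
    exact (act_nR hD L hL).congrT (fun s hs => (om_apply hD L hL hs).symm)
  have cover : ∀ m ∈ D.monomialSubgroup F, ∃ d : M.Group, Act hD m (θ d) := by
    intro m hm
    obtain ⟨h, hh, L, hL, rfl⟩ := mem_mono hD hm
    rw [diag_eq_torus hD] at hh
    obtain ⟨c, rfl⟩ := hh
    exact ⟨om (cC M) L, (act_tG hD c).mul (hword L hL)⟩
  let f : ↥(D.monomialSubgroup F) → M.Group := fun m => (cover m.1 m.2).choose
  have hf : ∀ m : ↥(D.monomialSubgroup F), Act hD m.1 (θ (f m)) := fun m => (cover m.1 m.2).choose_spec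
  have hone : Act hD (1 : GL D.Idx F) (θ (1 : M.Group)) := by
    have h := act_tG hD (F := F) 1
    rw [tG_one] at h
    exact h.congrT (fun s hs => by rw [map_one]; rfl)
  let ψ : ↥(D.monomialSubgroup F) →* M.Group :=
    { toFun := f
      map_one' := huniq (hf 1) hone
      map_mul' := fun a b => huniq (hf (a * b)) (((hf a).mul (hf b)).congrT (fun s hs => by
        rw [map_mul]; rfl)) }
  refine ⟨ψ, ?_, ?_, ?_⟩
  · intro d
    obtain ⟨L, hL, rfl⟩ := exists_word M d
    have hL' : ∀ i ∈ L, i < D.rank := fun i hi => hn ▸ hL i hi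
    exact ⟨⟨nR hD F L, nR_mem_mono hD L hL'⟩, huniq (hf _) (hword L hL')⟩
  · ext ⟨m, hm⟩
    rw [MonoidHom.mem_ker, Subgroup.mem_subgroupOf]
    show f ⟨m, hm⟩ = 1 ↔ m ∈ _
    constructor
    · intro h
      have h1 := hf ⟨m, hm⟩
      rw [h] at h1
      have h2 := same_act_diag hD hm (one_mem _) h1 hone (fun _ _ => rfl)
      rw [inv_one, mul_one] at h2
      exact h2
    · intro h
      have h1 := h
      rw [diag_eq_torus hD] at h1
      obtain ⟨c, hc⟩ := h1
      have h2 : Act hD m (θ (1 : M.Group)) := by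
        rw [← hc]
        exact (act_tG hD c).congrT (fun s hs => by rw [map_one]; rfl)
      exact huniq (hf ⟨m, hm⟩) h2
  · intro i g hg
    have hi : i.val < D.rank := hn ▸ i.isLt
    have e : (g : GL D.Idx F) = nR hD F [i.val] := by
      apply Units.ext
      rw [hg]
      simp [nR, nS]
    have h1 := hword [i.val] (by simpa using hi)
    rw [← e] at h1
    have h2 : om (cC M) [i.val] = M.simple i := by
      rw [om_singleton, cC_val]
    rw [h2] at h1
    exact huniq (hf g) h1

end

end Cfsg.Agent.Lib.Helper8
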