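import Cfsg.Agent.Lib.Helper8.Cox4

set_option autoImplicit false
set_option linter.unusedSectionVars false
set_option linter.unusedVariables false

/-! The order of the Coxeter element. -/

namespace Cfsg.Agent.Lib.Helper8

open Cfsg Cfsg.Lie

theorem om_eq_prod {W : Type*} [Group W] (s : ℕ → W) : ∀ L : List ℕ, om s L = (L.reverse.map s).prod
  | [] => rfl
  | p :: L => by
    show om s L * s p = _
    rw [om_eq_prod s L]
    simp

theorem coxElt_eq {n : ℕ} (M : CoxeterMatrix (Fin n)) :
    ((List.finRange n).map M.simple).prod = om (cC M) (List.range n).reverse := by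
  rw [om_eq_prod, List.reverse_reverse, ← List.map_coe_finRange_eq_range, List.map_map]
  congr 1
  apply List.map_congr_left
  intro i _
  exact (cC_val M i).symm

section
variable {D : ChevalleyDatum} (hD : D ∈ allData) {n : ℕ} (M : CoxeterMatrix (Fin n)) (hn : n = D.rank)
  (hM : ∀ i j : Fin n, M i j = mOf D i.val j.val)
include hD hn hM

theorem cox_order (h : ℕ) (hpos : 0 < h) (h0 : 0 < n)
    (h1 : ∀ i < D.rank, wR D (List.replicate h (List.range n).reverse).flatten (D.simple i) = D.simple i)
    (h2 : ∀ k < h, 0 < k → wR D (List.replicate k (List.range n).reverse).flatten (D.simple 0) ≠ D.simple 0) :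
    orderOf ((List.finRange n).map M.simple).prod = h := by
  have hL0 : ∀ i ∈ (List.range n).reverse, i < n := fun i hi => List.mem_range.mp (List.mem_reverse.mp hi)
  have hLk : ∀ k : ℕ, ∀ i ∈ (List.replicate k (List.range n).reverse).flatten, i < D.rank := by
    intro k i hi
    obtain ⟨A, hA, hiA⟩ := List.mem_flatten.mp hi
    rw [List.eq_of_mem_replicate hA] at hiA
    exact hn ▸ hL0 i hiA
  rw [coxElt_eq, ← orderOf_injective (thC hD M hn hM) (thC_injective hD M hn hM), thC_om hD M hn hM hL0,
    orderOf_eq_iff hpos]
  constructor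
  · rw [← om_replicate]
    exact om_eq_of_simple hD (L' := []) (hLk h) (by simp) h1
  · intro k hk hk0 e
    rw [← om_replicate] at e
    have hs : D.simple 0 < D.nroots := simple_lt hD (hn ▸ h0)
    have := om_apply hD _ (hLk k) hs
    rw [e] at this
    exact h2 k hk hk0 this.symm

end

theorem coxE8_1 : ∀ i < chevE8.rank,
    wR chevE8 (List.replicate 30 (List.range 8).reverse).flatten (chevE8.simple i) = chevE8.simple i := by
  decide +kernel

theorem coxE8_2 : ∀ k < 30, 0 < k →
    wR chevE8 (List.replicate k (List.range 8).reverse).flatten (chevE8.simple 0) ≠ chevE8.simple 0 := by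
  decide +kernel

theorem coxE8_order : orderOf ((List.finRange 8).map CoxeterMatrix.E₈.simple).prod = 30 :=
  cox_order (D := chevE8) (by simp [allData]) CoxeterMatrix.E₈ rfl mat_E8 30 (by decide) (by decide) coxE8_1 coxE8_2

end Cfsg.Agent.Lib.Helper8
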