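import Cfsg.Agent.Lib.Helper8.Cox4

set_option autoImplicit false
set_option linter.unusedSectionVars false
set_option linter.unusedVariables false

/-! `N¹/H¹` for `²E₆` is the Coxeter group of type `F₄`. -/

namespace Cfsg.Agent.Lib.Helper8

open Cfsg Cfsg.Lie

theorem hF4c : chevF4 ∈ allData := by simp [allData]

/-- the block of fundamental roots of `E₆` attached to a node of `F₄` -/
def blkE6 (p : ℕ) : List ℕ := blE6.getD p []

/-- the restriction map from the roots of `E₆` to the roots of `F₄` -/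
def nuE6 (s : ℕ) : ℕ :=
  [3, 7, 8, 0, 1, 0, 9, 2, 11, 4, 5, 18, 15, 16, 21, 23, 1, 2, 10, 4, 12, 6, 5, 6, 13, 14, 15, 19, 17, 22, 16, 17,
    20, 21, 22, 23, 24, 25, 26, 27, 30, 31, 25, 30, 28, 32, 33, 34, 41, 42, 41, 35, 43, 37, 45, 46, 24, 26, 31, 32,
    29, 42, 43, 36, 45, 38, 47, 46, 47, 39, 40, 44].getD s 0

theorem nuE6_equiv : ∀ j < 4, ∀ s < chevE6.nroots,
    nuE6 (wR chevE6 (blkE6 j) s) = chevF4.reflectRoot j (nuE6 s) := by decide +kernel

theorem nuE6_lt : ∀ s < chevE6.nroots, nuE6 s < chevF4.nroots := by decide +kernel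

theorem nuE6_surj : ∀ r < chevF4.nroots, ∃ s, s < chevE6.nroots ∧ nuE6 s = r := by decide +kernel

theorem blkE6_mem : ∀ j < 4, blkE6 j ∈ blE6 := by decide

theorem blkE6_lt : ∀ j < 4, ∀ i ∈ blkE6 j, i < chevE6.rank := by decide

theorem blkE6_cov : ∀ J ∈ blE6, ∃ j, j < 4 ∧ J = blkE6 j := by decide

theorem blkE6_pow : ∀ p < 4, ∀ q < 4, ∀ i < chevE6.rank,
    wR chevE6 (List.replicate (mOf chevF4 p q) (blkE6 q ++ blkE6 p)).flatten (chevE6.simple i) =
      chevE6.simple i := by decide +kernel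

theorem om_flatMap {W : Type*} [Group W] (s : ℕ → W) (b : ℕ → List ℕ) :
    ∀ L : List ℕ, om s (L.map b).flatten = om (fun p => om s (b p)) L
  | [] => rfl
  | p :: L => by
    rw [List.map_cons, List.flatten_cons, om_append, om_flatMap s b L]
    rfl

theorem blk_liftable : CoxeterMatrix.F₄.IsLiftable (fun i : Fin 4 => om (sP hE6) (blkE6 i.val)) := by
  intro i j
  show (om (sP hE6) (blkE6 i.val) * om (sP hE6) (blkE6 j.val)) ^ CoxeterMatrix.F₄ i j = 1
  rw [← om_append, ← om_replicate, mat_F4]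
  have h2 : (1 : Equiv.Perm ℕ) = om (sP hE6) [] := rfl
  rw [h2]
  apply om_eq_of_simple hE6 _ (by simp) (blkE6_pow i.val i.isLt j.val j.isLt)
  intro a ha
  obtain ⟨A, hA, haA⟩ := List.mem_flatten.mp ha
  rw [List.eq_of_mem_replicate hA] at haA
  rcases List.mem_append.mp haA with h | h
  · exact blkE6_lt _ j.isLt a h
  · exact blkE6_lt _ i.isLt a h

/-- the action of the Coxeter group of type `F₄` on the roots of `E₆` -/
noncomputable def thCE6 : CoxeterMatrix.F₄.Group →* Equiv.Perm ℕ :=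
  CoxeterMatrix.F₄.toCoxeterSystem.lift ⟨_, blk_liftable⟩

theorem thCE6_simple (i : Fin 4) : thCE6 (CoxeterMatrix.F₄.simple i) = om (sP hE6) (blkE6 i.val) :=
  CoxeterMatrix.F₄.toCoxeterSystem.lift_apply_simple blk_liftable i

theorem flat_lt {L : List ℕ} (hL : ∀ i ∈ L, i < 4) : ∀ i ∈ (L.map blkE6).flatten, i < chevE6.rank := by
  intro i hi
  obtain ⟨A, hA, hiA⟩ := List.mem_flatten.mp hi
  obtain ⟨p, hp, rfl⟩ := List.mem_map.mp hA
  exact blkE6_lt p (hL p hp) i hiA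

theorem thCE6_om {L : List ℕ} (hL : ∀ i ∈ L, i < 4) :
    thCE6 (om (cC CoxeterMatrix.F₄) L) = om (sP hE6) (L.map blkE6).flatten := by
  rw [map_om, om_flatMap]
  apply om_congr (l := 4) _ L hL
  intro p hp
  have := thCE6_simple ⟨p, hp⟩
  rw [← cC_val] at this
  exact this

theorem nuE6_word : ∀ (L : List ℕ), (∀ i ∈ L, i < 4) → ∀ s < chevE6.nroots,
    nuE6 (wR chevE6 (L.map blkE6).flatten s) = wR chevF4 L (nuE6 s)
  | [], _, _, _ => rfl
  | p :: L, hL, s, hs => by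
    have hp := hL p List.mem_cons_self
    rw [List.map_cons, List.flatten_cons, wR_append,
      nuE6_word L (fun j hj => hL j (List.mem_cons_of_mem _ hj)) _ (wR_lt hE6 _ (blkE6_lt p hp) hs),
      nuE6_equiv p hp s hs]
    rfl

theorem thCE6_inj_word {L : List ℕ} (hL : ∀ i ∈ L, i < 4)
    (h : ∀ s < chevE6.nroots, wR chevE6 (L.map blkE6).flatten s = s) : om (cC CoxeterMatrix.F₄) L = 1 := by
  apply thC_injective hF4c CoxeterMatrix.F₄ rfl mat_F4
  rw [thC_om hF4c CoxeterMatrix.F₄ rfl mat_F4 hL, map_one]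
  have h2 : (1 : Equiv.Perm ℕ) = om (sP hF4c) [] := rfl
  rw [h2, om_eq_iff hF4c hL (by simp)]
  intro r hr
  obtain ⟨s, hs, rfl⟩ := nuE6_surj r hr
  rw [← nuE6_word L hL s hs, h s hs]
  rfl

/-- a word for each element -/
noncomputable def wordF4 (d : CoxeterMatrix.F₄.Group) : List ℕ := (exists_word CoxeterMatrix.F₄ d).choose

theorem wordF4_lt (d : CoxeterMatrix.F₄.Group) : ∀ i ∈ wordF4 d, i < 4 :=
  (exists_word CoxeterMatrix.F₄ d).choose_spec.1

theorem wordF4_eq (d : CoxeterMatrix.F₄.Group) : d = om (cC CoxeterMatrix.F₄) (wordF4 d) :=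
  (exists_word CoxeterMatrix.F₄ d).choose_spec.2

theorem wordF4_act (d : CoxeterMatrix.F₄.Group) {s : ℕ} (hs : s < chevE6.nroots) :
    wR chevE6 ((wordF4 d).map blkE6).flatten s = thCE6 d s := by
  conv_rhs => rw [wordF4_eq d, thCE6_om (wordF4_lt d)]
  exact (om_apply hE6 _ (flat_lt (wordF4_lt d)) hs).symm

theorem exists_hom_E6 {K : Type*} [Field K] (φ : K →+* K) :
    ∃ ψ : ↥(chevE6.monomialSubgroup K ⊓ twG hE6 φ blE6) →* CoxeterMatrix.F₄.Group, Function.Surjective ψ ∧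
      ψ.ker = (chevE6.diagonalSubgroup K ⊓ twG hE6 φ blE6).subgroupOf
        (chevE6.monomialSubgroup K ⊓ twG hE6 φ blE6) := by
  apply exists_hom_tw hE6 twS_E6 φ (fun d => (wordF4 d).map blkE6)
  · intro d J hJ
    obtain ⟨p, hp, rfl⟩ := List.mem_map.mp hJ
    exact blkE6_mem p (wordF4_lt d p hp)
  · intro s hs
    rw [wordF4_act 1 hs, map_one]
    rfl
  · intro d d' s hs
    rw [wordF4_act d' hs, wordF4_act (d * d') hs, map_mul]
    have h1 : thCE6 d' s < chevE6.nroots := by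
      rw [← wordF4_act d' hs]
      exact wR_lt hE6 _ (flat_lt (wordF4_lt d')) hs
    rw [wordF4_act d h1]
    rfl
  · intro d h
    rw [wordF4_eq d]
    exact thCE6_inj_word (wordF4_lt d) h
  · intro J hJ
    obtain ⟨j, hj, rfl⟩ := blkE6_cov J hJ
    refine ⟨CoxeterMatrix.F₄.simple ⟨j, hj⟩, fun s hs => ?_⟩
    rw [wordF4_act _ hs, thCE6_simple]
    exact (om_apply hE6 _ (blkE6_lt j hj) hs).symm

end Cfsg.Agent.Lib.Helper8
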