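import Cfsg.Agent.Lib.Helper8.Cox4
import Cfsg.Agent.Lib.Helper8.WeylLev2

set_option autoImplicit false
set_option linter.unusedSectionVars false
set_option linter.unusedVariables false

/-! The orders of the Coxeter groups. -/

namespace Cfsg.Agent.Lib.Helper8

open Cfsg Cfsg.Lie

section
variable {D : ChevalleyDatum} (hD : D ∈ allData) {n : ℕ} (M : CoxeterMatrix (Fin n)) (hn : n = D.rank)
  (hM : ∀ i j : Fin n, M i j = mOf D i.val j.val)
include hD hn hM

theorem card_cox : Nat.card M.Group = ((degsOf D).map (fun d => evalP (geoP d) 1)).prod := by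
  have hlt : ∀ t ∈ weylForms D, ∀ i ∈ t, i < n := fun t ht i hi => hn ▸ (weylForms_red hD t ht).lt i hi
  let f : ↥(weylForms D) → M.Group := fun t => om (cC M) t.1
  have hf : Function.Bijective f := by
    constructor
    · intro t t' e
      have e1 := congrArg (thC hD M hn hM) e
      simp only [f] at e1
      rw [thC_om hD M hn hM (hlt t.1 t.2), thC_om hD M hn hM (hlt t'.1 t'.2)] at e1
      exact Subtype.ext (weylForms_inj hD t.1 t.2 t'.1 t'.2 e1)
    · intro x
      obtain ⟨L, hL, rfl⟩ := exists_word M x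
      obtain ⟨t, ht, e⟩ := weylForms_cover hD L (fun i hi => hn ▸ hL i hi)
      refine ⟨⟨t, ht⟩, ?_⟩
      apply thC_injective hD M hn hM
      show thC hD M hn hM (om (cC M) t) = _
      rw [thC_om hD M hn hM (hlt t ht), thC_om hD M hn hM hL, e]
  rw [← Nat.card_congr (Equiv.ofBijective f hf), Nat.card_eq_fintype_card, Fintype.card_coe,
    ← weylForms_sum hD 1]
  simp

end

theorem cardW_B2 : Nat.card (CoxeterMatrix.B 2).Group = 8 :=
  (card_cox (D := chevB2) (by simp [allData]) (n := 2) (CoxeterMatrix.B 2) rfl mat_B2).trans (by decide +kernel)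

theorem cardW_G2 : Nat.card CoxeterMatrix.G₂.Group = 12 :=
  (card_cox (D := chevG2) (by simp [allData]) (n := 2) CoxeterMatrix.G₂ rfl mat_G2).trans (by decide +kernel)

theorem cardW_D4 : Nat.card coxeterD4.Group = 192 :=
  (card_cox (D := chevD4) (by simp [allData]) (n := 4) coxeterD4 rfl mat_D4).trans (by decide +kernel)

theorem cardW_F4 : Nat.card CoxeterMatrix.F₄.Group = 1152 :=
  (card_cox (D := chevF4) (by simp [allData]) (n := 4) CoxeterMatrix.F₄ rfl mat_F4).trans (by decide +kernel)

theorem cardW_E6 : Nat.card CoxeterMatrix.E₆.Group = 51840 :=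
  (card_cox (D := chevE6) (by simp [allData]) (n := 6) CoxeterMatrix.E₆ rfl mat_E6).trans (by decide +kernel)

theorem cardW_E7 : Nat.card CoxeterMatrix.E₇.Group = 2903040 :=
  (card_cox (D := chevE7) (by simp [allData]) (n := 7) CoxeterMatrix.E₇ rfl mat_E7).trans (by decide +kernel)

theorem cardW_E8 : Nat.card CoxeterMatrix.E₈.Group = 696729600 :=
  (card_cox (D := chevE8) (by simp [allData]) (n := 8) CoxeterMatrix.E₈ rfl mat_E8).trans (by decide +kernel)

end Cfsg.Agent.Lib.Helper8
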