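import Cfsg.Agent.Lib.Helper8.Cox5

set_option autoImplicit false
set_option linter.unusedSectionVars false
set_option linter.unusedVariables false

/-! The centre of the Coxeter groups. -/

namespace Cfsg.Agent.Lib.Helper8

open Cfsg Cfsg.Lie

theorem chkReflNeg_all : ∀ D ∈ allData, ∀ i < D.rank, ∀ r < D.nroots,
    D.reflectRoot i r = D.neg r → r = D.simple i ∨ r = D.neg (D.simple i) := by
  apply all_of <;> decide +kernel

theorem cartan_negS_all : ∀ D ∈ allData, ∀ i < D.rank, D.cartan i (D.neg (D.simple i)) = -2 := by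
  apply all_of <;> decide +kernel

/-- the nodes at distance at most `k` from the node `0` -/
def reach (D : ChevalleyDatum) : ℕ → List ℕ
  | 0 => [0]
  | k + 1 => reach D k ++ (List.range D.rank).filter (fun j => (reach D k).any (fun i =>
      decide (D.cartan i (D.simple j) ≠ 0 ∧ D.cartan j (D.simple i) ≠ 0)))

theorem chkReach_all : ∀ D ∈ allData, (∀ j < D.rank, j ∈ reach D D.rank) ∧ 0 < D.rank := by
  apply all_of <;> decide +kernel

section
variable {D : ChevalleyDatum} (hD : D ∈ allData)
include hD

theorem triv_of_pos {L : List ℕ} (hL : ∀ i ∈ L, i < D.rank)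
    (h : ∀ i < D.rank, D.IsPosRoot (wR D L (D.simple i))) : om (sP hD) L = om (sP hD) [] := by
  obtain ⟨M, hM, -, h', hh', e⟩ := exists_red (F := ℚ) hD L hL
  have e1 : om (sP hD) L = om (sP hD) M := om_of_nR_eq hD hL hM.lt ⟨h', hh', e⟩
  have h2 : M = [] := red_eq_nil hD hM (fun i hi => by
    rw [← (om_eq_iff hD hL hM.lt).mp e1 _ (simple_lt hD hi)]
    exact h i hi)
  rw [e1, h2]

theorem reach_lt : ∀ k : ℕ, ∀ j ∈ reach D k, j < D.rank
  | 0, j, hj => by
    simp only [reach, List.mem_singleton] at hj
    rw [hj]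
    exact (chkReach_all D hD).2
  | k + 1, j, hj => by
    rcases List.mem_append.mp hj with h | h
    · exact reach_lt k j h
    · exact List.mem_range.mp (List.mem_filter.mp h).1

variable {L : List ℕ} (hL : ∀ i ∈ L, i < D.rank)
  (comm : ∀ i < D.rank, ∀ s < D.nroots, D.reflectRoot i (wR D L s) = wR D L (D.reflectRoot i s))
include hL comm

theorem central_pm {i : ℕ} (hi : i < D.rank) :
    wR D L (D.simple i) = D.simple i ∨ wR D L (D.simple i) = D.neg (D.simple i) := by
  have hs := simple_lt hD hi
  apply chkReflNeg_all D hD i hi _ (wR_lt hD L hL hs)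
  rw [comm i hi _ hs, reflect_simple, (act_nR (F := ℚ) hD L hL).neg _ hs]

theorem central_adj {i j : ℕ} (hi : i < D.rank) (hj : j < D.rank) (ha : D.cartan i (D.simple j) ≠ 0)
    (h : wR D L (D.simple j) = D.simple j) : wR D L (D.simple i) = D.simple i := by
  rcases central_pm hD hL comm hi with h1 | h1
  · exact h1
  · exfalso
    have hsi := simple_lt hD hi
    have hsj := simple_lt hD hj
    have lin : LinC D (D.reflectRoot i (D.simple j)) 1 (-(D.cartan i (D.simple j))) (D.simple j) (D.simple i) := by
      intro k hk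
      rw [cartan_reflect hD hi hk hsj]
      ring
    have lin2 := LinC.wR hD L hL lin (reflect_lt hD hi hsj) hsj hsi
    rw [← comm i hi _ hsj, h, h1] at lin2
    have e1 := lin i hi
    have e2 := lin2 i hi
    rw [cartan_self hD hi] at e1
    rw [cartan_negS_all D hD i hi, e1] at e2
    apply ha
    linarith

theorem central_reach : ∀ k : ℕ, ∀ j ∈ reach D k,
    (wR D L (D.simple j) = D.simple j ↔ wR D L (D.simple 0) = D.simple 0)
  | 0, j, hj => by
    simp only [reach, List.mem_singleton] at hj
    rw [hj]
  | k + 1, j, hj => by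
    rcases List.mem_append.mp hj with h | h
    · exact central_reach k j h
    · obtain ⟨h1, h2⟩ := List.mem_filter.mp h
      have hjl := List.mem_range.mp h1
      obtain ⟨i, hi, h3⟩ := List.any_eq_true.mp h2
      have h4 := of_decide_eq_true h3
      have hil := reach_lt hD k i hi
      rw [← central_reach k i hi]
      exact ⟨central_adj hD hL comm hil hjl h4.1, central_adj hD hL comm hjl hil h4.2⟩

theorem central_cases : (∀ i < D.rank, wR D L (D.simple i) = D.simple i) ∨
    (∀ i < D.rank, wR D L (D.simple i) = D.neg (D.simple i)) := by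
  have h0 := (chkReach_all D hD).2
  by_cases h : wR D L (D.simple 0) = D.simple 0
  · left
    intro i hi
    exact (central_reach hD hL comm D.rank i ((chkReach_all D hD).1 i hi)).mpr h
  · right
    intro i hi
    rcases central_pm hD hL comm hi with h1 | h1
    · exact absurd ((central_reach hD hL comm D.rank i ((chkReach_all D hD).1 i hi)).mp h1) h
    · exact h1

end

section
variable {D : ChevalleyDatum} (hD : D ∈ allData) {n : ℕ} (M : CoxeterMatrix (Fin n)) (hn : n = D.rank)
  (hM : ∀ i j : Fin n, M i j = mOf D i.val j.val)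
include hD hn hM

theorem center_comm {L : List ℕ} (hL : ∀ i ∈ L, i < n) (hz : om (cC M) L ∈ Subgroup.center M.Group) :
    ∀ i < D.rank, ∀ s < D.nroots, D.reflectRoot i (wR D L s) = wR D L (D.reflectRoot i s) := by
  intro i hi s hs
  have hi' : i < n := hn ▸ hi
  have hL' : ∀ i ∈ L, i < D.rank := fun i hi => hn ▸ hL i hi
  have h1 := Subgroup.mem_center_iff.mp hz (cC M i)
  have h2 : om (cC M) (L ++ [i]) = om (cC M) (i :: L) := by
    rw [om_append, om_singleton]
    exact h1
  have hA : ∀ a ∈ L ++ [i], a < n := by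
    intro a ha
    rcases List.mem_append.mp ha with h | h
    · exact hL a h
    · rw [List.mem_singleton.mp h]; exact hi'
  have hB : ∀ a ∈ i :: L, a < n := by
    intro a ha
    rcases List.mem_cons.mp ha with h | h
    · rw [h]; exact hi'
    · exact hL a h
  have h3 := congrArg (thC hD M hn hM) h2
  rw [thC_om hD M hn hM hA, thC_om hD M hn hM hB] at h3
  have h4 := (om_eq_iff hD (fun a ha => hn ▸ hA a ha) (fun a ha => hn ▸ hB a ha)).mp h3 s hs
  rw [wR_append] at h4
  exact h4

theorem center_cases {z : M.Group} (hz : z ∈ Subgroup.center M.Group) :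
    z = 1 ∨ ∃ L : List ℕ, (∀ i ∈ L, i < n) ∧ z = om (cC M) L ∧
      ∀ i < D.rank, wR D L (D.simple i) = D.neg (D.simple i) := by
  obtain ⟨L, hL, rfl⟩ := exists_word M z
  have hL' : ∀ i ∈ L, i < D.rank := fun i hi => hn ▸ hL i hi
  rcases central_cases hD hL' (center_comm hD M hn hM hL hz) with h | h
  · left
    apply thC_injective hD M hn hM
    rw [thC_om hD M hn hM hL, map_one]
    exact om_eq_of_simple hD (L' := []) hL' (by simp) h
  · exact Or.inr ⟨L, hL, rfl, h⟩

theorem center_two (h2 : ℕ)
    (hneg : ∀ s < D.nroots, wR D (List.replicate h2 (List.range n).reverse).flatten s = D.neg s) :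
    Nat.card (Subgroup.center M.Group) = 2 ∧
      Subgroup.center M.Group ≤ Subgroup.zpowers ((List.finRange n).map M.simple).prod := by
  have hL0 : ∀ i ∈ (List.range n).reverse, i < n := fun i hi => List.mem_range.mp (List.mem_reverse.mp hi)
  set Lz := (List.replicate h2 (List.range n).reverse).flatten with hLz
  have hLzn : ∀ i ∈ Lz, i < n := by
    intro i hi
    obtain ⟨A, hA, hiA⟩ := List.mem_flatten.mp hi
    rw [List.eq_of_mem_replicate hA] at hiA
    exact hL0 i hiA
  have hLzr : ∀ i ∈ Lz, i < D.rank := fun i hi => hn ▸ hLzn i hi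
  have ez : om (cC M) Lz = ((List.finRange n).map M.simple).prod ^ h2 := by
    rw [coxElt_eq, hLz, om_replicate]
  set z0 := om (cC M) Lz with hz0
  have hcen : z0 ∈ Subgroup.center M.Group := by
    rw [Subgroup.mem_center_iff]
    intro g
    obtain ⟨A, hA, rfl⟩ := exists_word M g
    apply thC_injective hD M hn hM
    rw [← om_append, ← om_append]
    have hA' : ∀ i ∈ A, i < D.rank := fun i hi => hn ▸ hA i hi
    have h1 : ∀ a ∈ Lz ++ A, a < n := by
      intro a ha
      rcases List.mem_append.mp ha with h | h
      · exact hLzn a h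
      · exact hA a h
    have h2' : ∀ a ∈ A ++ Lz, a < n := by
      intro a ha
      rcases List.mem_append.mp ha with h | h
      · exact hA a h
      · exact hLzn a h
    rw [thC_om hD M hn hM h1, thC_om hD M hn hM h2',
      om_eq_iff hD (fun a ha => hn ▸ h1 a ha) (fun a ha => hn ▸ h2' a ha)]
    intro s hs
    rw [wR_append, wR_append, hneg s hs, hneg _ (wR_lt hD A hA' hs), (act_nR (F := ℚ) hD A hA').neg s hs]
  have hne : z0 ≠ 1 := by
    intro e
    have e1 := congrArg (thC hD M hn hM) e
    rw [hz0, thC_om hD M hn hM hLzn, map_one] at e1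
    have hs := simple_lt hD (chkReach_all D hD).2
    have e2 := om_apply hD Lz hLzr hs
    rw [e1, hneg _ hs] at e2
    exact neg_ne hD hs e2.symm
  have hsq : z0 ^ 2 = 1 := by
    apply thC_injective hD M hn hM
    rw [pow_two, ← om_append, map_one]
    have h1 : ∀ a ∈ Lz ++ Lz, a < n := by
      intro a ha
      rcases List.mem_append.mp ha with h | h <;> exact hLzn a h
    rw [thC_om hD M hn hM h1]
    have h2' : (1 : Equiv.Perm ℕ) = om (sP hD) [] := rfl
    rw [h2', om_eq_iff hD (fun a ha => hn ▸ h1 a ha) (by simp)]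
    intro s hs
    rw [wR_append, hneg s hs, hneg _ (neg_lt' hD s hs), neg_neg' hD hs]
    rfl
  have hle : Subgroup.center M.Group ≤ Subgroup.zpowers z0 := by
    intro z hz
    rcases center_cases hD M hn hM hz with rfl | ⟨L, hL, rfl, h⟩
    · exact one_mem _
    · have : om (cC M) L = z0 := by
        apply thC_injective hD M hn hM
        rw [thC_om hD M hn hM hL, thC_om hD M hn hM hLzn]
        apply om_eq_of_simple hD (fun i hi => hn ▸ hL i hi) hLzr
        intro i hi
        rw [h i hi, hneg _ (simple_lt hD hi)]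
      rw [this]
      exact Subgroup.mem_zpowers z0
  constructor
  · have heq : Subgroup.center M.Group = Subgroup.zpowers z0 :=
      le_antisymm hle (Subgroup.zpowers_le.mpr hcen)
    rw [heq, Nat.card_zpowers]
    exact orderOf_eq_prime hsq hne
  · refine hle.trans (Subgroup.zpowers_le.mpr ?_)
    rw [ez]
    exact Subgroup.pow_mem _ (Subgroup.mem_zpowers _) _

end

end Cfsg.Agent.Lib.Helper8
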