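import Cfsg.Agent.Lib.Helper8.Cox8

set_option autoImplicit false
set_option linter.unusedSectionVars false
set_option linter.unusedVariables false

/-! The centre of the Coxeter groups: the seven types. -/

namespace Cfsg.Agent.Lib.Helper8

open Cfsg Cfsg.Lie

noncomputable def chkNegW (D : ChevalleyDatum) (nrow : ℕ → ℕ) (L : List ℕ) : Bool :=
  L.all (fun i => Nat.blt i D.rank) && allR (fun s => Nat.beq (wR9 nrow L s) (D.neg s)) D.nroots

theorem negW_of_chk {D : ChevalleyDatum} (hD : D ∈ allData) {L : List ℕ} (h : chkNegW D (nrowOf D) L = true) :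
    ∀ s < D.nroots, wR D L s = D.neg s := by
  simp only [chkNegW, Bool.and_eq_true, List.all_eq_true, allR_iff, Nat.blt_eq, Nat.beq_eq] at h
  intro s hs
  rw [← wR9_eq hD L h.1 hs]
  exact h.2 s hs

theorem centerW_B2 : Nat.card (Subgroup.center (CoxeterMatrix.B 2).Group) = 2 ∧
    Subgroup.center (CoxeterMatrix.B 2).Group ≤
      Subgroup.zpowers ((List.finRange 2).map (CoxeterMatrix.B 2).simple).prod :=
  center_two (D := chevB2) (by simp [allData]) (n := 2) (CoxeterMatrix.B 2) rfl mat_B2 2
    (negW_of_chk (by simp [allData]) (by decide +kernel))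

theorem centerW_G2 : Nat.card (Subgroup.center CoxeterMatrix.G₂.Group) = 2 ∧
    Subgroup.center CoxeterMatrix.G₂.Group ≤
      Subgroup.zpowers ((List.finRange 2).map CoxeterMatrix.G₂.simple).prod :=
  center_two (D := chevG2) (by simp [allData]) (n := 2) CoxeterMatrix.G₂ rfl mat_G2 3
    (negW_of_chk (by simp [allData]) (by decide +kernel))

theorem centerW_D4 : Nat.card (Subgroup.center coxeterD4.Group) = 2 ∧
    Subgroup.center coxeterD4.Group ≤
      Subgroup.zpowers ((List.finRange 4).map coxeterD4.simple).prod :=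
  center_two (D := chevD4) (by simp [allData]) (n := 4) coxeterD4 rfl mat_D4 3
    (negW_of_chk (by simp [allData]) (by decide +kernel))

theorem centerW_F4 : Nat.card (Subgroup.center CoxeterMatrix.F₄.Group) = 2 ∧
    Subgroup.center CoxeterMatrix.F₄.Group ≤
      Subgroup.zpowers ((List.finRange 4).map CoxeterMatrix.F₄.simple).prod :=
  center_two (D := chevF4) (by simp [allData]) (n := 4) CoxeterMatrix.F₄ rfl mat_F4 6
    (negW_of_chk (by simp [allData]) (by decide +kernel))

theorem centerW_E7 : Nat.card (Subgroup.center CoxeterMatrix.E₇.Group) = 2 ∧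
    Subgroup.center CoxeterMatrix.E₇.Group ≤
      Subgroup.zpowers ((List.finRange 7).map CoxeterMatrix.E₇.simple).prod :=
  center_two (D := chevE7) (by simp [allData]) (n := 7) CoxeterMatrix.E₇ rfl mat_E7 9
    (negW_of_chk (by simp [allData]) (by decide +kernel))

theorem centerW_E8 : Nat.card (Subgroup.center CoxeterMatrix.E₈.Group) = 2 ∧
    Subgroup.center CoxeterMatrix.E₈.Group ≤
      Subgroup.zpowers ((List.finRange 8).map CoxeterMatrix.E₈.simple).prod :=
  center_two (D := chevE8) (by simp [allData]) (n := 8) CoxeterMatrix.E₈ rfl mat_E8 15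
    (negW_of_chk (by simp [allData]) (by decide +kernel))

theorem w0E6_chk : wR chevE6 (w0Of chevE6) (chevE6.neg (chevE6.simple 0)) ≠ chevE6.simple 0 := by
  decide +kernel

theorem centerW_E6 : Subgroup.center CoxeterMatrix.E₆.Group = ⊥ := by
  rw [eq_bot_iff]
  intro z hz
  rw [Subgroup.mem_bot]
  rcases center_cases hE6 CoxeterMatrix.E₆ rfl mat_E6 hz with h | ⟨L, hL, -, h⟩
  · exact h
  · exfalso
    have hA : ∀ a ∈ L ++ w0Of chevE6, a < chevE6.rank := by
      intro a ha
      rcases List.mem_append.mp ha with h | h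
      · exact hL a h
      · exact w0_lt hE6 a h
    have h1 := triv_of_pos hE6 hA (fun i hi => by
      rw [wR_append, h i hi]
      exact w0_neg hE6 ((isNeg_neg_iff hE6 (simple_lt hE6 hi)).mpr (simple_pos hE6 hi)))
    have h0 : (0 : ℕ) < chevE6.rank := by decide
    have h2 := (om_eq_iff hE6 hA (by simp)).mp h1 _ (simple_lt hE6 h0)
    rw [wR_append, h 0 h0] at h2
    exact w0E6_chk h2

end Cfsg.Agent.Lib.Helper8
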