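import Cfsg.Agent.Lib.Helper8.RootCentr
import Cfsg.Prelude.Def_ChevAutomorphisms

set_option autoImplicit false
set_option linter.unusedSectionVars false
namespace Cfsg.Agent.Lib.Helper8
open Cfsg Cfsg.Lie

/-! ### generation by `N` and fundamental root subgroups -/

/-- `p_k = w_j w_k (p_j)` -/
def linkS (D : ChevalleyDatum) (j k : ℕ) : Bool :=
  D.reflectRoot j (D.reflectRoot k (D.simple j)) == D.simple k

def jumpB (D : ChevalleyDatum) (zs : List ℕ) (i j b : ℕ) : Bool :=
  match D.commTerms (D.simple i) b with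
  | [(c, z, 1, 1)] => zs.contains z.natAbs && decide (c < D.nroots) && (D.reflectRoot i c == D.simple j) &&
      (b != D.simple i) && (b != D.neg (D.simple i))
  | _ => false

def jumpS (D : ChevalleyDatum) (zs : List ℕ) (i j : ℕ) : Bool :=
  jumpB D zs i j (D.reflectRoot j (D.simple i)) ||
    jumpB D zs i j (D.reflectRoot i (D.reflectRoot j (D.simple i)))

def passS (D : ChevalleyDatum) (zs : List ℕ) (known : List ℕ) : List ℕ :=
  known ++ (List.range D.rank).filter fun k => known.any fun j => linkS D j k || jumpS D zs j k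

def closS (D : ChevalleyDatum) (zs : List ℕ) : ℕ → List ℕ → List ℕ
  | 0, known => known
  | m + 1, known => closS D zs m (passS D zs known)

def fullS (D : ChevalleyDatum) (zs : List ℕ) (known : List ℕ) : Bool :=
  (List.range D.rank).all fun k => (closS D zs D.rank known).contains k

section
variable {D : ChevalleyDatum} (hD : D ∈ allData) {F : Type*} [Field F]
include hD

theorem xG_mem_reflect {K : Subgroup (GL D.Idx F)} (hn : ∀ i < D.rank, nS hD F i ∈ K) {k s : ℕ}
    (hk : k < D.rank) (hs : s < D.nroots) (h : ∀ t : F, xG hD F s t ∈ K) (t : F) :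
    xG hD F (D.reflectRoot k s) t ∈ K := by
  have h1 := conj_nS_x hD hk hs ((etaOf D k s : F) * t)
  rw [← mul_assoc, etaF_sq, one_mul, MulAut.conj_apply] at h1
  rw [← h1]
  exact K.mul_mem (K.mul_mem (hn k hk) (h _)) (K.inv_mem (hn k hk))

theorem xG_mem_comm {K : Subgroup (GL D.Idx F)} {a b c : ℕ} {z : ℤ} (ha : a < D.nroots) (hb : b < D.nroots)
    (hab : b ≠ a) (hneg : b ≠ D.neg a) (h : D.commTerms a b = [(c, z, 1, 1)]) (hz : (z : F) ≠ 0)
    (hA : ∀ t : F, xG hD F a t ∈ K) (hB : ∀ t : F, xG hD F b t ∈ K) (t : F) : xG hD F c t ∈ K := by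
  have h1 := conj_x_x (F := F) hD ha hb hab hneg (t / z) 1
  rw [ChevalleyDatum.commWord, h] at h1
  simp only [List.map_cons, List.map_nil, wG, List.prod_cons, List.prod_nil, mul_one, neg_neg, one_pow,
    pow_one] at h1
  rw [mul_div_cancel₀ _ hz] at h1
  have h2 : xG hD F c t = (xG hD F b 1)⁻¹ * (xG hD F a (t / z) * xG hD F b 1 * (xG hD F a (t / z))⁻¹) := by
    rw [h1, inv_mul_cancel_left]
  rw [h2]
  exact K.mul_mem (K.inv_mem (hB _)) (K.mul_mem (K.mul_mem (hA _) (hB _)) (K.inv_mem (hA _)))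

theorem jumpB_spec {K : Subgroup (GL D.Idx F)} (hn : ∀ i < D.rank, nS hD F i ∈ K) {zs : List ℕ}
    (hzs : ∀ m ∈ zs, (m : F) ≠ 0) {i j b : ℕ} (hi : i < D.rank) (hb : b < D.nroots)
    (h : jumpB D zs i j b = true) (hA : ∀ t : F, xG hD F (D.simple i) t ∈ K)
    (hB : ∀ t : F, xG hD F b t ∈ K) (t : F) : xG hD F (D.simple j) t ∈ K := by
  unfold jumpB at h
  split at h
  · rename_i c z heq
    simp only [Bool.and_eq_true, List.contains_iff_mem, decide_eq_true_eq, beq_iff_eq, bne_iff_ne] at h
    obtain ⟨⟨⟨⟨h1, h2⟩, h3⟩, h4⟩, h5⟩ := h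
    rw [← h3]
    apply xG_mem_reflect hD hn hi h2
    have hz : (z : F) ≠ 0 := by
      have := hzs _ h1
      intro h0
      apply this
      rcases Int.natAbs_eq z with e | e
      · rw [e] at h0; simpa using h0
      · rw [e] at h0; simpa using h0
    exact xG_mem_comm hD (simple_lt hD hi) hb h4 h5 heq hz hA hB
  · exact absurd h (by simp)

theorem passS_spec {K : Subgroup (GL D.Idx F)} (hn : ∀ i < D.rank, nS hD F i ∈ K) {zs : List ℕ}
    (hzs : ∀ m ∈ zs, (m : F) ≠ 0) {known : List ℕ}
    (h : ∀ j ∈ known, j < D.rank ∧ ∀ t : F, xG hD F (D.simple j) t ∈ K) :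
    ∀ j ∈ passS D zs known, j < D.rank ∧ ∀ t : F, xG hD F (D.simple j) t ∈ K := by
  intro k hk
  rw [passS, List.mem_append] at hk
  rcases hk with hk | hk
  · exact h k hk
  · rw [List.mem_filter, List.mem_range, List.any_eq_true] at hk
    obtain ⟨hk, j, hj, hjk⟩ := hk
    obtain ⟨hj1, hj2⟩ := h j hj
    refine ⟨hk, ?_⟩
    have hsj := simple_lt hD hj1
    rw [Bool.or_eq_true] at hjk
    rcases hjk with hjk | hjk
    · rw [linkS, beq_iff_eq] at hjk
      rw [← hjk]
      exact xG_mem_reflect hD hn hj1 (reflect_lt hD hk hsj) (xG_mem_reflect hD hn hk hsj hj2)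
    · rw [jumpS, Bool.or_eq_true] at hjk
      rcases hjk with hjk | hjk
      · exact jumpB_spec hD hn hzs hj1 (reflect_lt hD hk hsj) hjk hj2 (xG_mem_reflect hD hn hk hsj hj2)
      · exact jumpB_spec hD hn hzs hj1 (reflect_lt hD hj1 (reflect_lt hD hk hsj)) hjk hj2
          (xG_mem_reflect hD hn hj1 (reflect_lt hD hk hsj) (xG_mem_reflect hD hn hk hsj hj2))

theorem closS_spec {K : Subgroup (GL D.Idx F)} (hn : ∀ i < D.rank, nS hD F i ∈ K) {zs : List ℕ}
    (hzs : ∀ m ∈ zs, (m : F) ≠ 0) (m : ℕ) : ∀ {known : List ℕ},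
    (∀ j ∈ known, j < D.rank ∧ ∀ t : F, xG hD F (D.simple j) t ∈ K) →
    ∀ j ∈ closS D zs m known, j < D.rank ∧ ∀ t : F, xG hD F (D.simple j) t ∈ K := by
  induction m with
  | zero => intro known h; exact h
  | succ m ih => intro known h; exact ih (passS_spec hD hn hzs h)

theorem group_le_of_fullS {K : Subgroup (GL D.Idx F)} (hN : D.monomialSubgroup F ≤ K) {zs : List ℕ}
    (hzs : ∀ m ∈ zs, (m : F) ≠ 0) {known : List ℕ}
    (h : ∀ j ∈ known, j < D.rank ∧ D.rootSubgroup F (D.simple j) ≤ K) (hfull : fullS D zs known = true) :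
    D.group F ≤ K := by
  have hn : ∀ i < D.rank, nS hD F i ∈ K := fun i hi => hN (nS_mem_mono hD hi)
  have h1 := closS_spec hD hn hzs D.rank (known := known)
    (fun j hj => ⟨(h j hj).1, fun t => (h j hj).2 ((mem_rootSubgroup hD).mpr ⟨t, rfl⟩)⟩)
  rw [fullS, List.all_eq_true] at hfull
  rw [ChevalleyDatum.group, Subgroup.closure_le]
  rintro g ⟨r, t, hg⟩
  have hg' : (g : Matrix D.Idx D.Idx F) = D.x F r.val t := by
    rw [hg, ChevalleyDatum.x, dif_pos r.2]
  rw [eq_xG hD hg']
  refine xG_mem_of_simple hD hn (fun i hi => ?_) r.2 t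
  have := hfull i (List.mem_range.mpr hi)
  rw [List.contains_iff_mem] at this
  exact (h1 i this).2

end

def chkGen1 (D : ChevalleyDatum) (zs : List ℕ) : Bool :=
  (List.range D.rank).all fun i => D.isLong (D.simple i) || fullS D zs [i]

def chkGen2 (D : ChevalleyDatum) : Bool :=
  (List.range D.rank).all fun i => (List.range D.rank).all fun j =>
    D.isLong (D.simple i) || !D.isLong (D.simple j) || decide (D.bonds i j = 0) || fullS D [] [i, j]

theorem chkGen1_G2 : chkGen1 chevG2 [3] = true := by decide +kernel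
theorem chkGen1_B2 : chkGen1 chevB2 [2] = true := by decide +kernel
theorem chkGen1_F4 : chkGen1 chevF4 [2] = true := by decide +kernel
theorem chkGen1_D4 : chkGen1 chevD4 [] = true := by decide +kernel
theorem chkGen1_E6 : chkGen1 chevE6 [] = true := by decide +kernel
theorem chkGen1_E7 : chkGen1 chevE7 [] = true := by decide +kernel
theorem chkGen1_E8 : chkGen1 chevE8 [] = true := by decide +kernel
theorem chkGen2_G2 : chkGen2 chevG2 = true := by decide +kernel
theorem chkGen2_B2 : chkGen2 chevB2 = true := by decide +kernel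
theorem chkGen2_F4 : chkGen2 chevF4 = true := by decide +kernel

theorem gen1 {D : ChevalleyDatum} (hD : D ∈ allData) {F : Type*} [Field F] {zs : List ℕ}
    (hzs : ∀ m ∈ zs, (m : F) ≠ 0) (h : chkGen1 D zs = true) {i : ℕ} (hi : i < D.rank)
    (hshort : D.isLong (D.simple i) = false) :
    D.group F ≤ D.monomialSubgroup F ⊔ D.rootSubgroup F (D.simple i) := by
  rw [chkGen1, List.all_eq_true] at h
  have h1 := h i (List.mem_range.mpr hi)
  rw [hshort, Bool.false_or] at h1
  refine group_le_of_fullS hD le_sup_left hzs (known := [i]) ?_ h1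
  intro j hj
  rw [List.mem_singleton] at hj
  subst hj
  exact ⟨hi, le_sup_right⟩

theorem gen2 {D : ChevalleyDatum} (hD : D ∈ allData) {F : Type*} [Field F]
    (h : chkGen2 D = true) {i j : ℕ} (hi : i < D.rank) (hj : j < D.rank)
    (hshort : D.isLong (D.simple i) = false) (hlong : D.isLong (D.simple j) = true) (hb : D.bonds i j ≠ 0) :
    D.group F ≤ D.monomialSubgroup F ⊔ D.rootSubgroup F (D.simple i) ⊔ D.rootSubgroup F (D.simple j) := by
  rw [chkGen2, List.all_eq_true] at h
  have h1 := h i (List.mem_range.mpr hi)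
  rw [List.all_eq_true] at h1
  have h2 := h1 j (List.mem_range.mpr hj)
  rw [hshort, hlong, decide_eq_false hb] at h2
  simp only [Bool.not_true, Bool.or_self, Bool.false_or] at h2
  refine group_le_of_fullS hD (le_sup_of_le_left le_sup_left) (zs := []) (by simp) (known := [i, j]) ?_ h2
  intro k hk
  simp only [List.mem_cons, List.not_mem_nil, or_false] at hk
  rcases hk with rfl | rfl
  · exact ⟨hi, le_sup_of_le_left le_sup_right⟩
  · exact ⟨hj, le_sup_right⟩

end Cfsg.Agent.Lib.Helper8
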