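import Cfsg.Agent.Lib.Helper8.SylowU
import Cfsg.Agent.Lib.Helper8.Struct1

set_option autoImplicit false
set_option linter.unusedSimpArgs false
set_option linter.unusedVariables false

namespace Cfsg.Agent.Lib.Helper8

open Cfsg Cfsg.Lie

/-! ### the height grading of the adjoint module of type F₄ -/

def htF4L : List ℕ := [11, 11, 11, 11, 0, 1, 2, 3, 4, 5, 6, 4, 5, 6, 7, 7, 8, 9, 10, 6, 7, 8, 8, 9, 10, 9, 10, 10, 12, 12, 13, 12, 13, 14, 14, 15, 16, 12, 13, 14, 15, 15, 16, 17, 18, 16, 17, 18, 19, 20, 21, 22]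

def htF4C (j : ℕ) : ℕ := htF4L.getD j 0

def chkHtCol (l n : ℕ) (get : ℕ → RootRec) (r j : ℕ) : Bool :=
  match colFast l n get r j with
  | e :: tl => Nat.beq e.1 j && (Nat.beq e.2.1 0 && (decide (e.2.2 = 1) &&
      tl.all (fun e => Nat.blt (htF4C j) (htF4C e.1))))
  | [] => false

noncomputable def chkHt (l n : ℕ) (get : ℕ → RootRec) : Bool :=
  allR (fun r => Nat.blt r (n / 2) || allR (fun j => chkHtCol l n get r j) (l + n)) n

theorem chkHt_F4 : chkHt chevF4.rank chevF4.nroots (getOf chevF4) = true := by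
  decide +kernel

def htF4 (i : chevF4.Idx) : ℕ := htF4C (code i)

theorem htF4C_lt : ∀ j : ℕ, htF4C j < 23 := by
  intro j
  unfold htF4C
  by_cases hj : j < 52
  · interval_cases j <;> decide
  · rw [List.getD_eq_default _ _ (by simp [htF4L]; omega)]
    omega

theorem htF4_lt (i : chevF4.Idx) : htF4 i < 23 := htF4C_lt _

theorem F4_mem : chevF4 ∈ allData := by simp [allData]

theorem x_fil_htF4 {F : Type*} [Field F] {r : ℕ}
    (hr : r < chevF4.nroots) (hpos : chevF4.nroots / 2 ≤ r) (t : F) : Fil htF4 1 (chevF4.x F r t - 1) := by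
  intro i j hij
  have h := chkHt_F4
  rw [chkHt, allR_iff] at h
  have h0 := h r hr
  have hb : Nat.blt r (chevF4.nroots / 2) = false := by
    rw [← Bool.not_eq_true]; intro hh; have := Nat.blt_eq.mp hh; omega
  rw [hb, Bool.false_or] at h0
  have h1 := (allR_iff _ _).mp h0 (code j) (code_lt j)
  have hcol : colFast chevF4.rank chevF4.nroots (getOf chevF4) r (code j) = colSpec chevF4 r (code j) :=
    colFast_ok (treeOf_ok F4_mem) r hr (code j)
  rw [chkHtCol, hcol] at h1
  rw [Matrix.sub_apply, ChevalleyDatum.x, dif_pos hr, xMat_colSpec]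
  cases hC : colSpec chevF4 r (code j) with
  | nil => rw [hC] at h1; simp at h1
  | cons e tl =>
    rw [hC] at h1
    simp only [Bool.and_eq_true, Nat.beq_eq, decide_eq_true_eq, List.all_eq_true] at h1
    obtain ⟨a1, a2, a3, a4⟩ := h1
    obtain ⟨a, k, z⟩ := e
    simp only at a1 a2 a3
    subst a1 a2 a3
    have e1 : colVal t (code i) ((code j, 0, 1) :: tl) - (1 : Matrix chevF4.Idx chevF4.Idx F) i j
        = colVal t (code i) tl := by
      rw [colVal_cons, Matrix.one_apply]
      by_cases hij : i = j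
      · subst hij; simp
      · rw [if_neg (fun hh => hij (code_inj hh).symm), if_neg hij]; simp
    rw [e1]
    apply colVal_eq_zero
    intro e he hh
    have := a4 e he
    rw [Nat.blt_eq, hh] at this
    unfold htF4 at hij
    omega

theorem posU_le_lev_htF4 {F : Type*} [Field F] : chevF4.posUnipotent F ≤ lev htF4 1 := by
  rw [ChevalleyDatum.posUnipotent, Subgroup.closure_le]
  rintro g ⟨r, t, hr, hg⟩
  rw [eq_xG F4_mem hg]
  rw [isPos_iff F4_mem] at hr
  refine ⟨x_fil_htF4 hr.2 hr.1 t, ?_⟩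
  rw [xG_inv]
  exact x_fil_htF4 hr.2 hr.1 (-t)

theorem genSubgroup_le_group {D : ChevalleyDatum} (hD : D ∈ allData) {F : Type*} [Field F]
    (S : Set (List (ℕ × F))) : D.genSubgroup F S ≤ D.group F := by
  rw [ChevalleyDatum.genSubgroup, Subgroup.closure_le]
  rintro g ⟨w, -, hg⟩
  have : g = wG hD w := Units.ext (by rw [hg, wG_coe])
  rw [this]
  exact wG_mem hD (fun p _ => xG_mem_group hD _ _)

/-- every `2`-element of `F₄(K)`, `K` finite of characteristic 2, has order dividing 32 -/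
theorem F4_two_elt {K : Type*} [Field K] [Fintype K] [CharP K 2] (g : ↥(chevF4.group K))
    (hg : ∃ j : ℕ, orderOf g = 2 ^ j) : g ^ 32 = 1 := by
  classical
  have : Fact (Nat.Prime 2) := ⟨Nat.prime_two⟩
  obtain ⟨j, hj⟩ := hg
  have h1 : IsPGroup 2 ↥((chevF4.posUnipotent K).subgroupOf (chevF4.group K)) :=
    (posU_isPGroup (F := K) F4_mem 2).comap_subtype
  let P : Sylow 2 ↥(chevF4.group K) := h1.toSylow (posU_index_not_dvd F4_mem 2)
  have h2 : IsPGroup 2 ↥(Subgroup.zpowers g) := by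
    apply IsPGroup.of_card (n := j)
    rw [Nat.card_zpowers, hj]
  obtain ⟨Q, hQ⟩ := h2.exists_le_sylow
  obtain ⟨c, hc⟩ := MulAction.exists_smul_eq ↥(chevF4.group K) Q P
  have h3 : c * g * c⁻¹ ∈ (P : Subgroup ↥(chevF4.group K)) := by
    rw [← hc, Sylow.coe_subgroup_smul]
    exact Subgroup.smul_mem_pointwise_smul g (MulAut.conj c) _ (hQ (Subgroup.mem_zpowers g))
  have h4 : ((c * g * c⁻¹ : ↥(chevF4.group K)) : GL chevF4.Idx K) ∈ chevF4.posUnipotent K := h3
  set u : GL chevF4.Idx K := ((c * g * c⁻¹ : ↥(chevF4.group K)) : GL chevF4.Idx K) with hu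
  have h5 : ((u : Matrix chevF4.Idx chevF4.Idx K) - 1) ^ 32 = 0 :=
    sub_one_pow_eq_zero htF4_lt (posU_le_lev_htF4 h4) (by norm_num)
  have h6 : (u : Matrix chevF4.Idx chevF4.Idx K) ^ 32 = 1 := by
    have hne : Nonempty chevF4.Idx := ⟨Sum.inl ⟨0, by decide⟩⟩
    have hc2 : CharP (Matrix chevF4.Idx chevF4.Idx K) 2 := inferInstance
    have h7 := sub_pow_char_pow_of_commute (R := Matrix chevF4.Idx chevF4.Idx K) (p := 2) (n := 5)
      (x := (u : Matrix chevF4.Idx chevF4.Idx K)) (y := 1) (Commute.one_right _)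
    norm_num at h7
    rw [h5] at h7
    exact (sub_eq_zero.mp h7.symm)
  have h8 : u ^ 32 = 1 := Units.ext (by rw [Units.val_pow_eq_pow_val, h6, Units.val_one])
  have h9 : (c * g * c⁻¹) ^ 32 = 1 := Subtype.ext (by rw [Subgroup.coe_pow, ← hu, h8, Subgroup.coe_one])
  rw [conj_pow] at h9
  have := congrArg (fun z => c⁻¹ * z * c) h9
  simpa [mul_assoc] using this

end Cfsg.Agent.Lib.Helper8
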