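import Cfsg.Agent.Lib.Helper8.Ree1
import Cfsg.Agent.Lib.Helper8.Simple

set_option autoImplicit false
set_option linter.unusedSectionVars false
set_option linter.unusedVariables false
set_option linter.unusedSimpArgs false

/-! The special isogenies as automorphisms, without simplicity. -/

namespace Cfsg.Agent.Lib.Helper8

open Cfsg Cfsg.Lie

/-- a normal subgroup of a group with an irreducible (B,N)-pair with trivial core -/
theorem bn_normal_dichotomy {G : Type*} [Group G] (P : Cfsg.BNPair G) (hirr : P.Irreducible)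
    (hcore : P.B.normalCore = ⊥) (H : Subgroup G) [hH : H.Normal] : H = ⊥ ∨ P.B ⊔ H = ⊤ := by
  have hpar := Cfsg.Agent.Lib.Helper29.BN.eq_parabolic P (le_sup_left : P.B ≤ P.B ⊔ H)
  rcases Set.eq_empty_or_nonempty (P.S ∩ ((P.B ⊔ H : Subgroup G) : Set G)) with he | hne
  · left
    rw [he, Cfsg.Agent.Lib.Helper29.BN.parabolic_empty] at hpar
    have hHB : H ≤ P.B := by
      rw [← hpar]; exact le_sup_right
    have := Subgroup.normal_le_normalCore.2 hHB
    rw [hcore] at this
    exact le_bot_iff.1 this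
  · right
    rcases Set.eq_empty_or_nonempty (P.S \ (P.S ∩ ((P.B ⊔ H : Subgroup G) : Set G))) with he' | hne'
    · have hS : P.S ∩ ((P.B ⊔ H : Subgroup G) : Set G) = P.S := by
        apply Set.Subset.antisymm Set.inter_subset_left
        exact Set.sdiff_eq_empty.1 he'
      rw [hS, Cfsg.Agent.Lib.Helper29.BN.parabolic_S] at hpar
      exact hpar
    · exfalso
      obtain ⟨s, hs, s', hs', hns⟩ := hirr _ Set.inter_subset_left hne hne'
      apply hns
      apply Cfsg.Agent.S0319.commute_of_normal P H hs.1 hs'.1 hs.2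
      intro hmem
      exact hs'.2 ⟨hs'.1, hmem⟩

section
variable {D : ChevalleyDatum} (hD : D ∈ allData) {F : Type*} [Field F]

include hD in
/-- a homomorphism which separates some element from `B` is injective -/
theorem injective_of_separates {M : Type*} [Group M] (f : ↥(D.group F) →* M) (g : ↥(D.group F))
    (h : ∀ b : ↥(D.group F), (b : GL D.Idx F) ∈ D.borelSubgroup F → f g ≠ f b) : Function.Injective f := by
  rw [← MonoidHom.ker_eq_bot_iff]
  rcases bn_normal_dichotomy (bnPair (F := F) hD) (bnPair_irreducible hD) (borel_core hD) f.ker with h1 | h1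
  · exact h1
  · exfalso
    have hg : g ∈ (((bnPair (F := F) hD).B ⊔ f.ker : Subgroup ↥(D.group F)) : Set ↥(D.group F)) := by
      rw [h1]; trivial
    rw [Subgroup.mul_normal] at hg
    obtain ⟨b, hb, x, hx, rfl⟩ := hg
    apply h b hb
    have hx' : f x = 1 := hx
    show f (b * x) = f b
    rw [map_mul, hx', mul_one]

end

section
variable {D : ChevalleyDatum} (hD : D ∈ allData) {T : IsoData} (hT : IsoOK D T)
  {F : Type*} [Field F] [CharP F T.c]

theorem isoR1_injective' {r0 : ℕ} (hW : IsoW D T r0) (hneg : D.IsNegRoot r0) :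
    Function.Injective (isoR1 hD hT (F := F)) := by
  apply injective_of_separates hD _ (xS hD r0 (1 : F))
  intro b hb h
  have h1 := congrArg (fun g : GL {i // pI D T i} F => (g : Matrix {i // pI D T i} {i // pI D T i} F)
    ⟨Sum.inr ⟨r0, hW.lt⟩, hW.in1⟩ ⟨Sum.inr ⟨D.neg r0, hW.nlt⟩, hW.in2⟩) h
  have hb0 : ((b : GL D.Idx F) : Matrix D.Idx D.Idx F) (Sum.inr ⟨r0, hW.lt⟩) (Sum.inr ⟨D.neg r0, hW.nlt⟩) = 0 := by
    apply (borel_le_triGL hD hb).1
    · intro hh
      have := congrArg (fun z : D.Idx => code z) hh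
      simp only [code_inr] at this
      exact hW.ne (by omega)
    · have h2 := (isNeg_iff hD).mp hneg
      have h3 : D.IsPosRoot (D.neg r0) := (isPos_neg_iff hD hW.lt).mpr hneg
      have h4 := ((isPos_iff hD).mp h3).1
      unfold posI posC
      simp only [code_inr]
      have e1 : Nat.blt (D.rank + r0) D.rank = false := by
        rw [← Bool.not_eq_true, Nat.blt_eq]; omega
      have e2 : Nat.blt (D.rank + D.neg r0) D.rank = false := by
        rw [← Bool.not_eq_true, Nat.blt_eq]; omega
      have e3 : Nat.blt (D.rank + r0 - D.rank) (D.nroots / 2) = true := by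
        rw [Nat.blt_eq]; omega
      have e4 : Nat.blt (D.rank + D.neg r0 - D.rank) (D.nroots / 2) = false := by
        rw [← Bool.not_eq_true, Nat.blt_eq]; omega
      rw [e1, e2, e3, e4]
      simp only [cond_false, cond_true]
      omega
  have h2 : D.x F r0 (1 : F) (Sum.inr ⟨r0, hW.lt⟩) (Sum.inr ⟨D.neg r0, hW.nlt⟩) = 0 := by
    rw [← hb0]
    exact h1
  have hcol : colFast D.rank D.nroots (getOf D) r0 (D.rank + D.neg r0) = colSpec D r0 (D.rank + D.neg r0) :=
    colFast_ok (treeOf_ok hD) r0 hW.lt _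
  have h3 := hW.ent
  rw [hcol] at h3
  rw [ChevalleyDatum.x, dif_pos hW.lt, xMat_colSpec, colVal_eq_evalL, ← evalL_normL T.c] at h2
  simp only [code_inr] at h2
  rw [h3] at h2
  simp [evalL] at h2

variable {p0 : List ℕ} (hinj : Function.Injective (isoR1 hD hT (F := F))) (R : IsoR D T p0)
  (hodd : ∀ r, (-1 : F) ^ T.lamF r = -1)

theorem sgH_x (φ : F →+* F) {r : ℕ} (hr : r < D.nroots) (t : F) :
    sgH hD hT hinj φ (xS hD r t) = xS hD (T.rho D.rank r) (eR T φ r t) := by
  apply Subtype.ext
  have := sg_x hD hT hinj φ hr t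
  rw [sg_of_mem _ _ _ _ (xG_mem_group hD r t)] at this
  exact this

include R hodd in
theorem sgH_injective (φ : F →+* F) : Function.Injective (sgH hD hT hinj φ) := by
  have hn : 0 < D.nroots := by
    have := all_of (P := fun D => 0 < D.nroots) (by decide) (by decide) (by decide) (by decide) (by decide)
      (by decide) (by decide) D hD
    exact this
  have h2 : 0 < D.nroots / 2 := by
    have := all_of (P := fun D => 0 < D.nroots / 2) (by decide) (by decide) (by decide) (by decide) (by decide)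
      (by decide) (by decide) D hD
    exact this
  have hneg : D.IsNegRoot 0 := (isNeg_iff hD).mpr h2
  apply injective_of_separates hD _ (xS hD 0 (1 : F))
  intro b hb h
  rw [sgH_x hD hT hinj φ hn] at h
  have h3 := sg_mem_borel hD hT hinj φ R hodd hb
  rw [sg_of_mem _ _ _ _ b.2] at h3
  have h4 : xG hD F (T.rho D.rank 0) (eR T φ 0 1) ∈ D.borelSubgroup F ⊓ D.negUnipotent F := by
    refine Subgroup.mem_inf.mpr ⟨?_, xG_mem_negU hD (IsoR.rho_neg hD hT R hneg) _⟩
    have : xG hD F (T.rho D.rank 0) (eR T φ 0 1) = (sgH hD hT hinj φ b : GL D.Idx F) := congrArg Subtype.val h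
    rw [this]
    exact h3
  rw [borel_inf_negU hD, Subgroup.mem_bot, xG_eq_one_iff hD (hT.rho_lt hn)] at h4
  unfold eR at h4
  rw [map_one, one_pow] at h4
  exact one_ne_zero h4

theorem sgH_id_surjective (hperf : ∀ r < D.nroots, ∀ u : F, ∃ t : F, t ^ T.lamF r = u) :
    Function.Surjective (sgH hD hT hinj (RingHom.id F)) := by
  refine group_induction hD (P := fun g => ∃ a, sgH hD hT hinj (RingHom.id F) a = g) ?_ ?_ ?_ ?_
  · intro r hr u
    obtain ⟨t, ht⟩ := hperf _ (hT.rho_lt hr) u
    refine ⟨xS hD (T.rho D.rank r) t, ?_⟩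
    rw [sgH_x hD hT hinj _ (hT.rho_lt hr), hT.rho_rho hr]
    unfold eR
    rw [RingHom.id_apply, ht]
  · exact ⟨1, map_one _⟩
  · rintro a b ⟨a', rfl⟩ ⟨b', rfl⟩
    exact ⟨a' * b', map_mul _ _ _⟩
  · rintro a ⟨a', rfl⟩
    exact ⟨a'⁻¹, map_inv _ _⟩

include hD hT hinj R hodd in
/-- the special isogeny is an automorphism over a perfect field -/
theorem exists_isogeny_equiv (hperf : ∀ r < D.nroots, ∀ u : F, ∃ t : F, t ^ T.lamF r = u) :
    ∃ α : ↥(D.group F) ≃* ↥(D.group F), ∀ r < D.nroots, ∀ (g : ↥(D.group F)) (t : F),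
      ((g : GL D.Idx F) : Matrix D.Idx D.Idx F) = D.x F r t →
      ((α g : GL D.Idx F) : Matrix D.Idx D.Idx F) = D.x F (T.rho D.rank r) (t ^ T.lamF r) := by
  refine ⟨MulEquiv.ofBijective (sgH hD hT hinj (RingHom.id F))
    ⟨sgH_injective hD hT hinj R hodd _, sgH_id_surjective hD hT hinj hperf⟩, fun r hr g t hg => ?_⟩
  have : g = xS hD r t := Subtype.ext (Units.ext hg)
  show ((sgH hD hT hinj (RingHom.id F) g : GL D.Idx F) : Matrix D.Idx D.Idx F) = _
  rw [this, sgH_x hD hT hinj _ hr]
  rfl

end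

theorem isoW_B2 : IsoW chevB2 isoB2 1 := ⟨by decide, by decide, by decide, by decide, by decide, by decide +kernel⟩
theorem isoR_B2 : IsoR chevB2 isoB2 [1, 0] := ⟨by decide, by decide, by decide, by decide⟩

end Cfsg.Agent.Lib.Helper8
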