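import Cfsg.Agent.Lib.Helper8.Centr

set_option autoImplicit false
set_option linter.unusedSectionVars false

namespace Cfsg.Agent.Lib.Helper8

open Cfsg Cfsg.Lie

section
variable {D : ChevalleyDatum} (hD : D ∈ allData) {F : Type*} [Field F]
include hD

theorem diag_conj_Uw {n : GL D.Idx F} (hn : n ∈ D.monomialSubgroup F) {h u : GL D.Idx F}
    (hh : h ∈ D.diagonalSubgroup F) (hu : u ∈ Uw D F n) : h * u * h⁻¹ ∈ Uw D F n := by
  obtain ⟨π, hπ⟩ := exists_act hD hn
  rw [diag_eq_torus hD, mem_torus] at hh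
  obtain ⟨c, rfl⟩ := hh
  have : Uw D F n ≤ (Uw D F n).comap (MulAut.conj (tG D c)).toMonoidHom := by
    apply Uw_le hD hπ
    intro r hr hneg t
    show tG D c * xG hD F r t * (tG D c)⁻¹ ∈ Uw D F n
    rw [conj_tG_x hD c hr.1]
    exact xG_mem_Uw hD hπ hr hneg _
  exact this hu

theorem diag_comm {h h' : GL D.Idx F} (hh : h ∈ D.diagonalSubgroup F) (hh' : h' ∈ D.diagonalSubgroup F) :
    h * h' = h' * h := by
  rw [diag_eq_torus hD, mem_torus] at hh hh'
  obtain ⟨c, rfl⟩ := hh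
  obtain ⟨c', rfl⟩ := hh'
  rw [tG_mul, tG_mul, mul_comm]

theorem diag_conj_posU {h u : GL D.Idx F} (hh : h ∈ D.diagonalSubgroup F) (hu : u ∈ D.posUnipotent F) :
    h * u * h⁻¹ ∈ D.posUnipotent F :=
  borel_conj_posU hD (diag_le_borel hD hh) hu

/-- conjugate elements of `H` are conjugate under `N` -/
theorem diag_conj_mono {h₁ h₂ g : GL D.Idx F} (h1 : h₁ ∈ D.diagonalSubgroup F)
    (h2 : h₂ ∈ D.diagonalSubgroup F) (hg : g ∈ D.group F) (hc : g * h₁ * g⁻¹ = h₂) :
    ∃ n ∈ D.monomialSubgroup F, n * h₁ * n⁻¹ = h₂ := by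
  obtain ⟨b, hb, L, hL, u, hu, e⟩ := normal_form_exists hD hg
  have hn := nR_mem_mono (F := F) hD L hL.lt
  refine ⟨nR hD F L, hn, ?_⟩
  have hh' := mono_conj_diag hD hn h1
  have e1 : b * (nR hD F L * h₁ * (nR hD F L)⁻¹) * nR hD F L * (h₁⁻¹ * u * h₁⁻¹⁻¹) =
      h₂ * b * nR hD F L * u := by
    have : g * h₁ = h₂ * g := by rw [← hc]; group
    calc b * (nR hD F L * h₁ * (nR hD F L)⁻¹) * nR hD F L * (h₁⁻¹ * u * h₁⁻¹⁻¹)
        = (b * nR hD F L * u) * h₁ := by group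
      _ = h₂ * (b * nR hD F L * u) := by rw [← e, this]
      _ = _ := by group
  obtain ⟨e2, -⟩ := normal_form_unique hD (Subgroup.mul_mem _ hb (diag_le_borel hD hh'))
    (Subgroup.mul_mem _ (diag_le_borel hD h2) hb) (diag_conj_Uw hD hn (Subgroup.inv_mem _ h1) hu) hu e1
  obtain ⟨u1, hu1, h, hh, rfl⟩ := mem_borel hD hb
  set k := nR hD F L * h₁ * (nR hD F L)⁻¹ with hk
  have e3 : (h₂ * u1 * h₂⁻¹)⁻¹ * u1 = h₂ * h * (h * k)⁻¹ := by
    have : h₂⁻¹ * u1 = u1 * h * (h * k)⁻¹ := by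
      have e4 : u1 * h = h₂⁻¹ * (u1 * h * k) := by rw [e2]; group
      rw [e4]; group
    calc (h₂ * u1 * h₂⁻¹)⁻¹ * u1 = h₂ * u1⁻¹ * (h₂⁻¹ * u1) := by group
      _ = _ := by rw [this]; group
  have h3 : (h₂ * u1 * h₂⁻¹)⁻¹ * u1 ∈ D.posUnipotent F ⊓ D.diagonalSubgroup F :=
    ⟨Subgroup.mul_mem _ (Subgroup.inv_mem _ (diag_conj_posU hD h2 hu1)) hu1, by
      rw [e3]
      exact Subgroup.mul_mem _ (Subgroup.mul_mem _ h2 hh) (Subgroup.inv_mem _ (Subgroup.mul_mem _ hh hh'))⟩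
  rw [posU_inf_diag hD, Subgroup.mem_bot, e3] at h3
  have h4 : h₂ * h = h * k := mul_inv_eq_one.mp h3
  rw [diag_comm hD h2 hh] at h4
  exact (mul_left_cancel h4).symm

/-- an element of the group which is a diagonal matrix lies in `H` -/
theorem mem_diag_of_diagonal {g : GL D.Idx F} (hg : g ∈ D.group F) (d d' : D.Idx → F)
    (h1 : (g : Matrix D.Idx D.Idx F) = Matrix.diagonal d)
    (h2 : ((g⁻¹ : GL D.Idx F) : Matrix D.Idx D.Idx F) = Matrix.diagonal d') :
    g ∈ D.diagonalSubgroup F := by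
  have hgt : g ∈ triGL (posI D) := ⟨by rw [h1]; exact TriD.diagonal _, by rw [h2]; exact TriD.diagonal _⟩
  obtain ⟨b, hb, L, hL, u, hu, e⟩ := normal_form_exists hD hg
  have huU := Uw_le_posU _ hu
  have hnt : nR hD F L ∈ triGL (posI D) := by
    have : nR hD F L = b⁻¹ * g * u⁻¹ := by rw [e]; group
    rw [this]
    exact Subgroup.mul_mem _ (Subgroup.mul_mem _ (Subgroup.inv_mem _ (borel_le_triGL hD hb)) hgt)
      (Subgroup.inv_mem _ (borel_le_triGL hD (posU_le_borel hD huU)))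
  have hB : g ∈ D.borelSubgroup F := by
    cases L with
    | nil =>
      have : u ∈ Uw D F 1 := hu
      rw [Uw_one hD, Subgroup.mem_bot] at this
      rw [e, this]
      show b * 1 * 1 ∈ _
      rw [mul_one, mul_one]
      exact hb
    | cons p L =>
      exfalso
      obtain ⟨hp, hpos, hred⟩ := hL
      have hlt := simple_lt hD hp
      have hl : ∀ i ∈ p :: L, i < D.rank := by
        intro i hi
        rcases List.mem_cons.mp hi with rfl | hi
        · exact hp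
        · exact hred.lt i hi
      have hact := act_nR (F := F) hD (p :: L) hl
      obtain ⟨κ, hκ⟩ := hact.conj _ hlt
      have hneg : D.IsNegRoot (wR D (p :: L) (D.simple p)) := by
        show D.IsNegRoot (wR D L (D.reflectRoot p (D.simple p)))
        rw [reflect_simple, (act_nR (F := F) hD L hred.lt).neg _ hlt]
        exact (isNeg_neg_iff hD ((act_nR (F := F) hD L hred.lt).lt _ hlt)).mpr hpos
      have h3 : xG hD F (wR D (p :: L) (D.simple p)) ((κ : F) * 1) ∈ triGL (posI D) := by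
        rw [← hκ]
        exact Subgroup.mul_mem _ (Subgroup.mul_mem _ hnt
          (borel_le_triGL hD (posU_le_borel hD (xG_mem_posU hD (simple_pos hD hp) 1)))) (Subgroup.inv_mem _ hnt)
      have h4 := eq_one_of_triGL_of_lev (posI_rev D) h3 (xG_mem_lev_neg hD hneg _)
      rw [xG_eq_one_iff hD hneg.1, mul_one] at h4
      exact κ.ne_zero h4
  obtain ⟨u1, hu1, h, hh, rfl⟩ := mem_borel hD hB
  have hh' := hh
  rw [diag_eq_torus hD, mem_torus] at hh'
  obtain ⟨c, rfl⟩ := hh'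
  have h5 : u1 = 1 := by
    apply eq_one_of_lev_of_diag (posU_le_lev hD hu1) (d := fun i => d i * ((chiC D c⁻¹ (code i) : Fˣ) : F))
    have : u1 = (u1 * tG D c) * (tG D c)⁻¹ := by group
    rw [this, Units.val_mul, h1, tG_inv, tG_coe, tMat, Matrix.diagonal_mul_diagonal]
  rw [h5, one_mul]
  exact hh

end

end Cfsg.Agent.Lib.Helper8
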