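import Cfsg.Agent.Lib.Helper8.Bruhat

set_option autoImplicit false
set_option linter.unusedSectionVars false
set_option linter.unusedVariables false

/-! The parabolic subgroup `P_J` is generated by `H` and the root subgroups of `Φ⁺ ∪ Φ_J`. -/

namespace Cfsg.Agent.Lib.Helper8

open Cfsg Cfsg.Lie

def crd (D : ChevalleyDatum) (r k : ℕ) : ℤ := (D.coroot.getD r #[]).getD k 0

theorem chkRootIndJ_all : ∀ D ∈ allData, ∀ r < D.nroots, ∃ i, i < D.rank ∧ crd D r i ≠ 0 ∧
    (r = D.simple i ∨ (muR D.nroots (D.reflectRoot i r) < muR D.nroots r ∧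
      ∀ k < D.rank, crd D r k = 0 → crd D (D.reflectRoot i r) k = 0)) := by
  apply all_of <;> decide +kernel

theorem chkSimpleSupp_all : ∀ D ∈ allData, ∀ j < D.rank, ∀ i < D.rank, i ≠ j →
    crd D (D.simple j) i = 0 ∧ crd D (D.neg (D.simple j)) i = 0 := by
  apply all_of <;> decide +kernel

section
variable {D : ChevalleyDatum} (hD : D ∈ allData) {F : Type*} [Field F]
include hD

theorem nS_mem_parabolic {J : Set ℕ} {j : ℕ} (hj : j ∈ J) (hjr : j < D.rank) :
    nS hD F j ∈ D.parabolicSubgroup F J :=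
  Subgroup.mem_sup_right (Subgroup.subset_closure ⟨j, hj, hjr, nG_coe hD _ _⟩)

theorem xG_mem_parabolic (J : Set ℕ) : ∀ r < D.nroots, D.InRootSub J r → ∀ t : F,
    xG hD F r t ∈ D.parabolicSubgroup F J := by
  have key : ∀ m r, muR D.nroots r = m → r < D.nroots → D.InRootSub J r → ∀ t : F,
      xG hD F r t ∈ D.parabolicSubgroup F J := by
    intro m
    induction m using Nat.strong_induction_on with
    | _ m ih =>
      intro r hm hr hJ t
      obtain ⟨i, hi, hne, h⟩ := chkRootIndJ_all D hD r hr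
      rcases h with rfl | ⟨hlt, hsupp⟩
      · exact Subgroup.mem_sup_left (posU_le_borel hD (xG_mem_posU hD (simple_pos hD hi) t))
      · have hiJ : i ∈ J := by
          by_contra hc
          exact hne (hJ.2 i hi hc)
        have hJ' : D.InRootSub J (D.reflectRoot i r) :=
          ⟨reflect_lt hD hi hr, fun k hk hkJ => hsupp k hk (hJ.2 k hk hkJ)⟩
        obtain ⟨κ, hκ⟩ := (act_nS (F := F) hD hi).conj r hr
        have h1 := ih _ (by omega) _ rfl (reflect_lt hD hi hr) hJ' (κ * t)
        rw [← hκ t] at h1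
        have hn := nS_mem_parabolic (F := F) hD hiJ hi
        have h2 := Subgroup.mul_mem _ (Subgroup.mul_mem _ (Subgroup.inv_mem _ hn) h1) hn
        have e : (nS hD F i)⁻¹ * (nS hD F i * xG hD F r t * (nS hD F i)⁻¹) * nS hD F i = xG hD F r t := by
          group
        rwa [e] at h2
  intro r hr
  exact key _ r rfl hr

theorem parabolic_eq (J : Set ℕ) :
    D.parabolicSubgroup F J = D.diagonalSubgroup F ⊔
      Subgroup.closure {g : GL D.Idx F | ∃ (r : ℕ) (t : F), (D.IsPosRoot r ∨ D.InRootSub J r) ∧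
        (g : Matrix D.Idx D.Idx F) = D.x F r t} := by
  apply le_antisymm
  · unfold ChevalleyDatum.parabolicSubgroup ChevalleyDatum.borelSubgroup
    refine sup_le (sup_le ?_ le_sup_left) ?_
    · refine le_trans ?_ le_sup_right
      unfold ChevalleyDatum.posUnipotent
      apply Subgroup.closure_mono
      rintro g ⟨r, t, hr, hg⟩
      exact ⟨r, t, Or.inl hr, hg⟩
    · refine le_trans ?_ le_sup_right
      rw [Subgroup.closure_le]
      rintro g ⟨j, hj, hjr, hg⟩
      rw [eq_nG hD hg]
      have hx : ∀ (r : ℕ) (t : F), D.InRootSub J r → xG hD F r t ∈ Subgroup.closure {g : GL D.Idx F |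
          ∃ (r : ℕ) (t : F), (D.IsPosRoot r ∨ D.InRootSub J r) ∧ (g : Matrix D.Idx D.Idx F) = D.x F r t} :=
        fun r t hr => Subgroup.subset_closure ⟨r, t, Or.inr hr, rfl⟩
      have h1 : D.InRootSub J (D.simple j) := ⟨simple_lt hD hjr, fun i hi hiJ =>
        (chkSimpleSupp_all D hD j hjr i hi (fun e => hiJ (e ▸ hj))).1⟩
      have h2 : D.InRootSub J (D.neg (D.simple j)) := ⟨neg_lt' hD _ (simple_lt hD hjr), fun i hi hiJ =>
        (chkSimpleSupp_all D hD j hjr i hi (fun e => hiJ (e ▸ hj))).2⟩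
      exact Subgroup.mul_mem _ (Subgroup.mul_mem _ (hx _ _ h1) (hx _ _ h2)) (hx _ _ h1)
  · refine sup_le ?_ ?_
    · exact le_trans (diag_le_borel hD) le_sup_left
    · rw [Subgroup.closure_le]
      rintro g ⟨r, t, hr, hg⟩
      rw [eq_xG hD hg]
      rcases hr with hr | hr
      · exact Subgroup.mem_sup_left (posU_le_borel hD (xG_mem_posU hD hr t))
      · exact xG_mem_parabolic hD J r hr.1 hr t

end

end Cfsg.Agent.Lib.Helper8
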