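import Cfsg.Agent.Lib.Helper8.Par1

set_option autoImplicit false
set_option linter.unusedSectionVars false
set_option linter.unusedVariables false

/-! Gradings of the adjoint module and the Levi decomposition: the finite checks. -/

namespace Cfsg.Agent.Lib.Helper8

open Cfsg Cfsg.Lie

section
variable {ι : Type*} [Fintype ι] [DecidableEq ι] {R : Type*} [CommRing R] (d : ι → ℤ)

def Gr0 (M : Matrix ι ι R) : Prop := ∀ a b, d a ≠ d b → M a b = 0
def Gr1 (M : Matrix ι ι R) : Prop := ∀ a b, d a ≤ d b → M a b = (1 : Matrix ι ι R) a b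

variable {d}

theorem Gr0.mul {M N : Matrix ι ι R} (hM : Gr0 d M) (hN : Gr0 d N) : Gr0 d (M * N) := by
  intro a b hab
  rw [Matrix.mul_apply]
  apply Finset.sum_eq_zero
  intro c _
  by_cases h : d a = d c
  · rw [hN c b (by rw [← h]; exact hab), mul_zero]
  · rw [hM a c h, zero_mul]

theorem Gr0.one : Gr0 d (1 : Matrix ι ι R) := by
  intro a b hab
  rw [Matrix.one_apply, if_neg]
  rintro rfl
  exact hab rfl

theorem Gr1.mul {M N : Matrix ι ι R} (hM : Gr1 d M) (hN : Gr1 d N) : Gr1 d (M * N) := by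
  intro a b hab
  have h1 : (M * N) a b = ((1 : Matrix ι ι R) * N) a b := by
    rw [Matrix.mul_apply, Matrix.mul_apply]
    apply Finset.sum_congr rfl
    intro c _
    by_cases h : d a ≤ d c
    · rw [hM a c h]
    · have hcb : d c ≤ d b := by omega
      rw [hN c b hcb, Matrix.one_apply, if_neg, mul_zero, mul_zero]
      rintro rfl
      omega
  rw [h1, one_mul, hN a b hab]

theorem Gr1.one : Gr1 d (1 : Matrix ι ι R) := fun _ _ _ => rfl

variable (d) (R)

def grS0 : Subgroup (GL ι R) where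
  carrier := {g | Gr0 d (g : Matrix ι ι R) ∧ Gr0 d ((g⁻¹ : GL ι R) : Matrix ι ι R)}
  mul_mem' := by
    rintro a b ⟨ha, ha'⟩ ⟨hb, hb'⟩
    exact ⟨by rw [Units.val_mul]; exact ha.mul hb, by rw [mul_inv_rev, Units.val_mul]; exact hb'.mul ha'⟩
  one_mem' := ⟨by rw [Units.val_one]; exact Gr0.one, by rw [inv_one, Units.val_one]; exact Gr0.one⟩
  inv_mem' := by
    rintro a ⟨ha, ha'⟩
    exact ⟨ha', by rw [inv_inv]; exact ha⟩

def grS1 : Subgroup (GL ι R) where
  carrier := {g | Gr1 d (g : Matrix ι ι R) ∧ Gr1 d ((g⁻¹ : GL ι R) : Matrix ι ι R)}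
  mul_mem' := by
    rintro a b ⟨ha, ha'⟩ ⟨hb, hb'⟩
    exact ⟨by rw [Units.val_mul]; exact ha.mul hb, by rw [mul_inv_rev, Units.val_mul]; exact hb'.mul ha'⟩
  one_mem' := ⟨by rw [Units.val_one]; exact Gr1.one, by rw [inv_one, Units.val_one]; exact Gr1.one⟩
  inv_mem' := by
    rintro a ⟨ha, ha'⟩
    exact ⟨ha', by rw [inv_inv]; exact ha⟩

theorem grS1_inf_grS0 : grS1 R d ⊓ grS0 R d = ⊥ := by
  rw [eq_bot_iff]
  rintro g ⟨h1, h0⟩
  rw [Subgroup.mem_bot]
  apply Units.ext
  ext a b
  by_cases h : d a ≤ d b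
  · exact h1.1 a b h
  · rw [h0.1 a b (by omega), Units.val_one, Matrix.one_apply, if_neg]
    rintro rfl
    exact h le_rfl

end

/-- the coefficients of a root on the fundamental roots -/
def rcf (D : ChevalleyDatum) (r k : ℕ) : ℤ :=
  if D.nroots = 8 then
    (([[-2, -1], [-1, -1], [-1, 0], [0, -1], [0, 1], [1, 0], [1, 1], [2, 1]] : List (List ℤ)).getD r []).getD k 0
  else if D.nroots = 12 then
    (([[-3, -2], [-3, -1], [-2, -1], [-1, -1], [-1, 0], [0, -1], [0, 1], [1, 0], [1, 1], [2, 1], [3, 1],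
      [3, 2]] : List (List ℤ)).getD r []).getD k 0
  else if D.nroots = 48 then
    (([[-2, -4, -3, -2], [-2, -4, -3, -1], [-2, -4, -2, -1], [-2, -3, -2, -1], [-2, -2, -2, -1], [-2, -2, -1, -1],
      [-2, -2, -1, 0], [-1, -3, -2, -1], [-1, -2, -2, -1], [-1, -2, -1, -1], [-1, -2, -1, 0], [-1, -1, -1, -1],
      [-1, -1, -1, 0], [-1, -1, 0, 0], [-1, 0, 0, 0], [0, -2, -2, -1], [0, -2, -1, -1], [0, -2, -1, 0],
      [0, -1, -1, -1], [0, -1, -1, 0], [0, -1, 0, 0], [0, 0, -1, -1], [0, 0, -1, 0], [0, 0, 0, -1], [0, 0, 0, 1],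
      [0, 0, 1, 0], [0, 0, 1, 1], [0, 1, 0, 0], [0, 1, 1, 0], [0, 1, 1, 1], [0, 2, 1, 0], [0, 2, 1, 1],
      [0, 2, 2, 1], [1, 0, 0, 0], [1, 1, 0, 0], [1, 1, 1, 0], [1, 1, 1, 1], [1, 2, 1, 0], [1, 2, 1, 1],
      [1, 2, 2, 1], [1, 3, 2, 1], [2, 2, 1, 0], [2, 2, 1, 1], [2, 2, 2, 1], [2, 3, 2, 1], [2, 4, 2, 1],
      [2, 4, 3, 1], [2, 4, 3, 2]] : List (List ℤ)).getD r []).getD k 0
  else crd D r k

/-- the same for the codes of the basis vectors -/
def rcC (D : ChevalleyDatum) (k j : ℕ) : ℤ := bif Nat.blt j D.rank then 0 else rcf D (j - D.rank) k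

theorem chkRcf_all : ∀ D ∈ allData, ∀ r < D.nroots, ∀ k < D.rank,
    (crd D r k = 0 → rcf D r k = 0) ∧ (0 ≤ crd D r k → 0 ≤ rcf D r k) ∧ (0 < crd D r k → 0 < rcf D r k) := by
  apply all_of <;> decide +kernel

def chkGdCol (D : ChevalleyDatum) (get : ℕ → RootRec) (r j : ℕ) : Bool :=
  match colFast D.rank D.nroots get r j with
  | e :: tl => Nat.beq e.1 j && (Nat.beq e.2.1 0 && (decide (e.2.2 = 1) &&
      tl.all (fun e => Nat.blt 0 e.2.1 && (List.range D.rank).all (fun k =>
        decide (rcC D k e.1 = rcC D k j + (e.2.1 : ℤ) * rcf D r k)))))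
  | [] => false

noncomputable def rowGd (D : ChevalleyDatum) (get : ℕ → RootRec) (r : ℕ) : Bool :=
  allR (fun j => chkGdCol D get r j) (D.rank + D.nroots)

noncomputable def chkGd (D : ChevalleyDatum) (get : ℕ → RootRec) : Bool :=
  allR (fun r => rowGd D get r) D.nroots

noncomputable def rowParC (D : ChevalleyDatum) (get : ℕ → RootRec) (r : ℕ) : Bool :=
  allR (fun s => Nat.blt s (D.nroots / 2) || (commTermsF (entryF D.rank D.nroots get) r s).all (fun c =>
    Nat.blt c.1 D.nroots && allR (fun k => decide (crd D r k < 0) || (decide (crd D s k ≤ 0) ||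
      decide (0 < crd D c.1 k))) D.rank)) D.nroots

noncomputable def chkParC (D : ChevalleyDatum) (get : ℕ → RootRec) : Bool :=
  allR (fun r => rowParC D get r) D.nroots

theorem allR_of_chunks (f : ℕ → Bool) (m c : ℕ) (hm : 0 < m)
    (h : ∀ i < c, allR (fun r => f (m * i + r)) m = true) : allR f (m * c) = true := by
  rw [allR_iff]
  intro k hk
  have h1 := (allR_iff _ _).mp (h (k / m) (Nat.div_lt_of_lt_mul hk)) (k % m) (Nat.mod_lt _ hm)
  rwa [Nat.div_add_mod] at h1

set_option maxHeartbeats 0 in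
theorem cGd_E7_0 : allR (fun r => rowGd chevE7 (getOf chevE7) (21 * 0 + r)) 21 = true := by
  decide +kernel

set_option maxHeartbeats 0 in
theorem cGd_E7_1 : allR (fun r => rowGd chevE7 (getOf chevE7) (21 * 1 + r)) 21 = true := by
  decide +kernel

set_option maxHeartbeats 0 in
theorem cGd_E7_2 : allR (fun r => rowGd chevE7 (getOf chevE7) (21 * 2 + r)) 21 = true := by
  decide +kernel

set_option maxHeartbeats 0 in
theorem cGd_E7_3 : allR (fun r => rowGd chevE7 (getOf chevE7) (21 * 3 + r)) 21 = true := by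
  decide +kernel

set_option maxHeartbeats 0 in
theorem cGd_E7_4 : allR (fun r => rowGd chevE7 (getOf chevE7) (21 * 4 + r)) 21 = true := by
  decide +kernel

set_option maxHeartbeats 0 in
theorem cGd_E7_5 : allR (fun r => rowGd chevE7 (getOf chevE7) (21 * 5 + r)) 21 = true := by
  decide +kernel

theorem cGd_E7 : chkGd chevE7 (getOf chevE7) = true := by
  apply allR_of_chunks (fun r => rowGd chevE7 (getOf chevE7) r) 21 6 (by decide)
  intro i hi
  interval_cases i
  exacts [cGd_E7_0, cGd_E7_1, cGd_E7_2, cGd_E7_3, cGd_E7_4, cGd_E7_5]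

set_option maxHeartbeats 0 in
theorem cGd_E8_0 : allR (fun r => rowGd chevE8 (getOf chevE8) (20 * 0 + r)) 20 = true := by
  decide +kernel

set_option maxHeartbeats 0 in
theorem cGd_E8_1 : allR (fun r => rowGd chevE8 (getOf chevE8) (20 * 1 + r)) 20 = true := by
  decide +kernel

set_option maxHeartbeats 0 in
theorem cGd_E8_2 : allR (fun r => rowGd chevE8 (getOf chevE8) (20 * 2 + r)) 20 = true := by
  decide +kernel

set_option maxHeartbeats 0 in
theorem cGd_E8_3 : allR (fun r => rowGd chevE8 (getOf chevE8) (20 * 3 + r)) 20 = true := by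
  decide +kernel

set_option maxHeartbeats 0 in
theorem cGd_E8_4 : allR (fun r => rowGd chevE8 (getOf chevE8) (20 * 4 + r)) 20 = true := by
  decide +kernel

set_option maxHeartbeats 0 in
theorem cGd_E8_5 : allR (fun r => rowGd chevE8 (getOf chevE8) (20 * 5 + r)) 20 = true := by
  decide +kernel

set_option maxHeartbeats 0 in
theorem cGd_E8_6 : allR (fun r => rowGd chevE8 (getOf chevE8) (20 * 6 + r)) 20 = true := by
  decide +kernel

set_option maxHeartbeats 0 in
theorem cGd_E8_7 : allR (fun r => rowGd chevE8 (getOf chevE8) (20 * 7 + r)) 20 = true := by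
  decide +kernel

set_option maxHeartbeats 0 in
theorem cGd_E8_8 : allR (fun r => rowGd chevE8 (getOf chevE8) (20 * 8 + r)) 20 = true := by
  decide +kernel

set_option maxHeartbeats 0 in
theorem cGd_E8_9 : allR (fun r => rowGd chevE8 (getOf chevE8) (20 * 9 + r)) 20 = true := by
  decide +kernel

set_option maxHeartbeats 0 in
theorem cGd_E8_10 : allR (fun r => rowGd chevE8 (getOf chevE8) (20 * 10 + r)) 20 = true := by
  decide +kernel

set_option maxHeartbeats 0 in
theorem cGd_E8_11 : allR (fun r => rowGd chevE8 (getOf chevE8) (20 * 11 + r)) 20 = true := by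
  decide +kernel

theorem cGd_E8 : chkGd chevE8 (getOf chevE8) = true := by
  apply allR_of_chunks (fun r => rowGd chevE8 (getOf chevE8) r) 20 12 (by decide)
  intro i hi
  interval_cases i
  exacts [cGd_E8_0, cGd_E8_1, cGd_E8_2, cGd_E8_3, cGd_E8_4, cGd_E8_5, cGd_E8_6, cGd_E8_7, cGd_E8_8, cGd_E8_9, cGd_E8_10, cGd_E8_11]

set_option maxHeartbeats 0 in
theorem cPc_E7_0 : allR (fun r => rowParC chevE7 (getOf chevE7) (21 * 0 + r)) 21 = true := by
  decide +kernel

set_option maxHeartbeats 0 in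
theorem cPc_E7_1 : allR (fun r => rowParC chevE7 (getOf chevE7) (21 * 1 + r)) 21 = true := by
  decide +kernel

set_option maxHeartbeats 0 in
theorem cPc_E7_2 : allR (fun r => rowParC chevE7 (getOf chevE7) (21 * 2 + r)) 21 = true := by
  decide +kernel

set_option maxHeartbeats 0 in
theorem cPc_E7_3 : allR (fun r => rowParC chevE7 (getOf chevE7) (21 * 3 + r)) 21 = true := by
  decide +kernel

set_option maxHeartbeats 0 in
theorem cPc_E7_4 : allR (fun r => rowParC chevE7 (getOf chevE7) (21 * 4 + r)) 21 = true := by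
  decide +kernel

set_option maxHeartbeats 0 in
theorem cPc_E7_5 : allR (fun r => rowParC chevE7 (getOf chevE7) (21 * 5 + r)) 21 = true := by
  decide +kernel

theorem cPc_E7 : chkParC chevE7 (getOf chevE7) = true := by
  apply allR_of_chunks (fun r => rowParC chevE7 (getOf chevE7) r) 21 6 (by decide)
  intro i hi
  interval_cases i
  exacts [cPc_E7_0, cPc_E7_1, cPc_E7_2, cPc_E7_3, cPc_E7_4, cPc_E7_5]

set_option maxHeartbeats 0 in
theorem cPc_E8_0 : allR (fun r => rowParC chevE8 (getOf chevE8) (20 * 0 + r)) 20 = true := by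
  decide +kernel

set_option maxHeartbeats 0 in
theorem cPc_E8_1 : allR (fun r => rowParC chevE8 (getOf chevE8) (20 * 1 + r)) 20 = true := by
  decide +kernel

set_option maxHeartbeats 0 in
theorem cPc_E8_2 : allR (fun r => rowParC chevE8 (getOf chevE8) (20 * 2 + r)) 20 = true := by
  decide +kernel

set_option maxHeartbeats 0 in
theorem cPc_E8_3 : allR (fun r => rowParC chevE8 (getOf chevE8) (20 * 3 + r)) 20 = true := by
  decide +kernel

set_option maxHeartbeats 0 in
theorem cPc_E8_4 : allR (fun r => rowParC chevE8 (getOf chevE8) (20 * 4 + r)) 20 = true := by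
  decide +kernel

set_option maxHeartbeats 0 in
theorem cPc_E8_5 : allR (fun r => rowParC chevE8 (getOf chevE8) (20 * 5 + r)) 20 = true := by
  decide +kernel

set_option maxHeartbeats 0 in
theorem cPc_E8_6 : allR (fun r => rowParC chevE8 (getOf chevE8) (20 * 6 + r)) 20 = true := by
  decide +kernel

set_option maxHeartbeats 0 in
theorem cPc_E8_7 : allR (fun r => rowParC chevE8 (getOf chevE8) (20 * 7 + r)) 20 = true := by
  decide +kernel

set_option maxHeartbeats 0 in
theorem cPc_E8_8 : allR (fun r => rowParC chevE8 (getOf chevE8) (20 * 8 + r)) 20 = true := by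
  decide +kernel

set_option maxHeartbeats 0 in
theorem cPc_E8_9 : allR (fun r => rowParC chevE8 (getOf chevE8) (20 * 9 + r)) 20 = true := by
  decide +kernel

set_option maxHeartbeats 0 in
theorem cPc_E8_10 : allR (fun r => rowParC chevE8 (getOf chevE8) (20 * 10 + r)) 20 = true := by
  decide +kernel

set_option maxHeartbeats 0 in
theorem cPc_E8_11 : allR (fun r => rowParC chevE8 (getOf chevE8) (20 * 11 + r)) 20 = true := by
  decide +kernel

theorem cPc_E8 : chkParC chevE8 (getOf chevE8) = true := by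
  apply allR_of_chunks (fun r => rowParC chevE8 (getOf chevE8) r) 20 12 (by decide)
  intro i hi
  interval_cases i
  exacts [cPc_E8_0, cPc_E8_1, cPc_E8_2, cPc_E8_3, cPc_E8_4, cPc_E8_5, cPc_E8_6, cPc_E8_7, cPc_E8_8, cPc_E8_9, cPc_E8_10, cPc_E8_11]

theorem chkGd_all : ∀ D ∈ allData, chkGd D (getOf D) = true :=
  all_of (P := fun D => chkGd D (getOf D) = true) (by decide +kernel) (by decide +kernel) (by decide +kernel)
    (by decide +kernel) (by decide +kernel) cGd_E7 cGd_E8

theorem chkParC_all : ∀ D ∈ allData, chkParC D (getOf D) = true :=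
  all_of (P := fun D => chkParC D (getOf D) = true) (by decide +kernel) (by decide +kernel) (by decide +kernel)
    (by decide +kernel) (by decide +kernel) cPc_E7 cPc_E8

end Cfsg.Agent.Lib.Helper8
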