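import Cfsg.Agent.Lib.Helper8.Par2

set_option autoImplicit false
set_option linter.unusedSectionVars false
set_option linter.unusedVariables false

/-! The Levi decomposition of the standard parabolic subgroups. -/

namespace Cfsg.Agent.Lib.Helper8

open Cfsg Cfsg.Lie
open scoped Classical

theorem chkCrdSign_all : ∀ D ∈ allData, ∀ r < D.nroots, ∀ k < D.rank,
    (D.nroots / 2 ≤ r → 0 ≤ crd D r k) ∧ (r < D.nroots / 2 → crd D r k ≤ 0) ∧
      (crd D r k = 0 → crd D (D.neg r) k = 0) := by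
  apply all_of <;> decide +kernel

/-- the degree of a basis vector: the sum of the coefficients outside `J` -/
noncomputable def dJ (D : ChevalleyDatum) (J : Set ℕ) (j : ℕ) : ℤ :=
  ∑ k ∈ (Finset.range D.rank).filter (fun k => k ∉ J), rcC D k j

noncomputable def dJr (D : ChevalleyDatum) (J : Set ℕ) (r : ℕ) : ℤ :=
  ∑ k ∈ (Finset.range D.rank).filter (fun k => k ∉ J), rcf D r k

section
variable {D : ChevalleyDatum} (hD : D ∈ allData) {F : Type*} [Field F]
include hD

theorem x_sub_one_gd {r : ℕ} (hr : r < D.nroots) (t : F) (i j : D.Idx) :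
    ∃ tl : List (ℕ × ℕ × ℤ), (D.x F r t - 1) i j = colVal t (code i) tl ∧
      ∀ e ∈ tl, 0 < e.2.1 ∧ ∀ k < D.rank, rcC D k e.1 = rcC D k (code j) + (e.2.1 : ℤ) * rcf D r k := by
  have h := chkGd_all D hD
  rw [chkGd, allR_iff] at h
  have h0 := h r hr
  rw [rowGd, allR_iff] at h0
  have h1 := h0 (code j) (code_lt j)
  have hcol : colFast D.rank D.nroots (getOf D) r (code j) = colSpec D r (code j) :=
    colFast_ok (treeOf_ok hD) r hr (code j)
  rw [chkGdCol, hcol] at h1
  rw [Matrix.sub_apply, ChevalleyDatum.x, dif_pos hr, xMat_colSpec]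
  cases hC : colSpec D r (code j) with
  | nil => rw [hC] at h1; simp at h1
  | cons e tl =>
    rw [hC] at h1
    simp only [Bool.and_eq_true, Nat.beq_eq, decide_eq_true_eq, List.all_eq_true, Nat.blt_eq,
      List.mem_range] at h1
    obtain ⟨a1, a2, a3, a4⟩ := h1
    obtain ⟨a, k, z⟩ := e
    simp only at a1 a2 a3
    subst a1 a2 a3
    refine ⟨tl, ?_, a4⟩
    rw [colVal_cons, Matrix.one_apply]
    by_cases hij : i = j
    · subst hij; simp
    · rw [if_neg (fun hh => hij (code_inj hh).symm), if_neg hij]; simp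

theorem x_sub_one_dJ (J : Set ℕ) {r : ℕ} (hr : r < D.nroots) (t : F) (i j : D.Idx)
    (h : ∀ m : ℕ, 0 < m → dJ D J (code i) ≠ dJ D J (code j) + (m : ℤ) * dJr D J r) :
    D.x F r t i j = (1 : Matrix D.Idx D.Idx F) i j := by
  obtain ⟨tl, h1, h2⟩ := x_sub_one_gd hD hr t i j
  have h3 : (D.x F r t - 1) i j = 0 := by
    rw [h1]
    apply colVal_eq_zero
    intro e he hh
    obtain ⟨hm, hk⟩ := h2 e he
    apply h e.2.1 hm
    unfold dJ dJr
    rw [Finset.mul_sum, ← Finset.sum_add_distrib]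
    apply Finset.sum_congr rfl
    intro k hk'
    rw [← hh]
    exact hk k (Finset.mem_range.mp (Finset.mem_filter.mp hk').1)
  rw [Matrix.sub_apply] at h3
  exact sub_eq_zero.mp h3

theorem dJr_zero {J : Set ℕ} {r : ℕ} (h : D.InRootSub J r) : dJr D J r = 0 := by
  apply Finset.sum_eq_zero
  intro k hk
  obtain ⟨h1, h2⟩ := Finset.mem_filter.mp hk
  have hk' := Finset.mem_range.mp h1
  exact (chkRcf_all D hD r h.1 k hk').1 (h.2 k hk' h2)

theorem exists_outside {J : Set ℕ} {r : ℕ} (hr : D.IsPosRoot r) (h : ¬ D.InRootSub J r) :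
    ∃ k, k < D.rank ∧ k ∉ J ∧ 0 < crd D r k := by
  have h1 : ¬ ∀ i < D.rank, i ∉ J → crd D r i = 0 := fun hh => h ⟨hr.1, hh⟩
  push Not at h1
  obtain ⟨k, hk, hkJ, hne⟩ := h1
  have := (chkCrdSign_all D hD r hr.1 k hk).1 ((isPos_iff hD).mp hr).1
  exact ⟨k, hk, hkJ, lt_of_le_of_ne this (Ne.symm hne)⟩

theorem dJr_pos {J : Set ℕ} {r : ℕ} (hr : D.IsPosRoot r) (h : ¬ D.InRootSub J r) : 0 < dJr D J r := by
  obtain ⟨k, hk, hkJ, hpos⟩ := exists_outside hD hr h
  apply Finset.sum_pos'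
  · intro i hi
    have hi' := Finset.mem_range.mp (Finset.mem_filter.mp hi).1
    exact (chkRcf_all D hD r hr.1 i hi').2.1 ((chkCrdSign_all D hD r hr.1 i hi').1 ((isPos_iff hD).mp hr).1)
  · exact ⟨k, Finset.mem_filter.mpr ⟨Finset.mem_range.mpr hk, hkJ⟩, (chkRcf_all D hD r hr.1 k hk).2.2 hpos⟩

theorem xG_mem_grS1 {J : Set ℕ} {r : ℕ} (hr : D.IsPosRoot r) (h : ¬ D.InRootSub J r) (t : F) :
    xG hD F r t ∈ grS1 F (fun a : D.Idx => dJ D J (code a)) := by
  have key : ∀ u : F, Gr1 (fun a : D.Idx => dJ D J (code a)) (D.x F r u) := by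
    intro u a b hab
    apply x_sub_one_dJ hD J hr.1
    intro m hm e
    have h1 := dJr_pos hD hr h
    have h2 : (0 : ℤ) < (m : ℤ) * dJr D J r := mul_pos (by exact_mod_cast hm) h1
    simp only at hab
    omega
  refine ⟨key t, ?_⟩
  rw [xG_inv]
  exact key (-t)

theorem xG_mem_grS0 {J : Set ℕ} {r : ℕ} (h : D.InRootSub J r) (t : F) :
    xG hD F r t ∈ grS0 F (fun a : D.Idx => dJ D J (code a)) := by
  have key : ∀ u : F, Gr0 (fun a : D.Idx => dJ D J (code a)) (D.x F r u) := by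
    intro u a b hab
    rw [x_sub_one_dJ hD J h.1, Matrix.one_apply, if_neg]
    · rintro rfl
      exact hab rfl
    · intro m hm e
      rw [dJr_zero hD h, mul_zero, add_zero] at e
      exact hab e
  refine ⟨key t, ?_⟩
  rw [xG_inv]
  exact key (-t)

theorem tG_mem_grS0 (J : Set ℕ) (c : ℕ → Fˣ) : tG D c ∈ grS0 F (fun a : D.Idx => dJ D J (code a)) := by
  have key : ∀ c : ℕ → Fˣ, Gr0 (fun a : D.Idx => dJ D J (code a)) (tMat D c) := by
    intro c a b hab
    unfold tMat
    rw [Matrix.diagonal_apply_ne]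
    rintro rfl
    exact hab rfl
  exact ⟨key c, key c⁻¹⟩

theorem rad_inf_levi (J : Set ℕ) : D.unipotentRadical F J ⊓ D.leviSubgroup F J = ⊥ := by
  rw [eq_bot_iff, ← grS1_inf_grS0 F (fun a : D.Idx => dJ D J (code a))]
  apply inf_le_inf
  · unfold ChevalleyDatum.unipotentRadical
    rw [Subgroup.closure_le]
    rintro g ⟨r, t, hr, hJ, hg⟩
    rw [eq_xG hD hg]
    exact xG_mem_grS1 hD hr hJ t
  · unfold ChevalleyDatum.leviSubgroup
    refine sup_le ?_ ?_
    · intro h hh
      rw [diag_eq_torus hD] at hh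
      obtain ⟨c, rfl⟩ := hh
      exact tG_mem_grS0 hD J c
    · rw [Subgroup.closure_le]
      rintro g ⟨r, t, hJ, hg⟩
      rw [eq_xG hD hg]
      exact xG_mem_grS0 hD hJ t

theorem terms_in_rad {J : Set ℕ} {r s : ℕ} (hr : D.IsPosRoot r ∨ D.InRootSub J r) (hs : D.IsPosRoot s)
    (hsJ : ¬ D.InRootSub J s) : ∀ c ∈ D.commTerms r s, D.IsPosRoot c.1 ∧ ¬ D.InRootSub J c.1 := by
  intro c hc
  obtain ⟨k, hk, hkJ, hpos⟩ := exists_outside hD hs hsJ
  have hrl : r < D.nroots := by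
    rcases hr with h | h <;> exact h.1
  have hr0 : 0 ≤ crd D r k := by
    rcases hr with h | h
    · exact (chkCrdSign_all D hD r h.1 k hk).1 ((isPos_iff hD).mp h).1
    · exact le_of_eq (h.2 k hk hkJ).symm
  have h := chkParC_all D hD
  simp only [chkParC, rowParC, allR_iff, List.all_eq_true, Bool.and_eq_true, Bool.or_eq_true, decide_eq_true_eq,
    Nat.blt_eq] at h
  rw [commTerms_eq' hD] at hc
  have h0 : ∀ c ∈ commTermsF (entryF D.rank D.nroots (getOf D)) r s, c.1 < D.nroots ∧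
      ∀ k < D.rank, crd D r k < 0 ∨ crd D s k ≤ 0 ∨ 0 < crd D c.1 k := by
    rcases h r hrl s hs.1 with h0 | h0
    · have := ((isPos_iff hD).mp hs).1
      omega
    · exact h0
  obtain ⟨h1, h2⟩ := h0 c hc
  have h3 : 0 < crd D c.1 k := by
    rcases h2 k hk with h | h | h
    · omega
    · omega
    · exact h
  constructor
  · rcases pos_or_neg hD h1 with h | h
    · exact h
    · have := (chkCrdSign_all D hD c.1 h1 k hk).2.1 ((isNeg_iff hD).mp h)
      omega
  · intro hh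
    have : crd D c.1 k = 0 := hh.2 k hk hkJ
    omega

theorem xG_mem_rad {J : Set ℕ} {r : ℕ} (hr : D.IsPosRoot r) (h : ¬ D.InRootSub J r) (t : F) :
    xG hD F r t ∈ D.unipotentRadical F J := Subgroup.subset_closure ⟨r, t, hr, h, rfl⟩

theorem xG_normalizes_rad {J : Set ℕ} {r : ℕ} (hr : D.IsPosRoot r ∨ D.InRootSub J r) (t : F) :
    xG hD F r t ∈ Subgroup.normalizer (D.unipotentRadical F J : Set (GL D.Idx F)) := by
  have hrl : r < D.nroots := by
    rcases hr with h | h <;> exact h.1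
  have hne : ∀ s, D.IsPosRoot s → ¬ D.InRootSub J s → s ≠ D.neg r := by
    intro s hs hsJ e
    rcases hr with h | h
    · rw [e] at hs
      exact not_pos_and_neg hD h ((isPos_neg_iff hD h.1).mp hs)
    · apply hsJ
      rw [e]
      exact ⟨neg_lt' hD r h.1, fun i hi hiJ => (chkCrdSign_all D hD r h.1 i hi).2.2 (h.2 i hi hiJ)⟩
  unfold ChevalleyDatum.unipotentRadical
  apply mem_normalizer_closure
  · rintro x ⟨s, u, hs, hsJ, hx⟩
    rw [eq_xG hD hx]
    by_cases e : s = r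
    · subst e
      rw [xG_inv, xG_mul, xG_mul]
      exact xG_mem_rad hD hs hsJ _
    · rw [conj_x_x hD hrl hs.1 e (hne s hs hsJ)]
      exact mul_mem (xG_mem_rad hD hs hsJ u) (commWord_mem hD (fun c hc a =>
        xG_mem_rad hD (terms_in_rad hD hr hs hsJ c hc).1 (terms_in_rad hD hr hs hsJ c hc).2 a) _ _)
  · rintro x ⟨s, u, hs, hsJ, hx⟩
    rw [eq_xG hD hx]
    by_cases e : s = r
    · subst e
      rw [xG_inv, xG_mul, xG_mul]
      exact xG_mem_rad hD hs hsJ _
    · rw [conj_inv_x_x hD hrl hs.1 e (hne s hs hsJ)]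
      exact mul_mem (xG_mem_rad hD hs hsJ u) (commWord_mem hD (fun c hc a =>
        xG_mem_rad hD (terms_in_rad hD hr hs hsJ c hc).1 (terms_in_rad hD hr hs hsJ c hc).2 a) _ _)

theorem tG_normalizes_rad (J : Set ℕ) (c : ℕ → Fˣ) :
    tG D c ∈ Subgroup.normalizer (D.unipotentRadical F J : Set (GL D.Idx F)) := by
  unfold ChevalleyDatum.unipotentRadical
  apply mem_normalizer_closure
  · rintro x ⟨s, u, hs, hsJ, hx⟩
    rw [eq_xG hD hx, conj_tG_x hD c hs.1]
    exact xG_mem_rad hD hs hsJ _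
  · rintro x ⟨s, u, hs, hsJ, hx⟩
    have h := conj_tG_x hD c⁻¹ hs.1 u
    rw [← tG_inv, inv_inv] at h
    rw [eq_xG hD hx, h]
    exact xG_mem_rad hD hs hsJ _

theorem parabolic_le_normalizer (J : Set ℕ) :
    D.parabolicSubgroup F J ≤ Subgroup.normalizer (D.unipotentRadical F J : Set (GL D.Idx F)) := by
  rw [parabolic_eq hD]
  refine sup_le ?_ ?_
  · intro h hh
    rw [diag_eq_torus hD] at hh
    obtain ⟨c, rfl⟩ := hh
    exact tG_normalizes_rad hD J c
  · rw [Subgroup.closure_le]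
    rintro g ⟨r, t, hr, hg⟩
    rw [eq_xG hD hg]
    exact xG_normalizes_rad hD hr t

theorem rad_sup_levi (J : Set ℕ) :
    D.unipotentRadical F J ⊔ D.leviSubgroup F J = D.parabolicSubgroup F J := by
  rw [parabolic_eq hD]
  unfold ChevalleyDatum.unipotentRadical ChevalleyDatum.leviSubgroup
  apply le_antisymm
  · refine sup_le ?_ (sup_le le_sup_left ?_)
    · refine le_trans ?_ le_sup_right
      apply Subgroup.closure_mono
      rintro g ⟨r, t, hr, -, hg⟩
      exact ⟨r, t, Or.inl hr, hg⟩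
    · refine le_trans ?_ le_sup_right
      apply Subgroup.closure_mono
      rintro g ⟨r, t, hr, hg⟩
      exact ⟨r, t, Or.inr hr, hg⟩
  · refine sup_le (le_trans le_sup_left le_sup_right) ?_
    rw [Subgroup.closure_le]
    rintro g ⟨r, t, hr, hg⟩
    by_cases h : D.InRootSub J r
    · exact Subgroup.mem_sup_right (Subgroup.mem_sup_right (Subgroup.subset_closure ⟨r, t, h, hg⟩))
    · exact Subgroup.mem_sup_left (Subgroup.subset_closure ⟨r, t, hr.resolve_right h, h, hg⟩)

end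

end Cfsg.Agent.Lib.Helper8
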