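import Cfsg.Agent.Lib.Helper8.Par3
import Cfsg.Agent.Lib.Helper8.Centr
import Cfsg.Agent.Lib.Helper8.Tw6

set_option autoImplicit false
set_option linter.unusedSectionVars false
set_option linter.unusedVariables false

/-! The normaliser of the unipotent radical of a standard parabolic subgroup. -/

namespace Cfsg.Agent.Lib.Helper8

open Cfsg Cfsg.Lie

theorem chkCrdSimple_all : ∀ D ∈ allData, ∀ p < D.rank, crd D (D.simple p) p ≠ 0 := by
  apply all_of <;> decide +kernel

section
variable {D : ChevalleyDatum} (hD : D ∈ allData) {F : Type*} [Field F]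
include hD

theorem rad_le_posU (J : Set ℕ) : D.unipotentRadical F J ≤ D.posUnipotent F := by
  unfold ChevalleyDatum.unipotentRadical ChevalleyDatum.posUnipotent
  apply Subgroup.closure_mono
  rintro g ⟨r, t, hr, -, hg⟩
  exact ⟨r, t, hr, hg⟩

theorem parabolic_le_group (J : Set ℕ) : D.parabolicSubgroup F J ≤ D.group F := by
  unfold ChevalleyDatum.parabolicSubgroup
  refine sup_le (borel_le_group hD) ?_
  rw [Subgroup.closure_le]
  rintro g ⟨j, -, -, hg⟩
  rw [eq_nG hD hg]
  exact nG_mem_group hD _ _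

theorem red_word_in_J (J : Set ℕ) : ∀ {L : List ℕ}, Red D L →
    nR hD F L ∈ Subgroup.normalizer (D.unipotentRadical F J : Set (GL D.Idx F)) →
    nR hD F L ∈ D.parabolicSubgroup F J
  | [], _, _ => Subgroup.one_mem _
  | p :: L1, hL, hn => by
    obtain ⟨hp, hpos, hL1⟩ := hL
    have hred : Red D (p :: L1) := ⟨hp, hpos, hL1⟩
    have hpJ : p ∈ J := by
      by_contra hc
      have h1 : ¬ D.InRootSub J (D.simple p) := fun hh => chkCrdSimple_all D hD p hp (hh.2 p hp hc)
      have h2 := xG_mem_rad (F := F) hD (simple_pos hD hp) h1 1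
      have h3 := (Subgroup.mem_normalizer_iff.mp hn _).mp h2
      obtain ⟨κ, hκ⟩ := (act_nR (F := F) hD (p :: L1) hred.lt).conj _ (simple_lt hD hp)
      rw [hκ 1, wR_neg_simple' hD hL1.lt hp] at h3
      have hneg : D.IsNegRoot (D.neg (wR D L1 (D.simple p))) := (isNeg_neg_iff hD hpos.1).mpr hpos
      have h4 : xG hD F (D.neg (wR D L1 (D.simple p))) (κ * 1) ∈ D.posUnipotent F ⊓ D.negUnipotent F :=
        ⟨rad_le_posU hD J h3, xG_mem_negU hD hneg _⟩
      rw [posU_inf_negU hD, Subgroup.mem_bot, xG_eq_one_iff hD hneg.1] at h4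
      simp at h4
    have hnp := nS_mem_parabolic (F := F) hD hpJ hp
    have h5 : nR hD F L1 ∈ Subgroup.normalizer (D.unipotentRadical F J : Set (GL D.Idx F)) := by
      have := Subgroup.mul_mem _ hn (Subgroup.inv_mem _ (parabolic_le_normalizer hD J hnp))
      have e : nR hD F (p :: L1) * (nS hD F p)⁻¹ = nR hD F L1 := by
        show nR hD F L1 * nS hD F p * (nS hD F p)⁻¹ = _
        rw [mul_inv_cancel_right]
      rwa [e] at this
    exact Subgroup.mul_mem _ (red_word_in_J J hL1 h5) hnp

theorem normalizer_rad (J : Set ℕ) :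
    Subgroup.normalizer (D.unipotentRadical F J : Set (GL D.Idx F)) ⊓ D.group F = D.parabolicSubgroup F J := by
  apply le_antisymm
  · rintro g ⟨hgN, hgG⟩
    obtain ⟨b, hb, n, hn, b', hb', rfl⟩ := bruhat_exists hD hgG
    have hBP : D.borelSubgroup F ≤ D.parabolicSubgroup F J := le_sup_left
    have hBN := hBP.trans (parabolic_le_normalizer (F := F) hD J)
    obtain ⟨h, hh, L, hL, rfl⟩ := mem_mono hD hn
    obtain ⟨L', hL', -, h', hh', e⟩ := exists_red (F := F) hD L hL
    have hH : ∀ x ∈ D.diagonalSubgroup F, x ∈ D.borelSubgroup F := fun x hx => diag_le_borel hD hx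
    have h1 : nR hD F L' ∈ Subgroup.normalizer (D.unipotentRadical F J : Set (GL D.Idx F)) := by
      have e1 : nR hD F L' = h'⁻¹ * h⁻¹ * b⁻¹ * (b * (h * nR hD F L) * b') * b'⁻¹ := by
        rw [e]; group
      rw [e1]
      exact mul_mem (mul_mem (mul_mem (mul_mem (inv_mem (hBN (hH _ hh'))) (inv_mem (hBN (hH _ hh))))
        (inv_mem (hBN hb))) hgN) (inv_mem (hBN hb'))
    have h2 := red_word_in_J hD J hL' h1
    rw [e]
    exact mul_mem (mul_mem (hBP hb) (mul_mem (hBP (hH _ hh)) (mul_mem (hBP (hH _ hh')) h2))) (hBP hb')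
  · exact le_inf (parabolic_le_normalizer hD J) (parabolic_le_group hD J)

end

end Cfsg.Agent.Lib.Helper8
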