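import Cfsg.Agent.Lib.Helper8.RT2
import Cfsg.Agent.Lib.Helper8.Ree2
import Cfsg.Agent.Lib.Helper8.EngineC

set_option autoImplicit false
set_option linter.unusedSectionVars false
set_option linter.unusedVariables false

/-! The generators of the large Ree groups `²F₄`. -/

namespace Cfsg.Agent.Lib.Helper8

open Cfsg Cfsg.Lie

theorem hF4r : chevF4 ∈ allData := by simp [allData]

instance charP_isoF4 {K : Type*} [Field K] [h : CharP K 2] : CharP K isoF4.c := h

section
variable {K : Type*} [Field K]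

theorem two_eq_zero_of_char2 [CharP K 2] : (2 : K) = 0 := by
  have := CharP.cast_eq_zero K 2
  exact_mod_cast this

theorem neg_eq_of_char2 [CharP K 2] (a : K) : -a = a := by
  have h := two_eq_zero_of_char2 (K := K)
  linear_combination (-a) * h

theorem isoF4_odd [CharP K 2] (r : ℕ) : (-1 : K) ^ isoF4.lamF r = -1 := by
  rw [neg_eq_of_char2, one_pow]

/-- pairs of commuting root subgroups in the two blocks (characteristic 2) -/
theorem F4_blk_commute [CharP K 2] {r s : ℕ}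
    (h : (r, s) ∈ [(33, 24), (14, 23), (33, 23), (14, 24), (27, 28), (27, 30), (25, 28), (25, 30), (28, 30),
      (20, 19), (20, 17), (22, 19), (22, 17), (19, 17)]) (t u : K) :
    Commute (xG hF4r K r t) (xG hF4r K s u) := by
  have key : ∀ p ∈ [(33, 24), (14, 23), (33, 23), (14, 24), (27, 28), (27, 30), (25, 28), (25, 30), (28, 30),
      (20, 19), (20, 17), (22, 19), (22, 17), (19, 17)], p.1 < chevF4.nroots ∧ p.2 < chevF4.nroots ∧ p.2 ≠ p.1 ∧
      p.2 ≠ chevF4.neg p.1 ∧ ∀ c ∈ chevF4.commTerms p.1 p.2, c.2.1 % 2 = 0 := by decide +kernel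
  obtain ⟨h1, h2, h3, h4, h5⟩ := key _ h
  apply xG_commute_of_terms hF4r h1 h2 h3 h4
  intro c hc
  rw [CharP.intCast_eq_zero_iff K 2]
  exact Int.dvd_of_emod_eq_zero (h5 c hc)

def z2 (K : Type*) [Field K] (c d : K) : GL chevF4.Idx K := xG hF4r K 28 c * xG hF4r K 30 d
def z2n (K : Type*) [Field K] (c d : K) : GL chevF4.Idx K := xG hF4r K 19 c * xG hF4r K 17 d

def P4 (K : Type*) [Field K] (t1 t2 t3 t4 : K) : GL chevF4.Idx K :=
  xG hF4r K 27 t1 * xG hF4r K 25 t2 * z2 K t3 t4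
def Q4 (K : Type*) [Field K] (t1 t2 t3 t4 : K) : GL chevF4.Idx K :=
  xG hF4r K 20 t1 * xG hF4r K 22 t2 * z2n K t3 t4

theorem P4_eq_wG (t1 t2 t3 t4 : K) : P4 K t1 t2 t3 t4 = wG hF4r [(27, t1), (25, t2), (28, t3), (30, t4)] := by
  simp [P4, z2, wG, mul_assoc]
theorem Q4_eq_wG (t1 t2 t3 t4 : K) : Q4 K t1 t2 t3 t4 = wG hF4r [(20, t1), (22, t2), (19, t3), (17, t4)] := by
  simp [Q4, z2n, wG, mul_assoc]

theorem z2_mul [CharP K 2] (c d c' d' : K) : z2 K c d * z2 K c' d' = z2 K (c + c') (d + d') := by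
  unfold z2
  have h := F4_blk_commute (K := K) (r := 28) (s := 30) (by simp) c' d
  rw [← xG_mul, ← xG_mul]
  generalize xG hF4r K 28 c = A at *
  generalize xG hF4r K 30 d = B at *
  generalize xG hF4r K 28 c' = A' at *
  generalize xG hF4r K 30 d' = B' at *
  calc A * B * (A' * B') = A * (B * A') * B' := by group
    _ = A * (A' * B) * B' := by rw [h.eq]
    _ = A * A' * (B * B') := by group

theorem z2n_mul [CharP K 2] (c d c' d' : K) : z2n K c d * z2n K c' d' = z2n K (c + c') (d + d') := by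
  unfold z2n
  have h := F4_blk_commute (K := K) (r := 19) (s := 17) (by simp) c' d
  rw [← xG_mul, ← xG_mul]
  generalize xG hF4r K 19 c = A at *
  generalize xG hF4r K 17 d = B at *
  generalize xG hF4r K 19 c' = A' at *
  generalize xG hF4r K 17 d' = B' at *
  calc A * B * (A' * B') = A * (B * A') * B' := by group
    _ = A * (A' * B) * B' := by rw [h.eq]
    _ = A * A' * (B * B') := by group

theorem z2_swap [CharP K 2] (c d : K) : xG hF4r K 30 d * xG hF4r K 28 c = z2 K c d :=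
  (F4_blk_commute (K := K) (r := 28) (s := 30) (by simp) c d).eq.symm

theorem z2n_swap [CharP K 2] (c d : K) : xG hF4r K 17 d * xG hF4r K 19 c = z2n K c d :=
  (F4_blk_commute (K := K) (r := 19) (s := 17) (by simp) c d).eq.symm

theorem swap_25_27 [CharP K 2] (r s : K) :
    xG hF4r K 25 s * xG hF4r K 27 r = xG hF4r K 27 r * xG hF4r K 25 s * z2 K (r * s) (r ^ 2 * s) := by
  rw [swap_x_x hF4r (r := 27) (s := 25) (by decide) (by decide) (by decide) (by decide +kernel)]
  congr 1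
  have : chevF4.commTerms 27 25 = [(28, -1, 1, 1), (30, -1, 2, 1)] := by decide +kernel
  simp only [ChevalleyDatum.commWord, this, wG, z2, List.map_cons, List.map_nil, List.prod_cons, List.prod_nil,
    mul_one]
  congr 1
  · congr 1; push_cast; ring
  · congr 1; push_cast
    rw [neg_eq_of_char2 (1 : K), neg_eq_of_char2 r]; ring

theorem swap_22_20 [CharP K 2] (r s : K) :
    xG hF4r K 22 s * xG hF4r K 20 r = xG hF4r K 20 r * xG hF4r K 22 s * z2n K (r * s) (r ^ 2 * s) := by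
  rw [swap_x_x hF4r (r := 20) (s := 22) (by decide) (by decide) (by decide) (by decide +kernel)]
  congr 1
  have : chevF4.commTerms 20 22 = [(19, 1, 1, 1), (17, -1, 2, 1)] := by decide +kernel
  simp only [ChevalleyDatum.commWord, this, wG, z2n, List.map_cons, List.map_nil, List.prod_cons, List.prod_nil,
    mul_one]
  congr 1
  · congr 1; push_cast
    rw [neg_eq_of_char2 r]; ring
  · congr 1; push_cast
    rw [neg_eq_of_char2 (1 : K), neg_eq_of_char2 r]; ring

variable (φ : K →+* K)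

def a1F (t : K) : GL chevF4.Idx K := xG hF4r K 33 (φ t) * xG hF4r K 24 t
def b1F (t : K) : GL chevF4.Idx K := xG hF4r K 14 (φ t) * xG hF4r K 23 t
def a2F (t u : K) : GL chevF4.Idx K := P4 K (φ t) t (φ t * t + u) (φ u ^ 2)
def b2F (t u : K) : GL chevF4.Idx K := Q4 K (φ t) t (φ t * t + u) (φ u ^ 2)

/-- the large Ree group -/
def reeF : Subgroup (GL chevF4.Idx K) :=
  Subgroup.closure (({g | ∃ t, g = a1F φ t} ∪ {g | ∃ t, g = b1F φ t}) ∪
    ({g | ∃ t u, g = a2F φ t u} ∪ {g | ∃ t u, g = b2F φ t u}))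

theorem a1F_mem (t : K) : a1F φ t ∈ reeF φ := Subgroup.subset_closure (Or.inl (Or.inl ⟨t, rfl⟩))
theorem b1F_mem (t : K) : b1F φ t ∈ reeF φ := Subgroup.subset_closure (Or.inl (Or.inr ⟨t, rfl⟩))
theorem a2F_mem (t u : K) : a2F φ t u ∈ reeF φ := Subgroup.subset_closure (Or.inr (Or.inl ⟨t, u, rfl⟩))
theorem b2F_mem (t u : K) : b2F φ t u ∈ reeF φ := Subgroup.subset_closure (Or.inr (Or.inr ⟨t, u, rfl⟩))

variable {e : ℕ} (he : ∀ t, φ t = t ^ e)
include he

theorem a1F_coe (t : K) : ((a1F φ t : GL chevF4.Idx K) : Matrix chevF4.Idx chevF4.Idx K) =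
    chevF4.wordMat K (f4PairWord e f4p1 f4p4 t) := by
  have : a1F φ t = wG hF4r [(33, φ t), (24, t)] := by simp [a1F, wG]
  rw [this, wG_coe, f4PairWord, he t]; rfl

theorem b1F_coe (t : K) : ((b1F φ t : GL chevF4.Idx K) : Matrix chevF4.Idx chevF4.Idx K) =
    chevF4.wordMat K (f4PairWord e f4m1 f4m4 t) := by
  have : b1F φ t = wG hF4r [(14, φ t), (23, t)] := by simp [b1F, wG]
  rw [this, wG_coe, f4PairWord, he t]; rfl

theorem a2F_coe (t u : K) : ((a2F φ t u : GL chevF4.Idx K) : Matrix chevF4.Idx chevF4.Idx K) =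
    chevF4.wordMat K (b2ClassWord e f4a f4b f4ab f4aab t u) := by
  rw [a2F, P4_eq_wG, wG_coe, b2ClassWord, he t, he u]
  simp only [f4a, f4b, f4ab, f4aab]
  congr 4 <;> ring_nf

theorem b2F_coe (t u : K) : ((b2F φ t u : GL chevF4.Idx K) : Matrix chevF4.Idx chevF4.Idx K) =
    chevF4.wordMat K (b2ClassWord e f4ma f4mb f4mab f4maab t u) := by
  rw [b2F, Q4_eq_wG, wG_coe, b2ClassWord, he t, he u]
  simp only [f4ma, f4mb, f4mab, f4maab]
  congr 4 <;> ring_nf

theorem twistedF4_eq : twistedF4 K e = reeF φ := by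
  apply le_antisymm
  · rw [twistedF4, ChevalleyDatum.genSubgroup, Subgroup.closure_le]
    rintro g ⟨w, (⟨t, rfl | rfl⟩ | ⟨t, u, rfl | rfl⟩), hg⟩
    · have : g = a1F φ t := Units.ext (by rw [hg, a1F_coe φ he])
      rw [this]; exact a1F_mem φ t
    · have : g = b1F φ t := Units.ext (by rw [hg, b1F_coe φ he])
      rw [this]; exact b1F_mem φ t
    · have : g = a2F φ t u := Units.ext (by rw [hg, a2F_coe φ he])
      rw [this]; exact a2F_mem φ t u
    · have : g = b2F φ t u := Units.ext (by rw [hg, b2F_coe φ he])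
      rw [this]; exact b2F_mem φ t u
  · rw [reeF, Subgroup.closure_le]
    rintro g ((⟨t, rfl⟩ | ⟨t, rfl⟩) | (⟨t, u, rfl⟩ | ⟨t, u, rfl⟩))
    · exact Subgroup.subset_closure ⟨_, Or.inl ⟨t, Or.inl rfl⟩, a1F_coe φ he t⟩
    · exact Subgroup.subset_closure ⟨_, Or.inl ⟨t, Or.inr rfl⟩, b1F_coe φ he t⟩
    · exact Subgroup.subset_closure ⟨_, Or.inr ⟨t, u, Or.inl rfl⟩, a2F_coe φ he t u⟩
    · exact Subgroup.subset_closure ⟨_, Or.inr ⟨t, u, Or.inr rfl⟩, b2F_coe φ he t u⟩

end

end Cfsg.Agent.Lib.Helper8
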