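import Cfsg.Agent.Lib.Helper8.RF9

set_option autoImplicit false
set_option linter.unusedSectionVars false
set_option linter.unusedVariables false
set_option linter.unusedSimpArgs false

/-! The core of the Borel subgroup of `²F₄` is trivial. -/

namespace Cfsg.Agent.Lib.Helper8

open Cfsg Cfsg.Lie

section
variable {K : Type*} [Field K]

theorem conj_tG_P2 (c : ℕ → Kˣ) (t1 t2 : K) :
    tG chevF4 c * (xG hF4r K 33 t1 * xG hF4r K 24 t2) * (tG chevF4 c)⁻¹ =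
      xG hF4r K 33 ((chi chevF4 c 33 : Kˣ) * t1) * xG hF4r K 24 ((chi chevF4 c 24 : Kˣ) * t2) := by
  rw [← conj_tG_x hF4r c (by decide), ← conj_tG_x hF4r c (by decide)]; group

theorem conj_tG_P4 (c : ℕ → Kˣ) (t1 t2 t3 t4 : K) :
    tG chevF4 c * P4 K t1 t2 t3 t4 * (tG chevF4 c)⁻¹ =
      P4 K ((chi chevF4 c 27 : Kˣ) * t1) ((chi chevF4 c 25 : Kˣ) * t2) ((chi chevF4 c 28 : Kˣ) * t3)
        ((chi chevF4 c 30 : Kˣ) * t4) := by
  unfold P4 z2
  rw [← conj_tG_x hF4r c (by decide), ← conj_tG_x hF4r c (by decide), ← conj_tG_x hF4r c (by decide),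
    ← conj_tG_x hF4r c (by decide)]
  group

theorem core_comm {D : ChevalleyDatum} (hD : D ∈ allData) {x a : GL D.Idx K} (h1 : x ∈ D.diagonalSubgroup K)
    (h2 : a * x * a⁻¹ ∈ D.diagonalSubgroup K) (ha : a ∈ D.posUnipotent K) : x * a * x⁻¹ = a := by
  have h3 : (x⁻¹ * a * x) * a⁻¹ ∈ D.posUnipotent K ⊓ D.diagonalSubgroup K := by
    rw [Subgroup.mem_inf]
    constructor
    · have := (Subgroup.le_normalizer_iff.mp (diag_le_normalizer_posU hD)) _ (inv_mem h1) _ ha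
      rw [inv_inv] at this
      exact mul_mem this (inv_mem ha)
    · have e : (x⁻¹ * a * x) * a⁻¹ = x⁻¹ * (a * x * a⁻¹) := by group
      rw [e]
      exact mul_mem (inv_mem h1) h2
  rw [posU_inf_diag hD, Subgroup.mem_bot] at h3
  have : x⁻¹ * a * x = a := by rwa [mul_inv_eq_one] at h3
  calc x * a * x⁻¹ = x * (x⁻¹ * a * x) * x⁻¹ := by rw [this]
    _ = a := by group

variable [CharP K 2] (hinj : Function.Injective (isoR1 hF4r isoOK_F4 (F := K))) (φ : K →+* K)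
  (hφ : ∀ t, φ (φ t) ^ 2 = t) [Fintype K]
include hφ

theorem nstarF_mem : nR hF4r K f4M0.flatten ∈ fixR hF4r isoOK_F4 hinj φ :=
  (rblk_F4 φ hinj hφ).le ((rblk_F4 φ hinj hφ).nR_flatten_mem hF4r isoOK_F4 hinj φ (repsF4_bl _ f4M0_mem))

theorem core_mem_diagF {x : GL chevF4.Idx K}
    (hx : ∀ g ∈ fixR hF4r isoOK_F4 hinj φ, g * x * g⁻¹ ∈ chevF4.borelSubgroup K) :
    x ∈ chevF4.diagonalSubgroup K := by
  have h1 := hx 1 (one_mem _)
  rw [one_mul, inv_one, mul_one] at h1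
  obtain ⟨u, hu, h, hh, rfl⟩ := mem_borel hF4r h1
  have h2 := hx _ (nstarF_mem hinj φ hφ)
  set n := nR hF4r K f4M0.flatten with hn
  have hm : n ∈ chevF4.monomialSubgroup K := nR_mem_mono hF4r _ (repsF4_red _ f4M0_mem).lt
  have e : n * (u * h) * n⁻¹ = (n * u * n⁻¹) * (n * h * n⁻¹) := by group
  rw [e] at h2
  have h3 := diag_le_borel hF4r (mono_conj_diag hF4r hm hh)
  have h4 : n * u * n⁻¹ ∈ chevF4.borelSubgroup K := by
    have := mul_mem h2 (inv_mem h3)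
    rwa [mul_inv_cancel_right] at this
  have hu' : u ∈ Uw chevF4 K n := by rw [hn, Uw_eq_posU hF4r f4M0_chk]; exact hu
  have h5 : n * u * n⁻¹ ∈ chevF4.borelSubgroup K ⊓ chevF4.negUnipotent K :=
    Subgroup.mem_inf.mpr ⟨h4, conj_Uw_mem_negU hu'⟩
  rw [borel_inf_negU hF4r, Subgroup.mem_bot] at h5
  have h6 : u = 1 := by
    have := congrArg (fun z => n⁻¹ * z * n) h5
    simpa [mul_assoc] using this
  rw [h6, one_mul]
  exact hh

theorem core_eq_oneF {x : GL chevF4.Idx K}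
    (hx : ∀ g ∈ fixR hF4r isoOK_F4 hinj φ, g * x * g⁻¹ ∈ chevF4.borelSubgroup K) : x = 1 := by
  have h1 := core_mem_diagF hinj φ hφ hx
  have hc : ∀ a ∈ chevF4.posUnipotent K ⊓ fixR hF4r isoOK_F4 hinj φ, x * a * x⁻¹ = a := by
    intro a ha
    apply core_comm hF4r h1 _ ha.1
    apply core_mem_diagF hinj φ hφ
    intro g hg
    have e : g * (a * x * a⁻¹) * g⁻¹ = (g * a) * x * (g * a)⁻¹ := by group
    rw [e]
    exact hx _ (mul_mem hg ha.2)
  have e1 := hc (a1F φ 1) (Subgroup.mem_inf.mpr ⟨Uw_le_posU _ (a1F_mem_FUr hinj φ hφ 1).1,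
    (a1F_mem_FUr hinj φ hφ 1).2⟩)
  have e2 := hc (a2F φ 1 0) (Subgroup.mem_inf.mpr ⟨Uw_le_posU _ (a2F_mem_FUr hinj φ hφ 1 0).1,
    (a2F_mem_FUr hinj φ hφ 1 0).2⟩)
  rw [diag_eq_torus hF4r] at h1
  obtain ⟨c, rfl⟩ := h1
  unfold a1F at e1
  unfold a2F at e2
  rw [conj_tG_P2] at e1
  rw [conj_tG_P4] at e2
  obtain ⟨f1, f2⟩ := P2_inj e1
  obtain ⟨f3, f4, -, -⟩ := P4_inj e2
  rw [map_one, mul_one] at f1 f3
  rw [mul_one] at f2 f4
  apply tG_eq_one_of_chi hF4r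
  apply chi_eq_one_of_simple hF4r
  intro i hi
  have hi4 : i < 4 := hi
  interval_cases i
  · exact Units.ext f1
  · exact Units.ext f3
  · exact Units.ext f4
  · exact Units.ext f2

theorem borel_core_fixF : ((chevF4.borelSubgroup K ⊓ fixR hF4r isoOK_F4 hinj φ).subgroupOf
    (fixR hF4r isoOK_F4 hinj φ)).normalCore = ⊥ := by
  rw [eq_bot_iff]
  intro x hx
  rw [Subgroup.mem_bot]
  apply Subtype.ext
  apply core_eq_oneF hinj φ hφ
  intro g hg
  have := hx ⟨g, hg⟩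
  exact this.1

include hinj in
theorem borel_core_reeF : ((chevF4.borelSubgroup K ⊓ reeF φ).subgroupOf (reeF φ)).normalCore = ⊥ := by
  rw [reeF_eq_fixR hinj φ hφ]
  exact borel_core_fixF hinj φ hφ

end

end Cfsg.Agent.Lib.Helper8
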