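import Cfsg.Agent.Lib.Helper8.RF10

set_option autoImplicit false
set_option linter.unusedSectionVars false
set_option linter.unusedVariables false
set_option linter.unusedSimpArgs false

/-! `²F₄(q)` is perfect for `q > 2`. -/

namespace Cfsg.Agent.Lib.Helper8

open Cfsg Cfsg.Lie
open scoped commutatorElement

section
variable {K : Type*} [Field K]

theorem chi_F4_24 (c : ℕ → Kˣ) : chi chevF4 c 24 = (c 2)⁻¹ * c 3 ^ 2 := by
  rw [chi_F4, show chevF4.cartan 0 24 = 0 by decide +kernel, show chevF4.cartan 1 24 = 0 by decide +kernel,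
    show chevF4.cartan 2 24 = -1 by decide +kernel, show chevF4.cartan 3 24 = 2 by decide +kernel]
  simp only [zpow_zero, one_mul, zpow_neg, zpow_one]
  norm_cast

theorem chi_F4_25 (c : ℕ → Kˣ) : chi chevF4 c 25 = (c 1 ^ 2)⁻¹ * c 2 ^ 2 * (c 3)⁻¹ := by
  rw [chi_F4, show chevF4.cartan 0 25 = 0 by decide +kernel, show chevF4.cartan 1 25 = -2 by decide +kernel,
    show chevF4.cartan 2 25 = 2 by decide +kernel, show chevF4.cartan 3 25 = -1 by decide +kernel]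
  simp only [zpow_zero, one_mul, zpow_neg, zpow_one]
  norm_cast

theorem chi_F4_28 (c : ℕ → Kˣ) : chi chevF4 c 28 = (c 0)⁻¹ * c 2 * (c 3)⁻¹ := by
  rw [chi_F4, show chevF4.cartan 0 28 = -1 by decide +kernel, show chevF4.cartan 1 28 = 0 by decide +kernel,
    show chevF4.cartan 2 28 = 1 by decide +kernel, show chevF4.cartan 3 28 = -1 by decide +kernel]
  simp only [zpow_zero, mul_one, zpow_neg, zpow_one]

variable [CharP K 2]

theorem P2_mul (a b a' b' : K) : (xG hF4r K 33 a * xG hF4r K 24 b) * (xG hF4r K 33 a' * xG hF4r K 24 b') =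
    xG hF4r K 33 (a + a') * xG hF4r K 24 (b + b') := by
  have h := F4_blk_commute (K := K) (r := 33) (s := 24) (by simp) a' b
  rw [← xG_mul, ← xG_mul]
  generalize xG hF4r K 33 a = A at *
  generalize xG hF4r K 24 b = B at *
  generalize xG hF4r K 33 a' = A' at *
  generalize xG hF4r K 24 b' = B' at *
  calc A * B * (A' * B') = A * (B * A') * B' := by group
    _ = A * (A' * B) * B' := by rw [h.eq]
    _ = A * A' * (B * B') := by group

theorem z2_comm_27 (c d s : K) : z2 K c d * xG hF4r K 27 s = xG hF4r K 27 s * z2 K c d := by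
  have h1 := F4_blk_commute (K := K) (r := 27) (s := 28) (by simp) s c
  have h2 := F4_blk_commute (K := K) (r := 27) (s := 30) (by simp) s d
  exact ((h1.mul_right h2).eq).symm

theorem z2_comm_25 (c d s : K) : z2 K c d * xG hF4r K 25 s = xG hF4r K 25 s * z2 K c d := by
  have h1 := F4_blk_commute (K := K) (r := 25) (s := 28) (by simp) s c
  have h2 := F4_blk_commute (K := K) (r := 25) (s := 30) (by simp) s d
  exact ((h1.mul_right h2).eq).symm

theorem P4_mul (t1 t2 t3 t4 s1 s2 s3 s4 : K) : P4 K t1 t2 t3 t4 * P4 K s1 s2 s3 s4 =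
    P4 K (t1 + s1) (t2 + s2) (t3 + s3 + s1 * t2) (t4 + s4 + s1 ^ 2 * t2) := by
  unfold P4
  have h1 := z2_comm_27 t3 t4 s1
  have h2 := z2_comm_25 t3 t4 s2
  have h3 := swap_25_27 s1 t2
  have h4 := z2_comm_25 (s1 * t2) (s1 ^ 2 * t2) s2
  have e1 : z2 K (t3 + s3 + s1 * t2) (t4 + s4 + s1 ^ 2 * t2) =
      z2 K (s1 * t2) (s1 ^ 2 * t2) * z2 K t3 t4 * z2 K s3 s4 := by
    rw [z2_mul, z2_mul]
    congr 1 <;> ring
  rw [e1, ← xG_mul, ← xG_mul]
  generalize xG hF4r K 27 t1 = A1 at *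
  generalize xG hF4r K 25 t2 = B1 at *
  generalize z2 K t3 t4 = Z1 at *
  generalize xG hF4r K 27 s1 = A2 at *
  generalize xG hF4r K 25 s2 = B2 at *
  generalize z2 K s3 s4 = Z2 at *
  generalize z2 K (s1 * t2) (s1 ^ 2 * t2) = W at *
  calc A1 * B1 * Z1 * (A2 * B2 * Z2) = A1 * B1 * (Z1 * A2) * B2 * Z2 := by group
    _ = A1 * B1 * A2 * (Z1 * B2) * Z2 := by rw [h1]; group
    _ = A1 * (B1 * A2) * B2 * Z1 * Z2 := by rw [h2]; group
    _ = A1 * A2 * B1 * (W * B2) * Z1 * Z2 := by rw [h3]; group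
    _ = A1 * A2 * (B1 * B2) * (W * Z1 * Z2) := by rw [h4]; group

variable (hinj : Function.Injective (isoR1 hF4r isoOK_F4 (F := K))) (φ : K →+* K)
  (hφ : ∀ t, φ (φ t) ^ 2 = t) [Fintype K]
include hinj hφ

theorem add_self_char2 (a : K) : a + a = 0 := by
  have h := two_eq_zero_of_char2 (K := K)
  linear_combination a * h

/-- the commutator of a torus element with `a₁(t)` -/
theorem comm_hF_a1F (z : Kˣ × Kˣ) (t : K) :
    hF φ z * a1F φ t * (hF φ z)⁻¹ * (a1F φ t)⁻¹ = a1F φ (((chi chevF4 (cF φ z) 24 : Kˣ) : K) * t + t) := by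
  have hh : hF φ z ∈ chevF4.diagonalSubgroup K ⊓ fixR hF4r isoOK_F4 hinj φ :=
    Subgroup.mem_inf.mpr ⟨hF_mem_diag φ z, hF_mem_fixR hinj φ hφ z⟩
  have hm := nR_mem_mono (F := K) hF4r [0, 3] (by decide)
  have h1 := mul_mem (diag_conj_FUr hF4r isoOK_F4 hinj φ hm hh (a1F_mem_FUr hinj φ hφ t))
    (inv_mem (a1F_mem_FUr hinj φ hφ t))
  obtain ⟨t', e⟩ := fixed_J1 hinj φ hφ h1
  rw [e]
  have e2 : a1F φ t' * a1F φ t = hF φ z * a1F φ t * (hF φ z)⁻¹ := by rw [← e]; group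
  unfold a1F at e2
  rw [hF_apply, conj_tG_P2, P2_mul] at e2
  have e3 := (P2_inj e2).2
  have : t' = ((chi chevF4 (cF φ z) 24 : Kˣ) : K) * t + t := by
    rw [← e3, add_assoc, add_self_char2 hinj φ hφ, add_zero]
  rw [this]

/-- the commutator of a torus element with `a₂(t,u)` -/
theorem comm_hF_a2F (z : Kˣ × Kˣ) (t u : K) : ∃ u' : K,
    hF φ z * a2F φ t u * (hF φ z)⁻¹ * (a2F φ t u)⁻¹ = a2F φ (((chi chevF4 (cF φ z) 25 : Kˣ) : K) * t + t) u' ∧
      (t = 0 → u' = ((chi chevF4 (cF φ z) 28 : Kˣ) : K) * u + u) := by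
  have hh : hF φ z ∈ chevF4.diagonalSubgroup K ⊓ fixR hF4r isoOK_F4 hinj φ :=
    Subgroup.mem_inf.mpr ⟨hF_mem_diag φ z, hF_mem_fixR hinj φ hφ z⟩
  have hm := nR_mem_mono (F := K) hF4r [1, 2, 1, 2] (by decide)
  have h1 := mul_mem (diag_conj_FUr hF4r isoOK_F4 hinj φ hm hh (a2F_mem_FUr hinj φ hφ t u))
    (inv_mem (a2F_mem_FUr hinj φ hφ t u))
  obtain ⟨t', u', e⟩ := fixed_J2 hinj φ hφ h1
  rw [e]
  have e2 : a2F φ t' u' * a2F φ t u = hF φ z * a2F φ t u * (hF φ z)⁻¹ := by rw [← e]; group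
  unfold a2F at e2
  rw [hF_apply, conj_tG_P4, P4_mul] at e2
  obtain ⟨-, e3, e4, -⟩ := P4_inj e2
  have ht : t' = ((chi chevF4 (cF φ z) 25 : Kˣ) : K) * t + t := by
    rw [← e3, add_assoc, add_self_char2 hinj φ hφ, add_zero]
  refine ⟨u', by rw [ht], fun h0 => ?_⟩
  subst h0
  rw [mul_zero, add_zero] at ht
  subst ht
  simp only [map_zero, mul_zero, zero_mul, zero_add, add_zero] at e4
  rw [← e4, add_assoc, add_self_char2 hinj φ hφ, add_zero]

theorem a2F_split (t u u' : K) : a2F φ t u = a2F φ t u' * a2F φ 0 (u + u') := by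
  unfold a2F
  rw [P4_mul]
  simp only [map_zero, mul_zero, zero_mul, add_zero, zero_add, ne_eq, OfNat.ofNat_ne_zero, not_false_eq_true,
    zero_pow, map_add]
  have h := two_eq_zero_of_char2 (K := K)
  congr 1
  · linear_combination (-u') * h
  · rw [add_sq_char2]
    linear_combination (-(φ u') ^ 2) * h

theorem reeF_perfect (hz : ∃ z : Kˣ, z ≠ 1) : commutator ↥(reeF φ) = ⊤ := by
  obtain ⟨z, hz⟩ := hz
  set D : Subgroup (GL chevF4.Idx K) := (commutator ↥(reeF φ)).map (reeF φ).subtype with hD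
  have hcomm : ∀ a b : GL chevF4.Idx K, a ∈ reeF φ → b ∈ reeF φ → a * b * a⁻¹ * b⁻¹ ∈ D := by
    intro a b ha hb
    refine ⟨⁅(⟨a, ha⟩ : ↥(reeF φ)), ⟨b, hb⟩⁆, ?_, ?_⟩
    · rw [SetLike.mem_coe, commutator_def]
      exact Subgroup.commutator_mem_commutator (Subgroup.mem_top _) (Subgroup.mem_top _)
    · rw [commutatorElement_def]
      rfl
  have hnorm : ∀ g ∈ reeF φ, ∀ x ∈ D, g * x * g⁻¹ ∈ D := by
    rintro g hg _ ⟨x, hx, rfl⟩
    have hN : (commutator ↥(reeF φ)).Normal := inferInstance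
    refine ⟨(⟨g, hg⟩ : ↥(reeF φ)) * x * (⟨g, hg⟩ : ↥(reeF φ))⁻¹, hN.conj_mem x hx _, ?_⟩
    simp only [map_mul, map_inv, Subgroup.subtype_apply]
  have hFm := hF_mem_reeF hinj φ hφ
  have hz1 : (z : K) + 1 ≠ 0 := by
    intro h
    apply hz
    apply Units.ext
    have h2 := two_eq_zero_of_char2 (K := K)
    rw [Units.val_one]
    linear_combination h - h2
  have hzi : ((z⁻¹ : Kˣ) : K) + 1 ≠ 0 := by
    intro h
    apply hz
    have : z⁻¹ = 1 := by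
      apply Units.ext
      have h2 := two_eq_zero_of_char2 (K := K)
      rw [Units.val_one]
      linear_combination h - h2
    simpa using this
  have s1 : ∀ t : K, a1F φ t ∈ D := by
    intro t
    have h1 := hcomm (hF φ (z, 1)) (a1F φ (t / (((z⁻¹ : Kˣ) : K) + 1))) (hFm _) (a1F_mem φ _)
    rw [comm_hF_a1F hinj φ hφ, chi_F4_24] at h1
    have e : (((cF φ (z, 1) 2)⁻¹ * cF φ (z, 1) 3 ^ 2 : Kˣ) : K) = ((z⁻¹ : Kˣ) : K) := by simp [cF]
    rw [e] at h1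
    have e2 : ((z⁻¹ : Kˣ) : K) * (t / (((z⁻¹ : Kˣ) : K) + 1)) + t / (((z⁻¹ : Kˣ) : K) + 1) = t := by
      field_simp
    rwa [e2] at h1
  have s2 : ∀ u : K, a2F φ 0 u ∈ D := by
    intro u
    have h1 := hcomm (hF φ (z, 1)) (a2F φ 0 (u / ((z : K) + 1))) (hFm _) (a2F_mem φ _ _)
    obtain ⟨u', e1, e2⟩ := comm_hF_a2F hinj φ hφ (z, 1) 0 (u / ((z : K) + 1))
    rw [e1, e2 rfl, chi_F4_28, mul_zero, add_zero] at h1
    have e : (((cF φ (z, 1) 0)⁻¹ * cF φ (z, 1) 2 * (cF φ (z, 1) 3)⁻¹ : Kˣ) : K) = (z : K) := by simp [cF]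
    rw [e] at h1
    have e3 : (z : K) * (u / ((z : K) + 1)) + u / ((z : K) + 1) = u := by
      field_simp
    rwa [e3] at h1
  have s3 : ∀ t u : K, a2F φ t u ∈ D := by
    intro t u
    have h1 := hcomm (hF φ (1, z)) (a2F φ (t / (((z⁻¹ : Kˣ) : K) + 1)) 0) (hFm _) (a2F_mem φ _ _)
    obtain ⟨u', e1, -⟩ := comm_hF_a2F hinj φ hφ (1, z) (t / (((z⁻¹ : Kˣ) : K) + 1)) 0
    rw [e1, chi_F4_25] at h1
    have e : (((cF φ (1, z) 1 ^ 2)⁻¹ * cF φ (1, z) 2 ^ 2 * (cF φ (1, z) 3)⁻¹ : Kˣ) : K) = ((z⁻¹ : Kˣ) : K) := by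
      simp [cF]
    rw [e] at h1
    have e2 : ((z⁻¹ : Kˣ) : K) * (t / (((z⁻¹ : Kˣ) : K) + 1)) + t / (((z⁻¹ : Kˣ) : K) + 1) = t := by
      field_simp
    rw [e2] at h1
    rw [a2F_split hinj φ hφ t u u']
    exact mul_mem h1 (s2 _)
  have hle : reeF φ ≤ D := by
    conv_lhs => rw [reeF]
    rw [Subgroup.closure_le]
    rintro g ((⟨t, rfl⟩ | ⟨t, rfl⟩) | (⟨t, u, rfl⟩ | ⟨t, u, rfl⟩))
    · exact s1 t
    · obtain ⟨t', e⟩ := fixed_J1 hinj φ hφ (conj_J1_b1F hinj φ hφ t)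
      have e2 : b1F φ t = (nR hF4r K [0, 3])⁻¹ * a1F φ t' * (nR hF4r K [0, 3])⁻¹⁻¹ := by rw [← e]; group
      show b1F φ t ∈ D
      rw [e2]
      exact hnorm _ (inv_mem (nR_J1_mem φ)) _ (s1 t')
    · exact s3 t u
    · obtain ⟨t', u', e⟩ := fixed_J2 hinj φ hφ (conj_J2_b2F hinj φ hφ t u)
      have e2 : b2F φ t u = (nR hF4r K [1, 2, 1, 2])⁻¹ * a2F φ t' u' * (nR hF4r K [1, 2, 1, 2])⁻¹⁻¹ := by
        rw [← e]; group
      show b2F φ t u ∈ D
      rw [e2]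
      exact hnorm _ (inv_mem (nR_J2_mem φ)) _ (s3 t' u')
  rw [eq_top_iff]
  intro x _
  obtain ⟨y, hy, e⟩ := hle x.2
  have : y = x := Subtype.ext e
  rwa [this] at hy

end

end Cfsg.Agent.Lib.Helper8
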