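import Cfsg.Agent.Lib.Helper8.RF11

set_option autoImplicit false
set_option linter.unusedSectionVars false
set_option linter.unusedVariables false
set_option linter.unusedSimpArgs false
set_option linter.style.haveILetI false

/-! `²F₄(q)` is simple for `q > 2`. -/

namespace Cfsg.Agent.Lib.Helper8

open Cfsg Cfsg.Lie

theorem f4adj : ∀ J ∈ blF4, ∀ J' ∈ blF4, J ≠ J' →
    wR chevF4 J (wR chevF4 J' (wR chevF4 J (wR chevF4 J' 24))) ≠ 24 := by decide +kernel

section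
variable {K : Type*} [Field K]

theorem comm_not_mem_F4 {J J' : List ℕ} (hJ : J ∈ blF4) (hJ' : J' ∈ blF4) (hne : J ≠ J') :
    nR hF4r K J * nR hF4r K J' * (nR hF4r K J)⁻¹ * (nR hF4r K J')⁻¹ ∉ chevF4.borelSubgroup K := by
  intro h
  have m1 := nR_mem_mono (F := K) hF4r J (blF4_lt J hJ)
  have m2 := nR_mem_mono (F := K) hF4r J' (blF4_lt J' hJ')
  have hN : nR hF4r K J * nR hF4r K J' * (nR hF4r K J)⁻¹ * (nR hF4r K J')⁻¹ ∈ chevF4.monomialSubgroup K :=
    mul_mem (mul_mem (mul_mem m1 m2) (inv_mem m1)) (inv_mem m2)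
  have h1 : nR hF4r K J * nR hF4r K J' * (nR hF4r K J)⁻¹ * (nR hF4r K J')⁻¹ ∈
      chevF4.borelSubgroup K ⊓ chevF4.monomialSubgroup K := Subgroup.mem_inf.mpr ⟨h, hN⟩
  rw [borel_inf_mono hF4r, diag_eq_torus hF4r] at h1
  obtain ⟨c, hc⟩ := h1
  have a1 := (((act_nR (F := K) hF4r J (blF4_lt J hJ)).mul (act_nR hF4r J' (blF4_lt J' hJ'))).mul
    (act_nR_inv_F4 hJ)).mul (act_nR_inv_F4 hJ')
  rw [← hc] at a1
  have h2 := a1.unique (act_tG hF4r c) 24 (by decide)
  simp only [Function.comp, id] at h2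
  exact f4adj J hJ J' hJ' hne h2

variable [CharP K 2] (hinj : Function.Injective (isoR1 hF4r isoOK_F4 (F := K))) (φ : K →+* K)
  (hφ : ∀ t, φ (φ t) ^ 2 = t) [Fintype K]
include hφ

theorem bnPairF_irreducible : (bnPairF hinj φ hφ).Irreducible := by
  intro A hA hne hne'
  obtain ⟨s, hs⟩ := hne
  obtain ⟨s', hs', hs''⟩ := hne'
  obtain ⟨J, hJ, e⟩ := hA hs
  obtain ⟨J', hJ', e'⟩ := hs'
  refine ⟨s, hs, s', ⟨⟨J', hJ', e'⟩, hs''⟩, ?_⟩
  intro h
  have h1 : (s : GL chevF4.Idx K) * s' * (s : GL chevF4.Idx K)⁻¹ * (s' : GL chevF4.Idx K)⁻¹ ∈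
      chevF4.borelSubgroup K := h.1
  rw [e, e'] at h1
  refine comm_not_mem_F4 hJ hJ' ?_ h1
  rintro rfl
  apply hs''
  have : s' = s := Subtype.ext (by rw [e, e'])
  rw [this]
  exact hs

theorem fixF_nontrivial : Nontrivial ↥(fixR hF4r isoOK_F4 hinj φ) := by
  refine ⟨⟨⟨a1F φ 1, (a1F_mem_FUr hinj φ hφ 1).2⟩, 1, ?_⟩⟩
  intro h
  have h1 : a1F φ 1 = 1 := congrArg Subtype.val h
  have h0 : a1F φ 1 = xG hF4r K 33 0 * xG hF4r K 24 0 := by rw [h1]; simp [xG_zero]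
  exact one_ne_zero (P2_inj h0).2

theorem fixF_simple (hperf : commutator ↥(fixR hF4r isoOK_F4 hinj φ) = ⊤) :
    IsSimpleGroup ↥(fixR hF4r isoOK_F4 hinj φ) ∧ ¬ IsMulCommutative ↥(fixR hF4r isoOK_F4 hinj φ) := by
  haveI := fixF_nontrivial hinj φ hφ
  constructor
  · refine Cfsg.Agent.S0319.result (bnPairF hinj φ hφ) (bnPairF_irreducible hinj φ hφ) ?_ hperf
      (borel_core_fixF hinj φ hφ)
    haveI := borel_solvable (F := K) hF4r
    have hle : chevF4.borelSubgroup K ⊓ fixR hF4r isoOK_F4 hinj φ ≤ chevF4.borelSubgroup K := inf_le_left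
    haveI : Group.IsSolvable ↥(chevF4.borelSubgroup K ⊓ fixR hF4r isoOK_F4 hinj φ) :=
      Group.isSolvable_of_isSolvable_injective (f := Subgroup.inclusion hle) (Subgroup.inclusion_injective hle)
    exact Group.isSolvable_of_isSolvable_injective
      (f := (Subgroup.subgroupOfEquivOfLe (inf_le_right : chevF4.borelSubgroup K ⊓ fixR hF4r isoOK_F4 hinj φ ≤
        fixR hF4r isoOK_F4 hinj φ)).toMonoidHom)
      (Subgroup.subgroupOfEquivOfLe (inf_le_right : chevF4.borelSubgroup K ⊓ fixR hF4r isoOK_F4 hinj φ ≤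
        fixR hF4r isoOK_F4 hinj φ)).injective
  · intro hc
    have h1 : commutator ↥(fixR hF4r isoOK_F4 hinj φ) = ⊥ := by
      rw [commutator_def, Subgroup.commutator_eq_bot_iff_le_centralizer]
      intro x _
      rw [Subgroup.mem_centralizer_iff]
      intro y _
      exact hc.is_comm.comm y x
    rw [hperf] at h1
    exact top_ne_bot h1

include hinj in
theorem reeF_simple (hz : ∃ z : Kˣ, z ≠ 1) : IsSimpleGroup ↥(reeF φ) ∧ ¬ IsMulCommutative ↥(reeF φ) := by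
  have hp := reeF_perfect hinj φ hφ hz
  rw [reeF_eq_fixR hinj φ hφ] at hp ⊢
  exact fixF_simple hinj φ hφ hp

end

end Cfsg.Agent.Lib.Helper8
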