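import Cfsg.Agent.Lib.Helper8.RF1

set_option autoImplicit false
set_option linter.unusedSectionVars false
set_option linter.unusedVariables false

/-! The fixed points of `σ` in the two blocks of `F₄`. -/

namespace Cfsg.Agent.Lib.Helper8

open Cfsg Cfsg.Lie

/-- `U_w⁻` as a product of root subgroups -/
theorem Uw_eq_NL {D : ChevalleyDatum} (hD : D ∈ allData) {F : Type*} [Field F] {L : List ℕ}
    (hL : ∀ i ∈ L, i < D.rank) {S : List ℕ}
    (h : ∀ r < D.nroots, (r ∈ S ↔ (D.nroots / 2 ≤ r ∧ wR D L r < D.nroots / 2))) (hS : ∀ r ∈ S, r < D.nroots) :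
    Uw D F (nR hD F L) = NL (F := F) hD S := by
  apply le_antisymm
  · apply Uw_le hD (act_nR hD L hL)
    intro r hr hneg t
    apply xG_mem_NL
    rw [h r hr.1]
    rw [isPos_iff hD] at hr
    rw [isNeg_iff hD] at hneg
    exact ⟨hr.1, hneg⟩
  · rw [NL, Subgroup.closure_le]
    rintro g ⟨s, hs, t, rfl⟩
    have h1 := (h s (hS s hs)).mp hs
    exact xG_mem_Uw hD (act_nR hD L hL) ((isPos_iff hD).mpr ⟨h1.1, hS s hs⟩) ((isNeg_iff hD).mpr h1.2) t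

section
variable {K : Type*} [Field K]

theorem Uw_J2 : Uw chevF4 K (nR hF4r K [1, 2, 1, 2]) = NL (F := K) hF4r [27, 25, 28, 30] :=
  Uw_eq_NL hF4r (by decide) (by decide +kernel) (by decide)

theorem Uw_J1 : Uw chevF4 K (nR hF4r K [0, 3]) = NL (F := K) hF4r [33, 24] :=
  Uw_eq_NL hF4r (by decide) (by decide +kernel) (by decide)

theorem red_J1 : Red chevF4 [0, 3] := chkRed_spec hF4r (by decide +kernel)
theorem red_J2 : Red chevF4 [1, 2, 1, 2] := chkRed_spec hF4r (by decide +kernel)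

theorem J2_exists {u : GL chevF4.Idx K} (hu : u ∈ Uw chevF4 K (nR hF4r K [1, 2, 1, 2])) :
    ∃ t1 t2 t3 t4 : K, u = P4 K t1 t2 t3 t4 := by
  rw [Uw_J2] at hu
  obtain ⟨τ, rfl⟩ := NL_normal_form hF4r (by decide +kernel) hu
  exact ⟨τ 27, τ 25, τ 28, τ 30, (P4_eq_wG _ _ _ _).symm⟩

theorem J1_exists {u : GL chevF4.Idx K} (hu : u ∈ Uw chevF4 K (nR hF4r K [0, 3])) :
    ∃ t1 t2 : K, u = xG hF4r K 33 t1 * xG hF4r K 24 t2 := by
  rw [Uw_J1] at hu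
  obtain ⟨τ, rfl⟩ := NL_normal_form hF4r (by decide +kernel) hu
  exact ⟨τ 33, τ 24, by simp [wG]⟩

theorem P4_mem_Uw (t1 t2 t3 t4 : K) : P4 K t1 t2 t3 t4 ∈ Uw chevF4 K (nR hF4r K [1, 2, 1, 2]) := by
  rw [Uw_J2]
  unfold P4 z2
  exact mul_mem (mul_mem (xG_mem_NL hF4r (by simp) _) (xG_mem_NL hF4r (by simp) _))
    (mul_mem (xG_mem_NL hF4r (by simp) _) (xG_mem_NL hF4r (by simp) _))

theorem P2_mem_Uw (t1 t2 : K) : xG hF4r K 33 t1 * xG hF4r K 24 t2 ∈ Uw chevF4 K (nR hF4r K [0, 3]) := by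
  rw [Uw_J1]
  exact mul_mem (xG_mem_NL hF4r (by simp) _) (xG_mem_NL hF4r (by simp) _)

theorem P4_inj [Fintype K] {t1 t2 t3 t4 t1' t2' t3' t4' : K}
    (e : P4 K t1 t2 t3 t4 = P4 K t1' t2' t3' t4') : t1 = t1' ∧ t2 = t2' ∧ t3 = t3' ∧ t4 = t4' := by
  classical
  let f : (Fin 4 → K) → ↥(Uw chevF4 K (nR hF4r K [1, 2, 1, 2])) := fun c =>
    ⟨P4 K (c 0) (c 1) (c 2) (c 3), P4_mem_Uw _ _ _ _⟩
  have hs : Function.Surjective f := by
    rintro ⟨u, hu⟩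
    obtain ⟨a1, a2, a3, a4, rfl⟩ := J2_exists hu
    exact ⟨![a1, a2, a3, a4], rfl⟩
  have : Finite ↥(Uw chevF4 K (nR hF4r K [1, 2, 1, 2])) := inferInstance
  have : Fintype ↥(Uw chevF4 K (nR hF4r K [1, 2, 1, 2])) := Fintype.ofFinite _
  have hcard : Fintype.card (Fin 4 → K) = Fintype.card ↥(Uw chevF4 K (nR hF4r K [1, 2, 1, 2])) := by
    rw [← Nat.card_eq_fintype_card (α := ↥(Uw chevF4 K (nR hF4r K [1, 2, 1, 2]))), card_Uw hF4r red_J2]
    simp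
  have hb := (Fintype.bijective_iff_surjective_and_card f).mpr ⟨hs, hcard⟩
  have h1 : f ![t1, t2, t3, t4] = f ![t1', t2', t3', t4'] := Subtype.ext e
  have h2 := hb.1 h1
  exact ⟨congrFun h2 0, congrFun h2 1, congrFun h2 2, congrFun h2 3⟩

theorem P2_inj [Fintype K] {t1 t2 t1' t2' : K}
    (e : xG hF4r K 33 t1 * xG hF4r K 24 t2 = xG hF4r K 33 t1' * xG hF4r K 24 t2') : t1 = t1' ∧ t2 = t2' := by
  classical
  let f : (Fin 2 → K) → ↥(Uw chevF4 K (nR hF4r K [0, 3])) := fun c =>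
    ⟨xG hF4r K 33 (c 0) * xG hF4r K 24 (c 1), P2_mem_Uw _ _⟩
  have hs : Function.Surjective f := by
    rintro ⟨u, hu⟩
    obtain ⟨a1, a2, rfl⟩ := J1_exists hu
    exact ⟨![a1, a2], rfl⟩
  have : Finite ↥(Uw chevF4 K (nR hF4r K [0, 3])) := inferInstance
  have : Fintype ↥(Uw chevF4 K (nR hF4r K [0, 3])) := Fintype.ofFinite _
  have hcard : Fintype.card (Fin 2 → K) = Fintype.card ↥(Uw chevF4 K (nR hF4r K [0, 3])) := by
    rw [← Nat.card_eq_fintype_card (α := ↥(Uw chevF4 K (nR hF4r K [0, 3]))), card_Uw hF4r red_J1]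
    simp
  have hb := (Fintype.bijective_iff_surjective_and_card f).mpr ⟨hs, hcard⟩
  have h1 : f ![t1, t2] = f ![t1', t2'] := Subtype.ext e
  have h2 := hb.1 h1
  exact ⟨congrFun h2 0, congrFun h2 1⟩

variable [CharP K 2] (hinj : Function.Injective (isoR1 hF4r isoOK_F4 (F := K))) (φ : K →+* K)

theorem sgF_x {r r' l : ℕ} (hr : r < chevF4.nroots) (h1 : isoF4.rho chevF4.rank r = r') (h2 : isoF4.lamF r = l)
    (t : K) : sg hF4r isoOK_F4 hinj φ (xG hF4r K r t) = xG hF4r K r' (φ t ^ l) := by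
  rw [sg_x hF4r isoOK_F4 hinj φ hr, h1, eR, h2]

theorem sg_P2 (t1 t2 : K) : sg hF4r isoOK_F4 hinj φ (xG hF4r K 33 t1 * xG hF4r K 24 t2) =
    xG hF4r K 33 (φ t2) * xG hF4r K 24 (φ t1 ^ 2) := by
  rw [sg_mul hF4r isoOK_F4 hinj φ (xG_mem_group hF4r _ _) (xG_mem_group hF4r _ _),
    sgF_x hinj φ (r := 33) (r' := 24) (l := 2) (by decide) (by decide +kernel) (by decide +kernel),
    sgF_x hinj φ (r := 24) (r' := 33) (l := 1) (by decide) (by decide +kernel) (by decide +kernel), pow_one]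
  exact (F4_blk_commute (K := K) (r := 33) (s := 24) (by simp) _ _).eq.symm

theorem sg_Q2 (t1 t2 : K) : sg hF4r isoOK_F4 hinj φ (xG hF4r K 14 t1 * xG hF4r K 23 t2) =
    xG hF4r K 14 (φ t2) * xG hF4r K 23 (φ t1 ^ 2) := by
  rw [sg_mul hF4r isoOK_F4 hinj φ (xG_mem_group hF4r _ _) (xG_mem_group hF4r _ _),
    sgF_x hinj φ (r := 14) (r' := 23) (l := 2) (by decide) (by decide +kernel) (by decide +kernel),
    sgF_x hinj φ (r := 23) (r' := 14) (l := 1) (by decide) (by decide +kernel) (by decide +kernel), pow_one]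
  exact (F4_blk_commute (K := K) (r := 14) (s := 23) (by simp) _ _).eq.symm

theorem sg_P4 (t1 t2 t3 t4 : K) : sg hF4r isoOK_F4 hinj φ (P4 K t1 t2 t3 t4) =
    P4 K (φ t2) (φ t1 ^ 2) (φ t2 * φ t1 ^ 2 + φ t4) (φ t2 ^ 2 * φ t1 ^ 2 + φ t3 ^ 2) := by
  have hm : ∀ r (t : K), xG hF4r K r t ∈ chevF4.group K := fun r t => xG_mem_group hF4r r t
  unfold P4
  conv_lhs => unfold z2
  rw [sg_mul hF4r isoOK_F4 hinj φ (mul_mem (hm _ _) (hm _ _)) (mul_mem (hm _ _) (hm _ _)),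
    sg_mul hF4r isoOK_F4 hinj φ (hm _ _) (hm _ _), sg_mul hF4r isoOK_F4 hinj φ (hm _ _) (hm _ _),
    sgF_x hinj φ (r := 27) (r' := 25) (l := 2) (by decide) (by decide +kernel) (by decide +kernel),
    sgF_x hinj φ (r := 25) (r' := 27) (l := 1) (by decide) (by decide +kernel) (by decide +kernel),
    sgF_x hinj φ (r := 28) (r' := 30) (l := 2) (by decide) (by decide +kernel) (by decide +kernel),
    sgF_x hinj φ (r := 30) (r' := 28) (l := 1) (by decide) (by decide +kernel) (by decide +kernel),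
    pow_one, pow_one, z2_swap, swap_25_27, mul_assoc, z2_mul]

theorem sg_Q4 (t1 t2 t3 t4 : K) : sg hF4r isoOK_F4 hinj φ (Q4 K t1 t2 t3 t4) =
    Q4 K (φ t2) (φ t1 ^ 2) (φ t2 * φ t1 ^ 2 + φ t4) (φ t2 ^ 2 * φ t1 ^ 2 + φ t3 ^ 2) := by
  have hm : ∀ r (t : K), xG hF4r K r t ∈ chevF4.group K := fun r t => xG_mem_group hF4r r t
  unfold Q4
  conv_lhs => unfold z2n
  rw [sg_mul hF4r isoOK_F4 hinj φ (mul_mem (hm _ _) (hm _ _)) (mul_mem (hm _ _) (hm _ _)),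
    sg_mul hF4r isoOK_F4 hinj φ (hm _ _) (hm _ _), sg_mul hF4r isoOK_F4 hinj φ (hm _ _) (hm _ _),
    sgF_x hinj φ (r := 20) (r' := 22) (l := 2) (by decide) (by decide +kernel) (by decide +kernel),
    sgF_x hinj φ (r := 22) (r' := 20) (l := 1) (by decide) (by decide +kernel) (by decide +kernel),
    sgF_x hinj φ (r := 19) (r' := 17) (l := 2) (by decide) (by decide +kernel) (by decide +kernel),
    sgF_x hinj φ (r := 17) (r' := 19) (l := 1) (by decide) (by decide +kernel) (by decide +kernel),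
    pow_one, pow_one, z2n_swap, swap_22_20, mul_assoc, z2n_mul]

variable (hφ : ∀ t, φ (φ t) ^ 2 = t)
include hφ

theorem sg_a1F (t : K) : sg hF4r isoOK_F4 hinj φ (a1F φ t) = a1F φ t := by
  unfold a1F; rw [sg_P2, hφ]

theorem sg_b1F (t : K) : sg hF4r isoOK_F4 hinj φ (b1F φ t) = b1F φ t := by
  unfold b1F; rw [sg_Q2, hφ]

omit hφ in
theorem add_sq_char2 (a b : K) : (a + b) ^ 2 = a ^ 2 + b ^ 2 := by
  have h := two_eq_zero_of_char2 (K := K)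
  linear_combination (a * b) * h

theorem ree2_aux (t u : K) : φ t ^ 2 * φ (φ t) ^ 2 + φ (φ t * t + u) ^ 2 = φ u ^ 2 := by
  rw [map_add, map_mul, add_sq_char2, mul_pow, hφ t]
  have h := two_eq_zero_of_char2 (K := K)
  linear_combination (φ t ^ 2 * t) * h

theorem sg_a2F (t u : K) : sg hF4r isoOK_F4 hinj φ (a2F φ t u) = a2F φ t u := by
  unfold a2F
  rw [sg_P4, ree2_aux φ hφ, map_pow, hφ t, hφ u]

theorem sg_b2F (t u : K) : sg hF4r isoOK_F4 hinj φ (b2F φ t u) = b2F φ t u := by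
  unfold b2F
  rw [sg_Q4, ree2_aux φ hφ, map_pow, hφ t, hφ u]

theorem reeF_le_fixR : reeF φ ≤ fixR hF4r isoOK_F4 hinj φ := by
  have hm : ∀ r (t : K), xG hF4r K r t ∈ chevF4.group K := fun r t => xG_mem_group hF4r r t
  rw [reeF, Subgroup.closure_le]
  rintro g ((⟨t, rfl⟩ | ⟨t, rfl⟩) | (⟨t, u, rfl⟩ | ⟨t, u, rfl⟩))
  · exact ⟨mul_mem (hm _ _) (hm _ _), sg_a1F hinj φ hφ t⟩
  · exact ⟨mul_mem (hm _ _) (hm _ _), sg_b1F hinj φ hφ t⟩
  · exact ⟨mul_mem (mul_mem (hm _ _) (hm _ _)) (mul_mem (hm _ _) (hm _ _)), sg_a2F hinj φ hφ t u⟩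
  · exact ⟨mul_mem (mul_mem (hm _ _) (hm _ _)) (mul_mem (hm _ _) (hm _ _)), sg_b2F hinj φ hφ t u⟩

theorem fixed_J1 [Fintype K] {g : GL chevF4.Idx K} (hg : g ∈ FUr hF4r isoOK_F4 hinj φ (nR hF4r K [0, 3])) :
    ∃ t : K, g = a1F φ t := by
  obtain ⟨t1, t2, rfl⟩ := J1_exists hg.1
  have hfix := hg.2.2
  rw [sg_P2] at hfix
  obtain ⟨h1, -⟩ := P2_inj hfix
  exact ⟨t2, by unfold a1F; rw [h1]⟩

theorem fixed_J2 [Fintype K] {g : GL chevF4.Idx K} (hg : g ∈ FUr hF4r isoOK_F4 hinj φ (nR hF4r K [1, 2, 1, 2])) :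
    ∃ t u : K, g = a2F φ t u := by
  obtain ⟨t1, t2, t3, t4, rfl⟩ := J2_exists hg.1
  have hfix := hg.2.2
  rw [sg_P4] at hfix
  obtain ⟨h1, h2, h3, -⟩ := P4_inj hfix
  refine ⟨t2, φ t4, ?_⟩
  unfold a2F
  rw [hφ t4, h1, ← h3, h2, h1]

theorem a1F_mem_FUr (t : K) : a1F φ t ∈ FUr hF4r isoOK_F4 hinj φ (nR hF4r K [0, 3]) :=
  ⟨P2_mem_Uw _ _, reeF_le_fixR hinj φ hφ (a1F_mem φ t)⟩

theorem a2F_mem_FUr (t u : K) : a2F φ t u ∈ FUr hF4r isoOK_F4 hinj φ (nR hF4r K [1, 2, 1, 2]) :=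
  ⟨P4_mem_Uw _ _ _ _, reeF_le_fixR hinj φ hφ (a2F_mem φ t u)⟩

theorem card_FUr_J1 [Fintype K] :
    Nat.card ↥(FUr hF4r isoOK_F4 hinj φ (nR hF4r K [0, 3])) = Fintype.card K ^ 1 := by
  have hb : Function.Bijective (fun t : K =>
      (⟨a1F φ t, a1F_mem_FUr hinj φ hφ t⟩ : ↥(FUr hF4r isoOK_F4 hinj φ (nR hF4r K [0, 3])))) := by
    constructor
    · intro t t' e
      exact (P2_inj (congrArg Subtype.val e)).2
    · rintro ⟨g, hg⟩
      obtain ⟨t, rfl⟩ := fixed_J1 hinj φ hφ hg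
      exact ⟨t, rfl⟩
  rw [← Nat.card_congr (Equiv.ofBijective _ hb), Nat.card_eq_fintype_card, pow_one]

theorem card_FUr_J2 [Fintype K] :
    Nat.card ↥(FUr hF4r isoOK_F4 hinj φ (nR hF4r K [1, 2, 1, 2])) = Fintype.card K ^ 2 := by
  have hb : Function.Bijective (fun p : K × K =>
      (⟨a2F φ p.1 p.2, a2F_mem_FUr hinj φ hφ p.1 p.2⟩ : ↥(FUr hF4r isoOK_F4 hinj φ (nR hF4r K [1, 2, 1, 2])))) := by
    constructor
    · rintro ⟨t, u⟩ ⟨t', u'⟩ e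
      obtain ⟨-, h2, h3, -⟩ := P4_inj (congrArg Subtype.val e)
      have h2' : t = t' := h2
      subst h2'
      have h3' : φ t * t + u = φ t * t + u' := h3
      rw [add_left_cancel h3']
    · rintro ⟨g, hg⟩
      obtain ⟨t, u, rfl⟩ := fixed_J2 hinj φ hφ hg
      exact ⟨(t, u), rfl⟩
  rw [← Nat.card_congr (Equiv.ofBijective _ hb), Nat.card_prod, Nat.card_eq_fintype_card]
  ring

end

end Cfsg.Agent.Lib.Helper8
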