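import Cfsg.Agent.Lib.Helper8.RF2

set_option autoImplicit false
set_option linter.unusedSectionVars false
set_option linter.unusedVariables false
set_option linter.unusedSimpArgs false

/-! The representatives of the two fundamental reflections lie in `²F₄`. -/

namespace Cfsg.Agent.Lib.Helper8

open Cfsg Cfsg.Lie

def f4n1L : List (ℕ × ℤ) := [(24, 1), (23, -1), (24, 1), (33, 1), (14, -1), (33, 1)]
def f4n1R : List (ℕ × ℤ) := [(33, 1), (24, 1), (14, 1), (23, 1), (33, 1), (24, 1)]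
def f4n2L : List (ℕ × ℤ) := [(25, 1), (22, -1), (25, 1), (27, 1), (20, -1), (27, 1),
  (25, 1), (22, -1), (25, 1), (27, 1), (20, -1), (27, 1)]
def f4n2R : List (ℕ × ℤ) := [(27, 1), (25, 1), (28, 1), (30, 0), (20, 0), (22, 0), (19, 1), (17, 1),
  (27, 1), (25, 1), (28, 2), (30, 1)]

theorem f4n1_chk : chkWC 2 chevF4.rank chevF4.nroots (getOf chevF4) f4n1L f4n1R = true := by decide +kernel
theorem f4n2_chk : chkWC 2 chevF4.rank chevF4.nroots (getOf chevF4) f4n2L f4n2R = true := by decide +kernel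

section
variable {K : Type*} [Field K] [CharP K 2] (φ : K →+* K)

theorem nR_J1_eq : nR hF4r K [0, 3] = a1F φ 1 * b1F φ 1 * a1F φ 1 := by
  have h := wG_eq_of_chkWC hF4r (F := K) 2 f4n1_chk
  simp only [castW, f4n1L, f4n1R, wG, List.map_cons, List.map_nil, List.prod_cons, List.prod_nil, mul_one,
    Int.cast_zero, Int.cast_one, Int.cast_neg, Int.cast_ofNat] at h
  have hn : ∀ r ∈ [33, 24], chevF4.neg r = 47 - r := by decide +kernel
  have e : nR hF4r K [0, 3] = 1 * nG hF4r K 24 1 * nG hF4r K 33 1 := rfl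
  rw [e]
  unfold a1F b1F nG
  rw [hn 33 (by simp), hn 24 (by simp)]
  simp only [map_one, inv_one, one_mul, mul_assoc, Nat.reduceSub]
  simpa only [mul_assoc] using h

theorem nR_J2_eq : nR hF4r K [1, 2, 1, 2] = a2F φ 1 0 * b2F φ 0 1 * a2F φ 1 1 := by
  have h := wG_eq_of_chkWC hF4r (F := K) 2 f4n2_chk
  simp only [castW, f4n2L, f4n2R, wG, List.map_cons, List.map_nil, List.prod_cons, List.prod_nil, mul_one,
    Int.cast_zero, Int.cast_one, Int.cast_neg, Int.cast_ofNat] at h
  have hn : ∀ r ∈ [27, 25], chevF4.neg r = 47 - r := by decide +kernel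
  have e : nR hF4r K [1, 2, 1, 2] = 1 * nG hF4r K 25 1 * nG hF4r K 27 1 * nG hF4r K 25 1 * nG hF4r K 27 1 := rfl
  rw [e]
  unfold a2F b2F P4 Q4 z2 z2n nG
  rw [hn 27 (by simp), hn 25 (by simp)]
  simp only [map_one, map_zero, inv_one, one_mul, mul_one, mul_zero, zero_add, add_zero, one_pow, mul_assoc,
    Nat.reduceSub, ne_eq, OfNat.ofNat_ne_zero, not_false_eq_true, zero_pow]
  rw [show (1 : K) + 1 = 2 by norm_num]
  simpa only [mul_assoc] using h

theorem nR_J1_mem : nR hF4r K [0, 3] ∈ reeF φ := by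
  rw [nR_J1_eq φ]
  exact mul_mem (mul_mem (a1F_mem φ _) (b1F_mem φ _)) (a1F_mem φ _)

theorem nR_J2_mem : nR hF4r K [1, 2, 1, 2] ∈ reeF φ := by
  rw [nR_J2_eq φ]
  exact mul_mem (mul_mem (a2F_mem φ _ _) (b2F_mem φ _ _)) (a2F_mem φ _ _)

def blF4 : List (List ℕ) := [[0, 3], [1, 2, 1, 2]]
def wtF4 (J : List ℕ) : ℕ := J.length / 2

theorem rblk_F4 [Fintype K] (hinj : Function.Injective (isoR1 hF4r isoOK_F4 (F := K)))
    (hφ : ∀ t, φ (φ t) ^ 2 = t) :
    RBlk hF4r isoOK_F4 hinj φ (reeF φ) blF4 (Fintype.card K) wtF4 where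
  le := reeF_le_fixR hinj φ hφ
  red := by
    intro J hJ
    simp only [blF4, List.mem_cons, List.not_mem_nil, or_false] at hJ
    rcases hJ with rfl | rfl
    · exact red_J1
    · exact red_J2
  nmem := by
    intro J hJ
    simp only [blF4, List.mem_cons, List.not_mem_nil, or_false] at hJ
    rcases hJ with rfl | rfl
    · exact nR_J1_mem φ
    · exact nR_J2_mem φ
  fu := by
    intro J hJ
    simp only [blF4, List.mem_cons, List.not_mem_nil, or_false] at hJ
    rcases hJ with rfl | rfl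
    · intro g hg
      obtain ⟨t, rfl⟩ := fixed_J1 hinj φ hφ hg
      exact a1F_mem φ t
    · intro g hg
      obtain ⟨t, u, rfl⟩ := fixed_J2 hinj φ hφ hg
      exact a2F_mem φ t u
  card := by
    intro J hJ
    simp only [blF4, List.mem_cons, List.not_mem_nil, or_false] at hJ
    rcases hJ with rfl | rfl
    · exact card_FUr_J1 hinj φ hφ
    · exact card_FUr_J2 hinj φ hφ

end

end Cfsg.Agent.Lib.Helper8
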