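import Cfsg.Agent.Lib.Helper8.RF3

set_option autoImplicit false
set_option linter.unusedSectionVars false
set_option linter.unusedVariables false

/-! The fixed points of the graph symmetry in the Weyl group of `F₄`. -/

namespace Cfsg.Agent.Lib.Helper8

open Cfsg Cfsg.Lie

def f4A : List ℕ := [0, 3]
def f4B : List ℕ := [1, 2, 1, 2]

def repsF4 : List (List (List ℕ)) :=
  [[], [f4A], [f4B], [f4A, f4B], [f4B, f4A], [f4A, f4B, f4A], [f4B, f4A, f4B], [f4A, f4B, f4A, f4B],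
   [f4B, f4A, f4B, f4A], [f4A, f4B, f4A, f4B, f4A], [f4B, f4A, f4B, f4A, f4B], [f4A, f4B, f4A, f4B, f4A, f4B],
   [f4B, f4A, f4B, f4A, f4B, f4A], [f4A, f4B, f4A, f4B, f4A, f4B, f4A], [f4B, f4A, f4B, f4A, f4B, f4A, f4B],
   [f4A, f4B, f4A, f4B, f4A, f4B, f4A, f4B]]

def f4M0 : List (List ℕ) := [f4A, f4B, f4A, f4B, f4A, f4B, f4A, f4B]

theorem repsF4_nodup : repsF4.Nodup := by decide
theorem f4M0_mem : f4M0 ∈ repsF4 := by decide
theorem f4M0_chk : chkW0 chevF4 (nrowOf chevF4) f4M0.flatten = true := by decide +kernel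

theorem repsF4_bl : ∀ M ∈ repsF4, ∀ J ∈ M, J ∈ blF4 := by decide
theorem repsF4_chkRed : ∀ M ∈ repsF4, chkRed chevF4 (nrowOf chevF4) M.flatten = true := by decide +kernel
theorem repsF4_red : ∀ M ∈ repsF4, Red chevF4 M.flatten := fun M hM => chkRed_spec hF4r (repsF4_chkRed M hM)

theorem repsF4_distinct : ∀ t ∈ repsF4, ∀ t' ∈ repsF4,
    (∀ s ∈ [33, 27, 25, 24], wR chevF4 t.flatten s = wR chevF4 t'.flatten s) → t = t' := by decide +kernel

theorem repsF4_inj : ∀ t ∈ repsF4, ∀ t' ∈ repsF4, om (sP hF4r) t.flatten = om (sP hF4r) t'.flatten → t = t' := by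
  intro t ht t' ht' e
  apply repsF4_distinct t ht t' ht'
  intro s hs
  have hs' : s < chevF4.nroots := by
    simp only [List.mem_cons, List.not_mem_nil, or_false] at hs
    rcases hs with rfl | rfl | rfl | rfl <;> decide
  exact (om_eq_iff hF4r (repsF4_red t ht).lt (repsF4_red t' ht').lt).mp e s hs'

def f4fixB (t : List ℕ) : Bool :=
  [33, 27, 25, 24].all fun s => wR chevF4 (t.map (fun i => [3, 2, 1, 0].getD i 0)) s == wR chevF4 t s
def f4matchB (t : List ℕ) : Bool :=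
  repsF4.any fun M => (List.range 48).all fun s => wR chevF4 M.flatten s == wR chevF4 t s
def f4covB : Bool :=
  (levOf chevF4 0).all fun B0 => (levOf chevF4 1).all fun B1 => (levOf chevF4 2).all fun B2 =>
    (levOf chevF4 3).all fun B3 => !(f4fixB ((([] ++ B0) ++ B1) ++ B2 ++ B3)) || f4matchB ((([] ++ B0) ++ B1) ++ B2 ++ B3)

theorem f4covB_true : f4covB = true := by decide +kernel

theorem repsF4_cover_chk : ∀ B0 ∈ levOf chevF4 0, ∀ B1 ∈ levOf chevF4 1, ∀ B2 ∈ levOf chevF4 2,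
    ∀ B3 ∈ levOf chevF4 3,
    (∀ s ∈ [33, 27, 25, 24], wR chevF4 (((([] ++ B0) ++ B1) ++ B2 ++ B3).map (fun i => [3, 2, 1, 0].getD i 0)) s =
      wR chevF4 ((([] ++ B0) ++ B1) ++ B2 ++ B3) s) →
    ∃ M ∈ repsF4, ∀ s < 48, wR chevF4 M.flatten s = wR chevF4 ((([] ++ B0) ++ B1) ++ B2 ++ B3) s := by
  intro B0 h0 B1 h1 B2 h2 B3 h3 hfix
  have h := f4covB_true
  unfold f4covB at h
  rw [List.all_eq_true] at h
  have a := h B0 h0
  rw [List.all_eq_true] at a
  have b := a B1 h1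
  rw [List.all_eq_true] at b
  have c := b B2 h2
  rw [List.all_eq_true] at c
  have d := c B3 h3
  have hf : f4fixB ((([] ++ B0) ++ B1) ++ B2 ++ B3) = true := by
    unfold f4fixB
    rw [List.all_eq_true]
    intro s hs
    rw [beq_iff_eq]
    exact hfix s hs
  rw [hf, Bool.not_true, Bool.false_or] at d
  unfold f4matchB at d
  rw [List.any_eq_true] at d
  obtain ⟨M, hM, hM2⟩ := d
  rw [List.all_eq_true] at hM2
  refine ⟨M, hM, fun s hs => ?_⟩
  have := hM2 s (List.mem_range.mpr hs)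
  rwa [beq_iff_eq] at this

theorem weylForms_F4_split {t : List ℕ} (ht : t ∈ weylForms chevF4) : ∃ B0 ∈ levOf chevF4 0, ∃ B1 ∈ levOf chevF4 1,
    ∃ B2 ∈ levOf chevF4 2, ∃ B3 ∈ levOf chevF4 3, t = (([] ++ B0) ++ B1) ++ B2 ++ B3 := by
  unfold weylForms at ht
  rw [show chevF4.rank = 3 + 1 from rfl] at ht
  obtain ⟨A3, hA3, B3, hB3, rfl⟩ := mem_normalForms_succ.mp ht
  obtain ⟨A2, hA2, B2, hB2, rfl⟩ := mem_normalForms_succ.mp hA3
  obtain ⟨A1, hA1, B1, hB1, rfl⟩ := mem_normalForms_succ.mp hA2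
  obtain ⟨A0, hA0, B0, hB0, rfl⟩ := mem_normalForms_succ.mp hA1
  have hA0' : A0 = [] := by
    rw [normalForms] at hA0
    exact Finset.mem_singleton.mp hA0
  subst hA0'
  exact ⟨B0, hB0, B1, hB1, B2, hB2, B3, hB3, rfl⟩

end Cfsg.Agent.Lib.Helper8
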