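import Cfsg.Agent.Lib.Helper8.RF4

set_option autoImplicit false
set_option linter.unusedSectionVars false
set_option linter.unusedVariables false

/-! The order of `²F₄`. -/

namespace Cfsg.Agent.Lib.Helper8

open Cfsg Cfsg.Lie

theorem repsF4_cover (L : List ℕ) (hL : ∀ i ∈ L, i < chevF4.rank)
    (h : om (sP hF4r) (L.map isoR_F4.p) = om (sP hF4r) L) :
    ∃ M ∈ repsF4.toFinset, om (sP hF4r) M.flatten = om (sP hF4r) L := by
  obtain ⟨t, ht, e⟩ := weylForms_cover hF4r L hL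
  have hred : Red chevF4 t := weylForms_red hF4r t ht
  have htl : ∀ i ∈ t, i < chevF4.rank := Red.lt hred
  have e2 : om (sP hF4r) (t.map isoR_F4.p) = om (sP hF4r) t := by
    rw [IsoR.om_map_congr hF4r isoOK_F4 isoR_F4 htl hL e, h, e]
  have e3 := (om_eq_iff hF4r (isoR_F4.map_lt htl) htl).mp e2
  obtain ⟨B0, hB0, B1, hB1, B2, hB2, B3, hB3, et⟩ := weylForms_F4_split ht
  have hfix : ∀ s ∈ [33, 27, 25, 24], wR chevF4 (t.map (fun i => [3, 2, 1, 0].getD i 0)) s = wR chevF4 t s := by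
    intro s hs
    have hs' : s < chevF4.nroots := by
      simp only [List.mem_cons, List.not_mem_nil, or_false] at hs
      rcases hs with rfl | rfl | rfl | rfl <;> decide
    exact e3 s hs'
  obtain ⟨M, hM, hM2⟩ : ∃ M ∈ repsF4, ∀ s < 48, wR chevF4 M.flatten s = wR chevF4 t s := by
    subst et
    exact repsF4_cover_chk B0 hB0 B1 hB1 B2 hB2 B3 hB3 hfix
  refine ⟨M, List.mem_toFinset.mpr hM, ?_⟩
  rw [← e]
  exact (om_eq_iff hF4r (repsF4_red M hM).lt htl).mpr hM2

end Cfsg.Agent.Lib.Helper8
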