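import Cfsg.Agent.Lib.Helper8.RF5
import Cfsg.Agent.Lib.Helper8.Misc1

set_option autoImplicit false
set_option linter.unusedSectionVars false
set_option linter.unusedVariables false
set_option linter.unusedSimpArgs false

/-! The torus of `²F₄`. -/

namespace Cfsg.Agent.Lib.Helper8

open Cfsg Cfsg.Lie

section
variable {D : ChevalleyDatum} (hD : D ∈ allData) {F : Type*} [Field F]

theorem conj_comm_x {n : GL D.Idx F} {π : ℕ → ℕ} (hn : Act hD n π) (c : ℕ → Fˣ) {s' : ℕ}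
    (hs' : s' < D.nroots) (t : F) :
    (tG D c * n * (tG D c)⁻¹ * n⁻¹) * xG hD F (π s') t * (tG D c * n * (tG D c)⁻¹ * n⁻¹)⁻¹ =
      xG hD F (π s') ((chi D c (π s') * (chi D c s')⁻¹ : Fˣ) * t) := by
  obtain ⟨κ, hκ⟩ := hn.conj s' hs'
  have e1 : xG hD F (π s') t = n * xG hD F s' ((κ⁻¹ : Fˣ) * t) * n⁻¹ := by
    rw [hκ, Units.mul_inv_cancel_left]
  have e2 : (tG D c)⁻¹ * xG hD F s' ((κ⁻¹ : Fˣ) * t) * tG D c =
      xG hD F s' (((chi D c s')⁻¹ : Fˣ) * ((κ⁻¹ : Fˣ) * t)) := by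
    have := conj_tG_x hD c hs' (((chi D c s')⁻¹ : Fˣ) * ((κ⁻¹ : Fˣ) * t))
    rw [Units.mul_inv_cancel_left] at this
    rw [← this]; group
  calc _ = tG D c * (n * ((tG D c)⁻¹ * xG hD F s' ((κ⁻¹ : Fˣ) * t) * tG D c) * n⁻¹) * (tG D c)⁻¹ := by
        rw [e1]; group
    _ = _ := by
        rw [e2, hκ, conj_tG_x hD c (hn.lt _ hs')]
        congr 1
        rw [Units.val_mul, mul_assoc]
        congr 1
        rw [mul_left_comm, Units.mul_inv_cancel_left]

end

section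
variable {D : ChevalleyDatum} (hD : D ∈ allData) {T : IsoData} (hT : IsoOK D T)
  {K : Type*} [Field K] [CharP K T.c] (hinj : Function.Injective (isoR1 hD hT (F := K))) (φ : K →+* K)

theorem diag_conj_FUr {n : GL D.Idx K} (hn : n ∈ D.monomialSubgroup K) {h u : GL D.Idx K}
    (hh : h ∈ D.diagonalSubgroup K ⊓ fixR hD hT hinj φ) (hu : u ∈ FUr hD hT hinj φ n) :
    h * u * h⁻¹ ∈ FUr hD hT hinj φ n :=
  Subgroup.mem_inf.mpr ⟨diag_conj_Uw hD hn hh.1 hu.1, mul_mem (mul_mem hh.2 hu.2) (inv_mem hh.2)⟩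

variable {G1 : Subgroup (GL D.Idx K)} {Bl : List (List ℕ)} {q : ℕ} {wt : List ℕ → ℕ}
  (B : RBlk hD hT hinj φ G1 Bl q wt)
include B

theorem RBlk.conj_n_mem {J : List ℕ} (hJ : J ∈ Bl) {a b a' : GL D.Idx K}
    (ha : a ∈ FUr hD hT hinj φ (nR hD K J))
    (hb : nR hD K J * b * (nR hD K J)⁻¹ ∈ FUr hD hT hinj φ (nR hD K J))
    (ha' : a' ∈ FUr hD hT hinj φ (nR hD K J)) (e : nR hD K J = a * b * a') {h : GL D.Idx K}
    (hh : h ∈ D.diagonalSubgroup K ⊓ fixR hD hT hinj φ) : h * nR hD K J * h⁻¹ ∈ G1 := by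
  have hm := nR_mem_mono (F := K) hD J (B.red J hJ).lt
  have hn := B.nmem J hJ
  have hnF := B.le hn
  have h1 : nR hD K J * h * (nR hD K J)⁻¹ ∈ D.diagonalSubgroup K ⊓ fixR hD hT hinj φ :=
    Subgroup.mem_inf.mpr ⟨mono_conj_diag hD hm hh.1, mul_mem (mul_mem hnF hh.2) (inv_mem hnF)⟩
  have h2 := B.fu J hJ (diag_conj_FUr hD hT hinj φ hm h1 hb)
  have h3 := B.fu J hJ (diag_conj_FUr hD hT hinj φ hm hh ha)
  have h4 := B.fu J hJ (diag_conj_FUr hD hT hinj φ hm hh ha')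
  have e2 : h * nR hD K J * h⁻¹ = (h * a * h⁻¹) * ((nR hD K J)⁻¹ * (nR hD K J * h * (nR hD K J)⁻¹ *
      (nR hD K J * b * (nR hD K J)⁻¹) * (nR hD K J * h * (nR hD K J)⁻¹)⁻¹) * nR hD K J) * (h * a' * h⁻¹) := by
    have : h * nR hD K J * h⁻¹ = h * (a * b * a') * h⁻¹ := by rw [← e]
    rw [this]; group
  rw [e2]
  exact mul_mem (mul_mem h3 (mul_mem (mul_mem (inv_mem hn) h2) hn)) h4

end

section
variable {K : Type*} [Field K]

theorem tG_F4 (c : ℕ → Kˣ) : tG chevF4 c =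
    hG hF4r K 33 (c 0 : K) * hG hF4r K 27 (c 1 : K) * hG hF4r K 25 (c 2 : K) * hG hF4r K 24 (c 3 : K) := by
  rw [tG_eq_prod hF4r c]
  have : List.range chevF4.rank = [0, 1, 2, 3] := rfl
  rw [this]
  simp only [List.map_cons, List.map_nil, List.prod_cons, List.prod_nil, mul_one, mul_assoc]
  rfl

theorem chi_F4 (c : ℕ → Kˣ) (s : ℕ) : chi chevF4 c s = c 0 ^ chevF4.cartan 0 s * c 1 ^ chevF4.cartan 1 s *
    c 2 ^ chevF4.cartan 2 s * c 3 ^ chevF4.cartan 3 s := by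
  unfold chi
  rw [show chevF4.rank = 4 from rfl, Finset.prod_range_succ, Finset.prod_range_succ, Finset.prod_range_succ,
    Finset.prod_range_one]

theorem chi_F4_44 (c : ℕ → Kˣ) : chi chevF4 c 44 = c 0 := by
  rw [chi_F4, show chevF4.cartan 0 44 = 1 by decide +kernel, show chevF4.cartan 1 44 = 0 by decide +kernel,
    show chevF4.cartan 2 44 = 0 by decide +kernel, show chevF4.cartan 3 44 = 0 by decide +kernel]; simp

theorem chi_F4_47 (c : ℕ → Kˣ) : chi chevF4 c 47 = c 3 := by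
  rw [chi_F4, show chevF4.cartan 0 47 = 0 by decide +kernel, show chevF4.cartan 1 47 = 0 by decide +kernel,
    show chevF4.cartan 2 47 = 0 by decide +kernel, show chevF4.cartan 3 47 = 1 by decide +kernel]; simp

theorem chi_F4_46 (c : ℕ → Kˣ) : chi chevF4 c 46 = c 2 * (c 3)⁻¹ := by
  rw [chi_F4, show chevF4.cartan 0 46 = 0 by decide +kernel, show chevF4.cartan 1 46 = 0 by decide +kernel,
    show chevF4.cartan 2 46 = 1 by decide +kernel, show chevF4.cartan 3 46 = -1 by decide +kernel]; simp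

theorem chi_F4_40 (c : ℕ → Kˣ) : chi chevF4 c 40 = (c 0)⁻¹ * c 1 := by
  rw [chi_F4, show chevF4.cartan 0 40 = -1 by decide +kernel, show chevF4.cartan 1 40 = 1 by decide +kernel,
    show chevF4.cartan 2 40 = 0 by decide +kernel, show chevF4.cartan 3 40 = 0 by decide +kernel]; simp

theorem chi_F4_42 (c : ℕ → Kˣ) : chi chevF4 c 42 = (c 0) ^ 2 * (c 2)⁻¹ * c 3 := by
  rw [chi_F4, show chevF4.cartan 0 42 = 2 by decide +kernel, show chevF4.cartan 1 42 = 0 by decide +kernel,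
    show chevF4.cartan 2 42 = -1 by decide +kernel, show chevF4.cartan 3 42 = 1 by decide +kernel]
  simp only [zpow_zero, mul_one, zpow_neg, zpow_one]
  norm_cast

theorem chi_of_tG_eqF {c c' : ℕ → Kˣ} (h : tG chevF4 c = tG chevF4 c') {s : ℕ} (hs : s < chevF4.nroots) :
    chi chevF4 c s = chi chevF4 c' s := by
  have h1 := conj_tG_x hF4r c hs (1 : K)
  rw [h, conj_tG_x hF4r c' hs] at h1
  have := xG_inj hF4r hs h1
  rw [mul_one, mul_one] at this
  exact (Units.ext this).symm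

theorem tG_F4_inj {c c' : ℕ → Kˣ} (h : tG chevF4 c = tG chevF4 c') :
    c 0 = c' 0 ∧ c 1 = c' 1 ∧ c 2 = c' 2 ∧ c 3 = c' 3 := by
  have h0 := chi_of_tG_eqF h (s := 44) (by decide)
  have h3 := chi_of_tG_eqF h (s := 47) (by decide)
  have h2 := chi_of_tG_eqF h (s := 46) (by decide)
  have h1 := chi_of_tG_eqF h (s := 40) (by decide)
  rw [chi_F4_44, chi_F4_44] at h0
  rw [chi_F4_47, chi_F4_47] at h3
  rw [chi_F4_46, chi_F4_46, h3] at h2
  rw [chi_F4_40, chi_F4_40, h0] at h1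
  exact ⟨h0, mul_left_cancel h1, mul_right_cancel h2, h3⟩

/-- the parameters of the torus of the large Ree group -/
noncomputable def cF (φ : K →+* K) (z : Kˣ × Kˣ) : ℕ → Kˣ := fun i =>
  if i = 0 then Units.map (φ : K →* K) z.2 else if i = 1 then Units.map (φ : K →* K) z.1
  else if i = 2 then z.1 else z.2

/-- the torus of the large Ree group -/
noncomputable def hF (φ : K →+* K) : Kˣ × Kˣ →* GL chevF4.Idx K where
  toFun z := tG chevF4 (cF φ z)
  map_one' := by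
    rw [← tG_one]
    congr 1
    funext i
    simp [cF]
  map_mul' a b := by
    rw [tG_mul]
    congr 1
    funext i
    simp only [cF, Pi.mul_apply, Prod.fst_mul, Prod.snd_mul]
    split_ifs
    · rw [map_mul]
    · rw [map_mul]
    · rfl
    · rfl

theorem hF_apply (φ : K →+* K) (z : Kˣ × Kˣ) : hF φ z = tG chevF4 (cF φ z) := rfl

theorem hF_injective (φ : K →+* K) : Function.Injective (hF φ) := by
  intro a b h
  obtain ⟨-, -, h2, h3⟩ := tG_F4_inj h
  exact Prod.ext h2 h3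

theorem hF_mem_diag (φ : K →+* K) (z : Kˣ × Kˣ) : hF φ z ∈ chevF4.diagonalSubgroup K := by
  rw [diag_eq_torus hF4r]
  exact ⟨_, rfl⟩

variable [CharP K 2] (hinj : Function.Injective (isoR1 hF4r isoOK_F4 (F := K))) (φ : K →+* K)

theorem sg_tGF (c : ℕ → Kˣ) : sg hF4r isoOK_F4 hinj φ (tG chevF4 c) =
    tG chevF4 (fun i => if i = 0 then Units.map (φ : K →* K) (c 3) else if i = 1 then Units.map (φ : K →* K) (c 2)
      else if i = 2 then (Units.map (φ : K →* K) (c 1)) ^ 2 else (Units.map (φ : K →* K) (c 0)) ^ 2) := by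
  have hm : ∀ r (t : K), hG hF4r K r t ∈ chevF4.group K := fun r t => hG_mem_group hF4r _ _
  rw [tG_F4, sg_mul hF4r isoOK_F4 hinj φ (mul_mem (mul_mem (hm _ _) (hm _ _)) (hm _ _)) (hm _ _),
    sg_mul hF4r isoOK_F4 hinj φ (mul_mem (hm _ _) (hm _ _)) (hm _ _),
    sg_mul hF4r isoOK_F4 hinj φ (hm _ _) (hm _ _),
    sg_hG hF4r isoOK_F4 hinj φ isoR_F4 isoF4_odd (by decide), sg_hG hF4r isoOK_F4 hinj φ isoR_F4 isoF4_odd (by decide),
    sg_hG hF4r isoOK_F4 hinj φ isoR_F4 isoF4_odd (by decide), sg_hG hF4r isoOK_F4 hinj φ isoR_F4 isoF4_odd (by decide)]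
  have h1 : isoF4.rho chevF4.rank 33 = 24 := by decide +kernel
  have h2 : isoF4.rho chevF4.rank 27 = 25 := by decide +kernel
  have h3 : isoF4.rho chevF4.rank 25 = 27 := by decide +kernel
  have h4 : isoF4.rho chevF4.rank 24 = 33 := by decide +kernel
  have l1 : isoF4.lamF 33 = 2 := by decide +kernel
  have l2 : isoF4.lamF 27 = 2 := by decide +kernel
  have l3 : isoF4.lamF 25 = 1 := by decide +kernel
  have l4 : isoF4.lamF 24 = 1 := by decide +kernel
  rw [h1, h2, h3, h4]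
  unfold eR
  rw [l1, l2, l3, l4, pow_one, pow_one]
  have e0 := hG_simple_eq_tG hF4r (F := K) (i := 0) (by decide) (Units.map (φ : K →* K) (c 3))
  have e1 := hG_simple_eq_tG hF4r (F := K) (i := 1) (by decide) (Units.map (φ : K →* K) (c 2))
  have e2 := hG_simple_eq_tG hF4r (F := K) (i := 2) (by decide) ((Units.map (φ : K →* K) (c 1)) ^ 2)
  have e3 := hG_simple_eq_tG hF4r (F := K) (i := 3) (by decide) ((Units.map (φ : K →* K) (c 0)) ^ 2)
  have s0 : chevF4.simple 0 = 33 := rfl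
  have s1 : chevF4.simple 1 = 27 := rfl
  have s2 : chevF4.simple 2 = 25 := rfl
  have s3 : chevF4.simple 3 = 24 := rfl
  rw [s0] at e0
  rw [s1] at e1
  rw [s2] at e2
  rw [s3] at e3
  simp only [Units.val_pow_eq_pow_val, Units.coe_map, MonoidHom.coe_coe] at e0 e1 e2 e3
  rw [e0, e1, e2, e3, tG_mul, tG_mul, tG_mul]
  apply Units.ext
  apply tMat_congr
  intro i hi
  have hi2 : i < 4 := hi
  interval_cases i <;> simp [Function.update]

variable (hφ : ∀ t, φ (φ t) ^ 2 = t)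
include hφ

theorem hF_mem_fixR (z : Kˣ × Kˣ) : hF φ z ∈ fixR hF4r isoOK_F4 hinj φ := by
  refine ⟨diag_le_group hF4r (hF_mem_diag φ z), ?_⟩
  rw [hF_apply, sg_tGF]
  apply Units.ext
  apply tMat_congr
  intro i hi
  have hi2 : i < 4 := hi
  interval_cases i
  · simp [cF]
  · simp [cF]
  · apply Units.ext
    simp only [cF]
    simp only [Units.val_pow_eq_pow_val, Units.coe_map, MonoidHom.coe_coe, if_true, if_false,
      OfNat.ofNat_ne_zero, OfNat.ofNat_ne_one, one_ne_zero]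
    exact hφ _
  · apply Units.ext
    simp only [cF]
    simp only [Units.val_pow_eq_pow_val, Units.coe_map, MonoidHom.coe_coe, if_true, if_false,
      OfNat.ofNat_ne_zero, OfNat.ofNat_ne_one, one_ne_zero]
    simp
    exact hφ _

theorem fixed_diagF {h : GL chevF4.Idx K} (hh : h ∈ chevF4.diagonalSubgroup K ⊓ fixR hF4r isoOK_F4 hinj φ) :
    ∃ z : Kˣ × Kˣ, h = hF φ z := by
  obtain ⟨h1, -, h2⟩ := hh
  rw [diag_eq_torus hF4r] at h1
  obtain ⟨c, rfl⟩ := h1
  rw [sg_tGF] at h2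
  obtain ⟨e0, e1, -, -⟩ := tG_F4_inj h2
  simp only [if_true, if_false, one_ne_zero] at e0 e1
  refine ⟨(c 2, c 3), ?_⟩
  rw [hF_apply]
  apply Units.ext
  apply tMat_congr
  intro i hi
  have hi2 : i < 4 := hi
  simp only [cF]
  interval_cases i
  · simp only [if_true]; exact e0.symm
  · simp only [if_true, if_false, one_ne_zero]; exact e1.symm
  · simp
  · simp

theorem diag_inf_fixF : chevF4.diagonalSubgroup K ⊓ fixR hF4r isoOK_F4 hinj φ = (hF φ).range := by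
  apply le_antisymm
  · intro h hh
    obtain ⟨z, rfl⟩ := fixed_diagF hinj φ hφ hh
    exact ⟨z, rfl⟩
  · rintro _ ⟨z, rfl⟩
    exact Subgroup.mem_inf.mpr ⟨hF_mem_diag φ z, hF_mem_fixR hinj φ hφ z⟩

end

end Cfsg.Agent.Lib.Helper8
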