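import Cfsg.Agent.Lib.Helper8.RF6
import Cfsg.Agent.Lib.Helper8.Simple

set_option autoImplicit false
set_option linter.unusedSectionVars false
set_option linter.unusedVariables false
set_option linter.unusedSimpArgs false

/-! `²F₄` is the group of all fixed points. -/

namespace Cfsg.Agent.Lib.Helper8

open Cfsg Cfsg.Lie

theorem comm_chi {D : ChevalleyDatum} (hD : D ∈ allData) {F : Type*} [Field F] {n : GL D.Idx F} {π : ℕ → ℕ}
    (hn : Act hD n π) {c c' : ℕ → Fˣ} (e : tG D c * n * (tG D c)⁻¹ * n⁻¹ = tG D c') {s' : ℕ}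
    (hs' : s' < D.nroots) : chi D c' (π s') = chi D c (π s') * (chi D c s')⁻¹ := by
  have h1 := conj_comm_x hD hn c hs' 1
  rw [e, conj_tG_x hD c' (hn.lt _ hs')] at h1
  have := xG_inj hD (hn.lt _ hs') h1
  rw [mul_one, mul_one] at this
  exact Units.ext this

theorem F4_isoR1_inj {K : Type*} [Field K] [CharP K 2] : Function.Injective (isoR1 hF4r isoOK_F4 (F := K)) :=
  isoR1_injective (F := K) hF4r isoOK_F4 (group_simple hF4r (by
    rintro (h | h) <;> exact absurd (congrArg ChevalleyDatum.rank h) (by decide))).1 isoW_F4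

theorem repsF4_hR : ∀ M ∈ repsF4.toFinset, (∀ J ∈ M, J ∈ blF4) ∧ Red chevF4 M.flatten := fun M hM =>
  ⟨repsF4_bl M (List.mem_toFinset.mp hM), repsF4_red M (List.mem_toFinset.mp hM)⟩

theorem card_hF_range {K : Type*} [Field K] [Fintype K] (φ : K →+* K) : Nat.card ↥(hF φ).range = (Fintype.card K - 1) ^ 2 := by
  classical
  rw [← Nat.card_congr (MonoidHom.ofInjective (hF_injective φ)).toEquiv, Nat.card_eq_fintype_card,
    Fintype.card_prod, Fintype.card_units, sq]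

section
variable {K : Type*} [Field K] [CharP K 2] (hinj : Function.Injective (isoR1 hF4r isoOK_F4 (F := K)))
  (φ : K →+* K) (hφ : ∀ t, φ (φ t) ^ 2 = t)
include hinj hφ

theorem conj_J1_b1F (t : K) : nR hF4r K [0, 3] * b1F φ t * (nR hF4r K [0, 3])⁻¹ ∈
    FUr hF4r isoOK_F4 hinj φ (nR hF4r K [0, 3]) := by
  have hn := reeF_le_fixR hinj φ hφ (nR_J1_mem φ)
  refine Subgroup.mem_inf.mpr ⟨?_, mul_mem (mul_mem hn (reeF_le_fixR hinj φ hφ (b1F_mem φ t))) (inv_mem hn)⟩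
  rw [Uw_J1]
  have A := act_nR hF4r (F := K) [0, 3] (by decide)
  obtain ⟨κ1, h1⟩ := A.conj 14 (by decide)
  obtain ⟨κ2, h2⟩ := A.conj 23 (by decide)
  have w1 : wR chevF4 [0, 3] 14 = 33 := by decide +kernel
  have w2 : wR chevF4 [0, 3] 23 = 24 := by decide +kernel
  rw [w1] at h1
  rw [w2] at h2
  have e : nR hF4r K [0, 3] * b1F φ t * (nR hF4r K [0, 3])⁻¹ =
      (nR hF4r K [0, 3] * xG hF4r K 14 (φ t) * (nR hF4r K [0, 3])⁻¹) *
      (nR hF4r K [0, 3] * xG hF4r K 23 t * (nR hF4r K [0, 3])⁻¹) := by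
    unfold b1F; group
  rw [e, h1, h2]
  exact mul_mem (xG_mem_NL hF4r (by simp) _) (xG_mem_NL hF4r (by simp) _)

theorem conj_J2_b2F (t u : K) : nR hF4r K [1, 2, 1, 2] * b2F φ t u * (nR hF4r K [1, 2, 1, 2])⁻¹ ∈
    FUr hF4r isoOK_F4 hinj φ (nR hF4r K [1, 2, 1, 2]) := by
  have hn := reeF_le_fixR hinj φ hφ (nR_J2_mem φ)
  refine Subgroup.mem_inf.mpr ⟨?_, mul_mem (mul_mem hn (reeF_le_fixR hinj φ hφ (b2F_mem φ t u))) (inv_mem hn)⟩
  rw [Uw_J2]
  have A := act_nR hF4r (F := K) [1, 2, 1, 2] (by decide)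
  obtain ⟨κ1, h1⟩ := A.conj 20 (by decide)
  obtain ⟨κ2, h2⟩ := A.conj 22 (by decide)
  obtain ⟨κ3, h3⟩ := A.conj 19 (by decide)
  obtain ⟨κ4, h4⟩ := A.conj 17 (by decide)
  have w1 : wR chevF4 [1, 2, 1, 2] 20 = 27 := by decide +kernel
  have w2 : wR chevF4 [1, 2, 1, 2] 22 = 25 := by decide +kernel
  have w3 : wR chevF4 [1, 2, 1, 2] 19 = 28 := by decide +kernel
  have w4 : wR chevF4 [1, 2, 1, 2] 17 = 30 := by decide +kernel
  rw [w1] at h1
  rw [w2] at h2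
  rw [w3] at h3
  rw [w4] at h4
  have e : ∀ t1 t2 t3 t4 : K, nR hF4r K [1, 2, 1, 2] * Q4 K t1 t2 t3 t4 * (nR hF4r K [1, 2, 1, 2])⁻¹ =
      (nR hF4r K [1, 2, 1, 2] * xG hF4r K 20 t1 * (nR hF4r K [1, 2, 1, 2])⁻¹) *
      (nR hF4r K [1, 2, 1, 2] * xG hF4r K 22 t2 * (nR hF4r K [1, 2, 1, 2])⁻¹) *
      ((nR hF4r K [1, 2, 1, 2] * xG hF4r K 19 t3 * (nR hF4r K [1, 2, 1, 2])⁻¹) *
      (nR hF4r K [1, 2, 1, 2] * xG hF4r K 17 t4 * (nR hF4r K [1, 2, 1, 2])⁻¹)) := by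
    intro t1 t2 t3 t4
    unfold Q4 z2n; group
  unfold b2F
  rw [e, h1, h2, h3, h4]
  exact mul_mem (mul_mem (xG_mem_NL hF4r (by simp) _) (xG_mem_NL hF4r (by simp) _))
    (mul_mem (xG_mem_NL hF4r (by simp) _) (xG_mem_NL hF4r (by simp) _))

variable [Fintype K]

theorem comm_J1_mem {h : GL chevF4.Idx K} (hh : h ∈ chevF4.diagonalSubgroup K ⊓ fixR hF4r isoOK_F4 hinj φ) :
    h * nR hF4r K [0, 3] * h⁻¹ * (nR hF4r K [0, 3])⁻¹ ∈ reeF φ :=
  mul_mem ((rblk_F4 φ hinj hφ).conj_n_mem hF4r isoOK_F4 hinj φ (J := [0, 3]) (by simp [blF4])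
    (a1F_mem_FUr hinj φ hφ 1) (conj_J1_b1F hinj φ hφ 1) (a1F_mem_FUr hinj φ hφ 1) (nR_J1_eq φ) hh)
    (inv_mem (nR_J1_mem φ))

theorem comm_J2_mem {h : GL chevF4.Idx K} (hh : h ∈ chevF4.diagonalSubgroup K ⊓ fixR hF4r isoOK_F4 hinj φ) :
    h * nR hF4r K [1, 2, 1, 2] * h⁻¹ * (nR hF4r K [1, 2, 1, 2])⁻¹ ∈ reeF φ :=
  mul_mem ((rblk_F4 φ hinj hφ).conj_n_mem hF4r isoOK_F4 hinj φ (J := [1, 2, 1, 2]) (by simp [blF4])
    (a2F_mem_FUr hinj φ hφ 1 0) (conj_J2_b2F hinj φ hφ 0 1) (a2F_mem_FUr hinj φ hφ 1 1) (nR_J2_eq φ) hh)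
    (inv_mem (nR_J2_mem φ))

theorem comm_exists {L : List ℕ} (hL : ∀ i ∈ L, i < chevF4.rank) (z : Kˣ × Kˣ)
    (hm : hF φ z * nR hF4r K L * (hF φ z)⁻¹ * (nR hF4r K L)⁻¹ ∈ reeF φ) :
    ∃ z' : Kˣ × Kˣ, hF φ z * nR hF4r K L * (hF φ z)⁻¹ * (nR hF4r K L)⁻¹ = hF φ z' := by
  apply fixed_diagF hinj φ hφ
  refine Subgroup.mem_inf.mpr ⟨?_, reeF_le_fixR hinj φ hφ hm⟩
  have := mul_mem (hF_mem_diag φ z) (mono_conj_diag hF4r (nR_mem_mono (F := K) hF4r L hL)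
    (inv_mem (hF_mem_diag φ z)))
  simpa only [mul_assoc] using this

theorem hF_snd_mem (c : Kˣ) : hF φ (1, c⁻¹) ∈ reeF φ := by
  have hm := comm_J1_mem hinj φ hφ (Subgroup.mem_inf.mpr ⟨hF_mem_diag φ (c, 1), hF_mem_fixR hinj φ hφ (c, 1)⟩)
  obtain ⟨z', e⟩ := comm_exists hinj φ hφ (by decide) (c, 1) hm
  have A := act_nR hF4r (F := K) [0, 3] (by decide)
  have w1 : wR chevF4 [0, 3] 46 = 47 := by decide +kernel
  have w2 : wR chevF4 [0, 3] 47 = 46 := by decide +kernel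
  have e1 := comm_chi hF4r A e (s' := 46) (by decide)
  have e2 := comm_chi hF4r A e (s' := 47) (by decide)
  rw [w1, chi_F4_47, chi_F4_47, chi_F4_46] at e1
  rw [w2, chi_F4_47, chi_F4_46, chi_F4_46] at e2
  simp [cF] at e1 e2
  have : z' = (1, c⁻¹) := by
    apply Prod.ext
    · show z'.1 = 1
      rw [e1] at e2
      simpa using e2
    · exact e1
  rw [← this, ← e]
  exact hm

theorem hF_fst_sq_mem (c : Kˣ) : hF φ (c ^ 2, 1) ∈ reeF φ := by
  have hm := comm_J2_mem hinj φ hφ (Subgroup.mem_inf.mpr ⟨hF_mem_diag φ (c, 1), hF_mem_fixR hinj φ hφ (c, 1)⟩)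
  obtain ⟨z', e⟩ := comm_exists hinj φ hφ (by decide) (c, 1) hm
  have A := act_nR hF4r (F := K) [1, 2, 1, 2] (by decide)
  have w1 : wR chevF4 [1, 2, 1, 2] 47 = 47 := by decide +kernel
  have w2 : wR chevF4 [1, 2, 1, 2] 42 = 46 := by decide +kernel
  have e1 := comm_chi hF4r A e (s' := 47) (by decide)
  have e2 := comm_chi hF4r A e (s' := 42) (by decide)
  rw [w1, chi_F4_47, chi_F4_47] at e1
  rw [w2, chi_F4_46, chi_F4_46, chi_F4_42] at e2
  simp [cF] at e1 e2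
  have : z' = (c ^ 2, 1) := by
    apply Prod.ext
    · show z'.1 = c ^ 2
      rw [e1] at e2
      rw [sq]
      simpa using e2
    · exact e1
  rw [← this, ← e]
  exact hm

theorem hF_mem_reeF (z : Kˣ × Kˣ) : hF φ z ∈ reeF φ := by
  have h1 := hF_snd_mem hinj φ hφ z.2⁻¹
  have h2 := hF_fst_sq_mem hinj φ hφ (Units.map (φ : K →* K) (Units.map (φ : K →* K) z.1))
  have e1 : (Units.map (φ : K →* K) (Units.map (φ : K →* K) z.1)) ^ 2 = z.1 := by
    apply Units.ext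
    simp only [Units.val_pow_eq_pow_val, Units.coe_map, MonoidHom.coe_coe]
    exact hφ _
  rw [e1] at h2
  rw [inv_inv] at h1
  have := mul_mem h2 h1
  rw [← map_mul] at this
  simpa using this

theorem diag_fix_le_reeF : chevF4.diagonalSubgroup K ⊓ fixR hF4r isoOK_F4 hinj φ ≤ reeF φ := by
  intro h hh
  obtain ⟨z, rfl⟩ := fixed_diagF hinj φ hφ hh
  exact hF_mem_reeF hinj φ hφ z

theorem reeF_eq_fixR : reeF φ = fixR hF4r isoOK_F4 hinj φ :=
  fixR_eq_G1 hF4r isoOK_F4 hinj φ isoR_F4 isoF4_odd (rblk_F4 φ hinj hφ) repsF4.toFinset repsF4_hR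
    repsF4_cover (List.mem_toFinset.mpr f4M0_mem) f4M0_chk (diag_fix_le_reeF hinj φ hφ)

theorem diag_inf_reeF : chevF4.diagonalSubgroup K ⊓ reeF φ = (hF φ).range := by
  rw [reeF_eq_fixR hinj φ hφ, diag_inf_fixF hinj φ hφ]

theorem card_posU_reeF : Nat.card ↥(chevF4.posUnipotent K ⊓ reeF φ) = Fintype.card K ^ 12 := by
  rw [reeF_eq_fixR hinj φ hφ, card_posU_fixR hF4r isoOK_F4 hinj φ isoR_F4 isoF4_odd (rblk_F4 φ hinj hφ)
    repsF4.toFinset repsF4_hR repsF4_cover (List.mem_toFinset.mpr f4M0_mem) f4M0_chk]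
  rfl

theorem card_reeF : Nat.card ↥(reeF φ) = Fintype.card K ^ 12 * (Fintype.card K - 1) ^ 2 *
    ((1 + Fintype.card K) * (1 + Fintype.card K ^ 2) *
      (1 + Fintype.card K ^ 3 + Fintype.card K ^ 6 + Fintype.card K ^ 9)) := by
  rw [reeF_eq_fixR hinj φ hφ, card_fixR hF4r isoOK_F4 hinj φ isoR_F4 isoF4_odd (rblk_F4 φ hinj hφ)
    repsF4.toFinset repsF4_hR repsF4_cover (List.mem_toFinset.mpr f4M0_mem) f4M0_chk
    (fun t ht t' ht' => repsF4_inj t (List.mem_toFinset.mp ht) t' (List.mem_toFinset.mp ht')),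
    diag_inf_fixF hinj φ hφ, card_hF_range φ, List.sum_toFinset _ repsF4_nodup]
  congr 1
  generalize Fintype.card K = q
  simp only [repsF4, f4A, f4B, wtF4, List.map_cons, List.map_nil, List.sum_cons, List.sum_nil, List.length_cons,
    List.length_nil]
  ring

end

theorem charP2_of_card {K : Type*} [Field K] [Fintype K] {n : ℕ} (hn : n ≠ 0) (hK : Fintype.card K = 2 ^ n) :
    CharP K 2 := by
  obtain ⟨p, hp⟩ := CharP.exists K
  obtain ⟨k, hpp, hk⟩ := FiniteField.card K p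
  have h1 : 2 ∣ p ^ (k : ℕ) := by
    rw [← hk, hK]
    exact dvd_pow_self 2 hn
  have h2 : 2 = p := (Nat.prime_dvd_prime_iff_eq Nat.prime_two hpp).mp (Nat.prime_two.dvd_of_dvd_pow h1)
  subst h2
  exact hp

/-- the set-up for `²F₄(2^(2m+1))` -/
theorem setup_reeF {K : Type*} [Field K] [Fintype K] {m : ℕ} (hK : Fintype.card K = 2 ^ (2 * m + 1)) :
    ∃ (_ : CharP K 2) (φ : K →+* K), (∀ t, φ t = t ^ 2 ^ m) ∧ (∀ t, φ (φ t) ^ 2 = t) ∧
      twistedF4 K (2 ^ m) = reeF φ := by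
  have hc : CharP K 2 := charP2_of_card (by omega) hK
  have : Fact (Nat.Prime 2) := ⟨Nat.prime_two⟩
  refine ⟨hc, iterateFrobenius K 2 m, fun t => iterateFrobenius_def 2 m t, fun t => ?_,
    twistedF4_eq _ (fun t => iterateFrobenius_def 2 m t)⟩
  rw [iterateFrobenius_def, iterateFrobenius_def, ← pow_mul, ← pow_mul]
  have : 2 ^ m * (2 ^ m * 2) = Fintype.card K := by rw [hK]; ring
  rw [this, FiniteField.pow_card]

end Cfsg.Agent.Lib.Helper8
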