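import Cfsg.Agent.Lib.Helper8.RF7

set_option autoImplicit false
set_option linter.unusedSectionVars false
set_option linter.unusedVariables false
set_option linter.unusedSimpArgs false

/-! The Weyl group of `²F₄` is dihedral of order 16. -/

namespace Cfsg.Agent.Lib.Helper8

open Cfsg Cfsg.Lie

theorem Act.congrF {D : ChevalleyDatum} {hD : D ∈ allData} {F : Type*} [Field F] {m : GL D.Idx F} {π π' : ℕ → ℕ}
    (h : Act hD m π) (e : ∀ s < D.nroots, π s = π' s) : Act hD m π' := by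
  refine ⟨fun s hs => by rw [← e s hs]; exact h.lt s hs, fun s hs => ?_, fun s hs => ?_⟩
  · rw [← e s hs, ← e _ (neg_lt' hD _ hs)]; exact h.neg s hs
  · rw [← e s hs]; exact h.conj s hs

/-- an orbit of the Weyl group of `²F₄`, in cyclic order -/
def octL : List ℕ := [24, 43, 45, 32, 23, 4, 2, 15]

/-- the element of the dihedral group, from the action on the octagon -/
def decD (π : ℕ → ℕ) : DihedralGroup 8 :=
  if octL.idxOf (π 43) = (octL.idxOf (π 24) + 1) % 8 then DihedralGroup.r (-(octL.idxOf (π 24) : ZMod 8))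
  else DihedralGroup.sr (octL.idxOf (π 24) : ZMod 8)

theorem decD_congr {π π' : ℕ → ℕ} (e : ∀ s < chevF4.nroots, π s = π' s) : decD π = decD π' := by
  unfold decD
  rw [e 43 (by decide), e 24 (by decide)]

theorem decD_id : decD id = 1 := by decide +kernel

theorem decD_mul : ∀ M ∈ repsF4, ∀ M' ∈ repsF4,
    decD (wR chevF4 M.flatten ∘ wR chevF4 M'.flatten) =
      decD (wR chevF4 M.flatten) * decD (wR chevF4 M'.flatten) := by decide +kernel

theorem decD_one : ∀ M ∈ repsF4, decD (wR chevF4 M.flatten) = 1 → M = [] := by decide +kernel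

theorem decD_surj : ∀ d : DihedralGroup 8, ∃ M ∈ repsF4, decD (wR chevF4 M.flatten) = d := by decide +kernel

section
variable {K : Type*} [Field K]

/-- the action of a monomial element on the roots -/
noncomputable def actF (n : GL chevF4.Idx K) : ℕ → ℕ :=
  open Classical in if h : ∃ π, Act hF4r n π then h.choose else id

theorem decD_actF {n : GL chevF4.Idx K} {π : ℕ → ℕ} (h : Act hF4r n π) : decD (actF n) = decD π := by
  apply decD_congr
  have h1 : ∃ π, Act hF4r n π := ⟨π, h⟩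
  unfold actF
  rw [dif_pos h1]
  exact Act.unique h1.choose_spec h

variable [CharP K 2] (hinj : Function.Injective (isoR1 hF4r isoOK_F4 (F := K))) (φ : K →+* K)

theorem mono_fix_act {n : GL chevF4.Idx K} (hn : n ∈ chevF4.monomialSubgroup K ⊓ fixR hF4r isoOK_F4 hinj φ) :
    ∃ M ∈ repsF4, Act hF4r n (wR chevF4 M.flatten) ∧
      ∃ h ∈ chevF4.diagonalSubgroup K, n = h * nR hF4r K M.flatten := by
  obtain ⟨h1, h2, h3⟩ := hn
  obtain ⟨h, hh, L, hL, rfl⟩ := mem_mono hF4r h1
  have hhG := diag_le_group hF4r hh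
  have hmG := mono_le_group hF4r (nR_mem_mono (F := K) hF4r L hL)
  rw [sg_mul hF4r isoOK_F4 hinj φ hhG hmG, sg_nR hF4r isoOK_F4 hinj φ isoR_F4 isoF4_odd L hL] at h3
  have e1 : om (sP hF4r) (L.map isoR_F4.p) = om (sP hF4r) L := by
    apply om_of_nR_eq (F := K) hF4r (isoR_F4.map_lt hL) hL
    refine ⟨(sg hF4r isoOK_F4 hinj φ h)⁻¹ * h,
      mul_mem (inv_mem (sg_mem_diag hF4r isoOK_F4 hinj φ isoR_F4 isoF4_odd hh)) hh, ?_⟩
    rw [mul_assoc, ← h3]; group
  obtain ⟨M, hM, e2⟩ := repsF4_cover L hL e1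
  have hM' := List.mem_toFinset.mp hM
  have hMl := (repsF4_red M hM').lt
  obtain ⟨h4, hh4, e4⟩ := nR_eq_of_om (F := K) hF4r hL hMl e2.symm
  have hd : h * h4 ∈ chevF4.diagonalSubgroup K := mul_mem hh hh4
  refine ⟨M, hM', ?_, h * h4, hd, by rw [e4, mul_assoc]⟩
  rw [e4, ← mul_assoc]
  rw [diag_eq_torus hF4r] at hd
  obtain ⟨c, hc⟩ := hd
  rw [← hc]
  exact (act_tG hF4r c).mul (act_nR hF4r _ hMl)

/-- the homomorphism onto the dihedral group -/
noncomputable def dihF : ↥(chevF4.monomialSubgroup K ⊓ fixR hF4r isoOK_F4 hinj φ) →* DihedralGroup 8 where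
  toFun n := decD (actF n.1)
  map_one' := by
    have : Act hF4r (1 : GL chevF4.Idx K) id := by
      have := act_tG hF4r (F := K) 1
      rwa [tG_one] at this
    show decD (actF (1 : GL chevF4.Idx K)) = 1
    rw [decD_actF this, decD_id]
  map_mul' a b := by
    obtain ⟨M, hM, hA, -⟩ := mono_fix_act hinj φ a.2
    obtain ⟨M', hM', hA', -⟩ := mono_fix_act hinj φ b.2
    show decD (actF (a.1 * b.1)) = decD (actF a.1) * decD (actF b.1)
    rw [decD_actF (hA.mul hA'), decD_actF hA, decD_actF hA', decD_mul M hM M' hM']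

theorem dihF_ker : (dihF hinj φ).ker = (chevF4.diagonalSubgroup K ⊓ fixR hF4r isoOK_F4 hinj φ).subgroupOf
    (chevF4.monomialSubgroup K ⊓ fixR hF4r isoOK_F4 hinj φ) := by
  ext ⟨n, hn⟩
  rw [MonoidHom.mem_ker, Subgroup.mem_subgroupOf]
  show decD (actF n) = 1 ↔ n ∈ _
  constructor
  · intro h
    obtain ⟨M, hM, hA, h', hh', e⟩ := mono_fix_act hinj φ hn
    rw [decD_actF hA] at h
    have := decD_one M hM h
    subst this
    have e2 : n = h' := by rw [e]; simp [nR]
    exact Subgroup.mem_inf.mpr ⟨by rw [e2]; exact hh', hn.2⟩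
  · intro h
    have h1 := h.1
    rw [diag_eq_torus hF4r] at h1
    obtain ⟨c, rfl⟩ := h1
    rw [decD_actF (act_tG hF4r c), decD_id]

variable (hφ : ∀ t, φ (φ t) ^ 2 = t)
include hφ

theorem dihF_surjective [Fintype K] : Function.Surjective (dihF hinj φ) := by
  intro d
  obtain ⟨M, hM, e⟩ := decD_surj d
  have hMl := (repsF4_red M hM).lt
  have h1 : nR hF4r K M.flatten ∈ fixR hF4r isoOK_F4 hinj φ :=
    (rblk_F4 φ hinj hφ).le ((rblk_F4 φ hinj hφ).nR_flatten_mem hF4r isoOK_F4 hinj φ (repsF4_bl M hM))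
  refine ⟨⟨nR hF4r K M.flatten, Subgroup.mem_inf.mpr ⟨nR_mem_mono hF4r _ hMl, h1⟩⟩, ?_⟩
  show decD (actF (nR hF4r K M.flatten)) = d
  rw [decD_actF (act_nR hF4r _ hMl), e]

include hinj in
theorem exists_dihF [Fintype K] : ∃ ψ : ↥(chevF4.monomialSubgroup K ⊓ reeF φ) →* DihedralGroup 8,
    Function.Surjective ψ ∧ ψ.ker = (chevF4.diagonalSubgroup K ⊓ reeF φ).subgroupOf
      (chevF4.monomialSubgroup K ⊓ reeF φ) := by
  rw [reeF_eq_fixR hinj φ hφ]
  exact ⟨dihF hinj φ, dihF_surjective hinj φ hφ, dihF_ker hinj φ⟩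

end

end Cfsg.Agent.Lib.Helper8
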