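import Cfsg.Agent.Lib.Helper8.RT2
import Cfsg.Agent.Lib.Helper8.Misc1

set_option autoImplicit false
set_option linter.unusedSectionVars false
set_option linter.unusedVariables false

/-! Fixed points of `σ`: the (B,N)-pair. -/

namespace Cfsg.Agent.Lib.Helper8

open Cfsg Cfsg.Lie

section
variable {D : ChevalleyDatum} (hD : D ∈ allData) {T : IsoData} (hT : IsoOK D T) {p0 : List ℕ}
  {K : Type*} [Field K] [CharP K T.c] (hinj : Function.Injective (isoR1 hD hT (F := K))) (φ : K →+* K)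
  (R : IsoR D T p0) (hodd : ∀ r, (-1 : K) ^ T.lamF r = -1)

local notation "σ" => sg hD hT hinj φ
local notation "Fx" => fixR hD hT hinj φ

include R in
theorem U1_splitR {J : List ℕ} (hJ : Red D J) (hnJ : nR hD K J ∈ Fx) {u : GL D.Idx K}
    (hu : u ∈ D.posUnipotent K ⊓ Fx) :
    ∃ a ∈ D.posUnipotent K ⊓ Fx, ∃ c ∈ FUr hD hT hinj φ (nR hD K J),
      nR hD K J * a * (nR hD K J)⁻¹ ∈ D.posUnipotent K ⊓ Fx ∧ u = a * c := by
  obtain ⟨a, ha, c, hc, hna, e⟩ := Uw_factor (F := K) hD hJ hu.1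
  have haG := posU_le_group hD ha
  have hcU := Uw_le_posU _ hc
  have hcG := posU_le_group hD hcU
  have hu2 : σ u = u := hu.2.2
  have hsc := sg_mem_Uw hD hT hinj φ R hJ hnJ hc
  have h1 : σ a * σ c = a * c := by rw [← sg_mul hD hT hinj φ haG hcG, ← e, hu2]
  have e1 : a⁻¹ * σ a = c * (σ c)⁻¹ := by
    have h2 : σ a = a * c * (σ c)⁻¹ := by rw [← h1]; group
    rw [h2]; group
  have e2 : nR hD K J * (a⁻¹ * σ a) * (nR hD K J)⁻¹ = 1 := by
    apply eq_one_of_posU_negU hD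
    · have h3 : nR hD K J * (a⁻¹ * σ a) * (nR hD K J)⁻¹ =
          (nR hD K J * a * (nR hD K J)⁻¹)⁻¹ * σ (nR hD K J * a * (nR hD K J)⁻¹) := by
        rw [sg_mul hD hT hinj φ (mul_mem hnJ.1 haG) (inv_mem hnJ.1), sg_mul hD hT hinj φ hnJ.1 haG,
          sg_inv hD hT hinj φ hnJ.1, hnJ.2]
        group
      rw [h3]
      exact mul_mem (inv_mem hna) (sg_mem_posU hD hT hinj φ R hna)
    · rw [e1]
      exact conj_Uw_mem_negU (mul_mem hc (inv_mem hsc))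
  have e3 : a⁻¹ * σ a = 1 := by
    have := congrArg (fun z => (nR hD K J)⁻¹ * z * nR hD K J) e2
    simpa [mul_assoc] using this
  have e4 : σ a = a := by
    have := congrArg (fun z => a * z) e3
    simpa using this
  have e5 : σ c = c := by
    rw [e3] at e1
    have := congrArg (fun z => z * σ c) e1
    simpa using this
  have haF : a ∈ Fx := ⟨haG, e4⟩
  exact ⟨a, Subgroup.mem_inf.mpr ⟨ha, haF⟩, c, Subgroup.mem_inf.mpr ⟨hc, ⟨hcG, e5⟩⟩,
    Subgroup.mem_inf.mpr ⟨hna, mul_mem (mul_mem hnJ haF) (inv_mem hnJ)⟩, e⟩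

include R hodd in
/-- the double coset axiom -/
theorem rt_axiom {J : List ℕ} (hJ : Red D J) (hnJ : nR hD K J ∈ Fx)
    (hsq : nR hD K J * nR hD K J ∈ D.diagonalSubgroup K)
    (hrk : ∀ x ∈ FUr hD hT hinj φ (nR hD K J), x ≠ 1 → ∃ b ∈ D.borelSubgroup K ⊓ Fx,
      ∃ x2 ∈ FUr hD hT hinj φ (nR hD K J), nR hD K J * x * (nR hD K J)⁻¹ = b * nR hD K J * x2)
    {n b : GL D.Idx K} (hn : n ∈ D.monomialSubgroup K ⊓ Fx)
    (hsign : (∀ x ∈ Uw D K (nR hD K J), n⁻¹ * x * n ∈ D.posUnipotent K) ∨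
      (∀ x ∈ Uw D K (nR hD K J), (nR hD K J * n)⁻¹ * x * (nR hD K J * n) ∈ D.posUnipotent K))
    (hb : b ∈ D.borelSubgroup K ⊓ Fx) :
    (∃ b1 ∈ D.borelSubgroup K ⊓ Fx, ∃ b2 ∈ D.borelSubgroup K ⊓ Fx,
      nR hD K J * b * n = b1 * (nR hD K J * n) * b2) ∨
    (∃ b1 ∈ D.borelSubgroup K ⊓ Fx, ∃ b2 ∈ D.borelSubgroup K ⊓ Fx, nR hD K J * b * n = b1 * n * b2) := by
  obtain ⟨u, hu, h, hh, e6, rfl⟩ := fixed_borelR hD hT hinj φ R hodd hb.1 (one_mem _)
    (by rw [mul_one]; exact hb.2.2)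
  have hhF : h ∈ Fx := ⟨diag_le_group hD hh, by simpa using e6⟩
  obtain ⟨a, ha, x, hx, hna, rfl⟩ := U1_splitR hD hT hinj φ R hJ hnJ hu
  have hnF := hn.2
  have hUB : ∀ {g : GL D.Idx K}, g ∈ D.posUnipotent K → g ∈ Fx → g ∈ D.borelSubgroup K ⊓ Fx :=
    fun h1 h2 => Subgroup.mem_inf.mpr ⟨posU_le_borel hD h1, h2⟩
  have hhn : n⁻¹ * h * n ∈ D.borelSubgroup K ⊓ Fx := by
    refine Subgroup.mem_inf.mpr ⟨?_, mul_mem (mul_mem (inv_mem hnF) hhF) hnF⟩
    have := mono_conj_diag hD (inv_mem hn.1) hh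
    rw [inv_inv] at this
    exact diag_le_borel hD this
  have hna' := hUB hna.1 hna.2
  rcases hsign with hs | hs
  · left
    refine ⟨_, hna', (n⁻¹ * x * n) * (n⁻¹ * h * n),
      mul_mem (hUB (hs x hx.1) (mul_mem (mul_mem (inv_mem hnF) hx.2) hnF)) hhn, ?_⟩
    group
  · by_cases hx1 : x = 1
    · left
      subst hx1
      refine ⟨_, hna', _, hhn, ?_⟩
      group
    · right
      obtain ⟨b0, hb0, x2, hx2, e⟩ := hrk x hx hx1
      have e' : nR hD K J * x = b0 * nR hD K J * x2 * nR hD K J := by rw [← e]; group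
      have hsq' : nR hD K J * nR hD K J ∈ D.borelSubgroup K ⊓ Fx :=
        Subgroup.mem_inf.mpr ⟨diag_le_borel hD hsq, mul_mem hnJ hnJ⟩
      have hJn : nR hD K J * n ∈ Fx := mul_mem hnJ hnF
      refine ⟨(nR hD K J * a * (nR hD K J)⁻¹) * b0 * (nR hD K J * nR hD K J),
        mul_mem (mul_mem hna' hb0) hsq',
        ((nR hD K J * n)⁻¹ * x2 * (nR hD K J * n)) * (n⁻¹ * h * n),
        mul_mem (hUB (hs x2 hx2.1) (mul_mem (mul_mem (inv_mem hJn) hx2.2) hJn)) hhn, ?_⟩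
      have e2 : nR hD K J * (a * x * h) * n = (nR hD K J * a * (nR hD K J)⁻¹) * (nR hD K J * x) * h * n := by
        group
      rw [e2, e']
      group

end

/-- the hypotheses for the (B,N)-pair of the group of fixed points -/
structure RBN {D : ChevalleyDatum} (hD : D ∈ allData) {T : IsoData} (hT : IsoOK D T)
    {K : Type*} [Field K] [CharP K T.c] (hinj : Function.Injective (isoR1 hD hT (F := K))) (φ : K →+* K)
    (Bl : List (List ℕ)) : Prop where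
  red : ∀ J ∈ Bl, Red D J
  nmem : ∀ J ∈ Bl, nR hD K J ∈ fixR hD hT hinj φ
  sq : ∀ J ∈ Bl, nR hD K J * nR hD K J ∈ D.diagonalSubgroup K
  rk : ∀ J ∈ Bl, ∀ x ∈ FUr hD hT hinj φ (nR hD K J), x ≠ 1 → ∃ b ∈ D.borelSubgroup K ⊓ fixR hD hT hinj φ,
      ∃ x2 ∈ FUr hD hT hinj φ (nR hD K J), nR hD K J * x * (nR hD K J)⁻¹ = b * nR hD K J * x2
  sign : ∀ J ∈ Bl, ∀ n ∈ D.monomialSubgroup K ⊓ fixR hD hT hinj φ,
      (∀ x ∈ Uw D K (nR hD K J), n⁻¹ * x * n ∈ D.posUnipotent K) ∨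
      (∀ x ∈ Uw D K (nR hD K J), (nR hD K J * n)⁻¹ * x * (nR hD K J * n) ∈ D.posUnipotent K)
  ne : ∀ J ∈ Bl, ∃ x ∈ FUr hD hT hinj φ (nR hD K J), x ≠ 1
  inj : ∀ J ∈ Bl, ∀ J' ∈ Bl, om (sP hD) J' = om (sP hD) J → J = J'
  gen : fixR hD hT hinj φ ≤ (D.borelSubgroup K ⊓ fixR hD hT hinj φ) ⊔ (D.monomialSubgroup K ⊓ fixR hD hT hinj φ)
  ngen : D.monomialSubgroup K ⊓ fixR hD hT hinj φ ≤
      Subgroup.closure {g | ∃ J ∈ Bl, g = nR hD K J} ⊔ (D.diagonalSubgroup K ⊓ fixR hD hT hinj φ)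

section
variable {D : ChevalleyDatum} (hD : D ∈ allData) {T : IsoData} (hT : IsoOK D T) {p0 : List ℕ}
  {K : Type*} [Field K] [CharP K T.c] (hinj : Function.Injective (isoR1 hD hT (F := K))) (φ : K →+* K)
  (R : IsoR D T p0) (hodd : ∀ r, (-1 : K) ^ T.lamF r = -1) {Bl : List (List ℕ)}

local notation "Fx" => fixR hD hT hinj φ

/-- the (B,N)-pair of the group of fixed points -/
noncomputable def bnPairR (A : RBN hD hT hinj φ Bl) : Cfsg.BNPair ↥Fx where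
  B := (D.borelSubgroup K ⊓ Fx).subgroupOf Fx
  N := (D.monomialSubgroup K ⊓ Fx).subgroupOf Fx
  S := {n : ↥Fx | ∃ J ∈ Bl, (n : GL D.Idx K) = nR hD K J}
  sup_eq_top := by
    rw [← Subgroup.subgroupOf_sup inf_le_right inf_le_right,
      le_antisymm (sup_le inf_le_right inf_le_right) A.gen, Subgroup.subgroupOf_self]
  conj_mem := by
    rintro n hn t ⟨ht1, ht2⟩
    rw [Subgroup.mem_subgroupOf] at hn ⊢
    have h1 : (t : GL D.Idx K) ∈ D.borelSubgroup K ⊓ D.monomialSubgroup K :=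
      Subgroup.mem_inf.mpr ⟨ht1.1, ht2.1⟩
    rw [borel_inf_mono hD] at h1
    exact Subgroup.mem_inf.mpr ⟨diag_le_borel hD (mono_conj_diag hD hn.1 h1), (n * t * n⁻¹).2⟩
  subset := by
    rintro s ⟨J, hJ, hs⟩
    show (s : GL D.Idx K) ∈ D.monomialSubgroup K ⊓ Fx
    rw [hs]
    exact Subgroup.mem_inf.mpr ⟨nR_mem_mono hD J (A.red J hJ).lt, A.nmem J hJ⟩
  sq_mem := by
    rintro s ⟨J, hJ, hs⟩
    show (s : GL D.Idx K) * (s : GL D.Idx K) ∈ D.borelSubgroup K ⊓ Fx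
    rw [hs]
    exact Subgroup.mem_inf.mpr ⟨diag_le_borel hD (A.sq J hJ), mul_mem (A.nmem J hJ) (A.nmem J hJ)⟩
  inj := by
    rintro s ⟨J, hJ, hs⟩ s' ⟨J', hJ', hs'⟩ h
    have h' : (s : GL D.Idx K)⁻¹ * (s' : GL D.Idx K) ∈ D.borelSubgroup K := h.1
    rw [hs, hs'] at h'
    apply Subtype.ext
    rw [hs, hs']
    have m1 := nR_mem_mono (F := K) hD J (A.red J hJ).lt
    have m2 := nR_mem_mono (F := K) hD J' (A.red J' hJ').lt
    have h1 : (nR hD K J)⁻¹ * nR hD K J' ∈ D.borelSubgroup K ⊓ D.monomialSubgroup K :=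
      Subgroup.mem_inf.mpr ⟨h', mul_mem (inv_mem m1) m2⟩
    rw [borel_inf_mono hD] at h1
    have : J = J' := by
      apply A.inj J hJ J' hJ'
      apply om_of_nR_eq (F := K) hD (A.red J' hJ').lt (A.red J hJ).lt
      refine ⟨nR hD K J * ((nR hD K J)⁻¹ * nR hD K J') * (nR hD K J)⁻¹, mono_conj_diag hD m1 h1, ?_⟩
      group
    rw [this]
  closure_sup := by
    apply Subgroup.map_injective (Subgroup.subtype_injective Fx)
    rw [Subgroup.map_sup, MonoidHom.map_closure, Subgroup.map_subgroupOf_eq_of_le inf_le_right]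
    have h1 : ((D.borelSubgroup K ⊓ Fx).subgroupOf Fx ⊓ (D.monomialSubgroup K ⊓ Fx).subgroupOf Fx)
        = (D.diagonalSubgroup K ⊓ Fx).subgroupOf Fx := by
      rw [← borel_inf_mono hD]
      ext x
      simp only [Subgroup.mem_inf, Subgroup.mem_subgroupOf]
      tauto
    rw [h1, Subgroup.map_subgroupOf_eq_of_le inf_le_right]
    have h2 : ((fixR hD hT hinj φ).subtype '' {n : ↥Fx | ∃ J ∈ Bl, (n : GL D.Idx K) = nR hD K J}) =
        {g | ∃ J ∈ Bl, g = nR hD K J} := by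
      ext g
      constructor
      · rintro ⟨s, ⟨J, hJ, hs⟩, rfl⟩
        exact ⟨J, hJ, hs⟩
      · rintro ⟨J, hJ, rfl⟩
        exact ⟨⟨nR hD K J, A.nmem J hJ⟩, ⟨J, hJ, rfl⟩, rfl⟩
    rw [h2]
    apply le_antisymm _ A.ngen
    apply sup_le
    · rw [Subgroup.closure_le]
      rintro g ⟨J, hJ, rfl⟩
      exact Subgroup.mem_inf.mpr ⟨nR_mem_mono hD J (A.red J hJ).lt, A.nmem J hJ⟩
    · exact le_inf (inf_le_left.trans (diag_le_mono hD)) inf_le_right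
  mul_mem_union := by
    rintro s ⟨J, hJ, hs⟩ n hn b hb
    rw [Set.mem_union, DoubleCoset.mem_doubleCoset, DoubleCoset.mem_doubleCoset]
    have hn' : (n : GL D.Idx K) ∈ D.monomialSubgroup K ⊓ Fx := hn
    have hb' : (b : GL D.Idx K) ∈ D.borelSubgroup K ⊓ Fx := hb
    rcases rt_axiom hD hT hinj φ R hodd (A.red J hJ) (A.nmem J hJ) (A.sq J hJ) (A.rk J hJ) hn'
      (A.sign J hJ _ hn') hb' with ⟨x, hx, y, hy, e⟩ | ⟨x, hx, y, hy, e⟩
    · left
      refine ⟨⟨x, hx.2⟩, hx, ⟨y, hy.2⟩, hy, ?_⟩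
      apply Subtype.ext
      simp only [Subgroup.coe_mul]
      rw [hs, e]
    · right
      refine ⟨⟨x, hx.2⟩, hx, ⟨y, hy.2⟩, hy, ?_⟩
      apply Subtype.ext
      simp only [Subgroup.coe_mul]
      rw [hs, e]
  conj_ne := by
    rintro s ⟨J, hJ, hs⟩ h
    obtain ⟨x, hx, hx1⟩ := A.ne J hJ
    have hxm : (⟨x, hx.2⟩ : ↥Fx) ∈ ((D.borelSubgroup K ⊓ Fx).subgroupOf Fx : Set ↥Fx) :=
      Subgroup.mem_inf.mpr ⟨posU_le_borel hD (Uw_le_posU _ hx.1), hx.2⟩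
    have h1 := Set.mem_image_of_mem (fun b : ↥Fx => s * b * s) hxm
    rw [h] at h1
    have h2 : (s : GL D.Idx K) * x * (s : GL D.Idx K) ∈ D.borelSubgroup K := h1.1
    rw [hs] at h2
    have h3 : nR hD K J * x * (nR hD K J)⁻¹ ∈ D.borelSubgroup K := by
      have h4 := mul_mem h2 (inv_mem (diag_le_borel hD (A.sq J hJ)))
      have h5 : nR hD K J * x * nR hD K J * (nR hD K J * nR hD K J)⁻¹ = nR hD K J * x * (nR hD K J)⁻¹ := by
        group
      rwa [h5] at h4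
    have h4 : nR hD K J * x * (nR hD K J)⁻¹ ∈ D.borelSubgroup K ⊓ D.negUnipotent K :=
      Subgroup.mem_inf.mpr ⟨h3, conj_Uw_mem_negU hx.1⟩
    rw [borel_inf_negU hD, Subgroup.mem_bot] at h4
    apply hx1
    have := congrArg (fun z => (nR hD K J)⁻¹ * z * nR hD K J) h4
    simpa [mul_assoc] using this

end

end Cfsg.Agent.Lib.Helper8
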