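import Cfsg.Agent.Lib.Helper8.RF8
import Cfsg.Agent.Lib.Helper8.RT3

set_option autoImplicit false
set_option linter.unusedSectionVars false
set_option linter.unusedVariables false
set_option linter.unusedSimpArgs false

/-! The (B,N)-pair of `²F₄`. -/

namespace Cfsg.Agent.Lib.Helper8

open Cfsg Cfsg.Lie

section
variable {D : ChevalleyDatum} (hD : D ∈ allData) {F : Type*} [Field F]

/-- products of double cosets inside a parabolic subgroup -/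
theorem para_mul {I : List ℕ} (hI : ∀ i ∈ I, i < D.rank) : ∀ (L : List ℕ), (∀ i ∈ L, i ∈ I) →
    ∀ {g : GL D.Idx F}, (∃ L' : List ℕ, (∀ i ∈ L', i ∈ I) ∧ ∃ b1 ∈ D.borelSubgroup F,
      ∃ b2 ∈ D.borelSubgroup F, g = b1 * nR hD F L' * b2) →
    ∃ L' : List ℕ, (∀ i ∈ L', i ∈ I) ∧ ∃ b1 ∈ D.borelSubgroup F, ∃ b2 ∈ D.borelSubgroup F,
      nR hD F L * g = b1 * nR hD F L' * b2
  | [], _, g, h => by simpa [nR] using h
  | i :: L, hL, g, ⟨L', hL', b1, hb1, b2, hb2, e⟩ => by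
    have e0 : nR hD F (i :: L) * g = nR hD F L * (nS hD F i * g) := by
      show nR hD F L * nS hD F i * g = _
      rw [mul_assoc]
    rw [e0]
    apply para_mul hI L (fun j hj => hL j (List.mem_cons_of_mem _ hj))
    have hi := hL i List.mem_cons_self
    rcases bn_axiom hD (hI i hi) (nR_mem_mono (F := F) hD L' (fun j hj => hI j (hL' j hj))) hb1 with
      ⟨x, hx, y, hy, e2⟩ | ⟨x, hx, y, hy, e2⟩
    · refine ⟨L' ++ [i], ?_, x, hx, y * b2, mul_mem hy hb2, ?_⟩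
      · intro j hj
        rcases List.mem_append.mp hj with h | h
        · exact hL' j h
        · rw [List.mem_singleton.mp h]; exact hi
      · have e3 : nR hD F (L' ++ [i]) = nS hD F i * nR hD F L' := by
          rw [nR_append]
          show 1 * nS hD F i * _ = _
          rw [one_mul]
        rw [e3, e, ← mul_assoc, ← mul_assoc, e2, mul_assoc]
    · refine ⟨L', hL', x, hx, y * b2, mul_mem hy hb2, ?_⟩
      rw [e, ← mul_assoc, ← mul_assoc, e2, mul_assoc]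

theorem wR_stable {P : ℕ → Prop} {I : List ℕ} (h : ∀ i ∈ I, ∀ s, P s → P (D.reflectRoot i s)) :
    ∀ L : List ℕ, (∀ i ∈ L, i ∈ I) → ∀ s, P s → P (wR D L s)
  | [], _, s, hs => hs
  | i :: L, hL, s, hs => wR_stable h L (fun j hj => hL j (List.mem_cons_of_mem _ hj)) _
      (h i (hL i List.mem_cons_self) s hs)

end

theorem f4sq : ∀ J ∈ blF4, ∀ s < 48, wR chevF4 (J ++ J) s = s := by decide +kernel

theorem f4sign : ∀ J ∈ blF4, ∀ M ∈ repsF4,
    (∀ r < 48, 24 ≤ r → wR chevF4 J r < 24 → 24 ≤ wR chevF4 M.flatten r) ∨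
    (∀ r < 48, 24 ≤ r → wR chevF4 J r < 24 → 24 ≤ wR chevF4 M.flatten (wR chevF4 J r)) := by decide +kernel

theorem f4stab : ∀ J ∈ blF4, ∀ i ∈ J, ∀ s < 48, 24 ≤ s → 24 ≤ wR chevF4 J s →
    (24 ≤ chevF4.reflectRoot i s ∧ chevF4.reflectRoot i s < 48 ∧ 24 ≤ wR chevF4 J (chevF4.reflectRoot i s)) := by
  decide +kernel

theorem f4para : ∀ J ∈ blF4, ∀ M ∈ repsF4, (∀ s < 48, 24 ≤ s → 24 ≤ wR chevF4 J s → 24 ≤ wR chevF4 M.flatten s) →
    M = [] ∨ M = [J] := by decide +kernel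

theorem blF4_lt : ∀ J ∈ blF4, ∀ i ∈ J, i < chevF4.rank := by decide

section
variable {K : Type*} [Field K]

theorem nR_sq_F4 {J : List ℕ} (hJ : J ∈ blF4) : nR hF4r K J * nR hF4r K J ∈ chevF4.diagonalSubgroup K := by
  rw [← nR_append]
  apply nR_mem_diag hF4r
  · intro i hi
    rcases List.mem_append.mp hi with h | h <;> exact blF4_lt J hJ i h
  · intro s hs
    rw [f4sq J hJ s hs.1]
    exact hs

theorem act_nR_inv_F4 {J : List ℕ} (hJ : J ∈ blF4) : Act hF4r (nR hF4r K J)⁻¹ (wR chevF4 J) := by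
  have h1 : (nR hF4r K J * nR hF4r K J)⁻¹ ∈ chevF4.diagonalSubgroup K := inv_mem (nR_sq_F4 hJ)
  rw [diag_eq_torus hF4r] at h1
  obtain ⟨c, hc⟩ := h1
  have a := (act_nR (F := K) hF4r J (blF4_lt J hJ)).mul (act_tG hF4r c)
  rw [hc] at a
  have e : nR hF4r K J * (nR hF4r K J * nR hF4r K J)⁻¹ = (nR hF4r K J)⁻¹ := by group
  rw [e] at a
  exact a

theorem Uw_conj_posU {J : List ℕ} (hJ : J ∈ blF4) {m : GL chevF4.Idx K} {π : ℕ → ℕ} (hm : Act hF4r m π)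
    (h : ∀ r < 48, 24 ≤ r → wR chevF4 J r < 24 → 24 ≤ π r) {x : GL chevF4.Idx K}
    (hx : x ∈ Uw chevF4 K (nR hF4r K J)) : m * x * m⁻¹ ∈ chevF4.posUnipotent K := by
  have : Uw chevF4 K (nR hF4r K J) ≤ (chevF4.posUnipotent K).comap (MulAut.conj m).toMonoidHom := by
    apply Uw_le hF4r (act_nR hF4r J (blF4_lt J hJ))
    intro r hr hneg t
    show m * xG hF4r K r t * m⁻¹ ∈ chevF4.posUnipotent K
    obtain ⟨κ, hκ⟩ := hm.conj r hr.1
    rw [hκ]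
    apply xG_mem_posU hF4r
    rw [isPos_iff hF4r] at hr ⊢
    rw [isNeg_iff hF4r] at hneg
    exact ⟨h r hr.2 hr.1 hneg, hm.lt r hr.2⟩
  exact this hx

variable [CharP K 2] (hinj : Function.Injective (isoR1 hF4r isoOK_F4 (F := K))) (φ : K →+* K)

theorem sign_F4 {J : List ℕ} (hJ : J ∈ blF4) {n : GL chevF4.Idx K}
    (hn : n ∈ chevF4.monomialSubgroup K ⊓ fixR hF4r isoOK_F4 hinj φ) :
    (∀ x ∈ Uw chevF4 K (nR hF4r K J), n⁻¹ * x * n ∈ chevF4.posUnipotent K) ∨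
    (∀ x ∈ Uw chevF4 K (nR hF4r K J), (nR hF4r K J * n)⁻¹ * x * (nR hF4r K J * n) ∈ chevF4.posUnipotent K) := by
  obtain ⟨M, hM, hA, -⟩ := mono_fix_act hinj φ (inv_mem hn)
  rcases f4sign J hJ M hM with h | h
  · left
    intro x hx
    have := Uw_conj_posU hJ hA h hx
    rwa [inv_inv] at this
  · right
    intro x hx
    have := Uw_conj_posU hJ (hA.mul (act_nR_inv_F4 hJ)) h hx
    rwa [← mul_inv_rev, inv_inv] at this

variable (hφ : ∀ t, φ (φ t) ^ 2 = t) [Fintype K]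
include hφ

theorem normal_form_F4 {g : GL chevF4.Idx K} (hg : g ∈ fixR hF4r isoOK_F4 hinj φ) :
    ∃ u ∈ chevF4.posUnipotent K ⊓ fixR hF4r isoOK_F4 hinj φ,
      ∃ h ∈ chevF4.diagonalSubgroup K ⊓ fixR hF4r isoOK_F4 hinj φ, ∃ M ∈ repsF4,
      ∃ u' ∈ FUr hF4r isoOK_F4 hinj φ (nR hF4r K M.flatten), g = u * h * nR hF4r K M.flatten * u' := by
  obtain ⟨u, hu, h, hh, M, hM, u', hu', e⟩ := fixed_normal_formM hF4r isoOK_F4 hinj φ isoR_F4 isoF4_odd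
    (rblk_F4 φ hinj hφ) repsF4.toFinset repsF4_hR repsF4_cover hg
  exact ⟨u, hu, h, hh, M, List.mem_toFinset.mp hM, u', hu', e⟩

theorem nR_blk_fix {J : List ℕ} (hJ : J ∈ blF4) : nR hF4r K J ∈ fixR hF4r isoOK_F4 hinj φ :=
  (rblk_F4 φ hinj hφ).le ((rblk_F4 φ hinj hφ).nmem J hJ)

theorem rk_F4 {J : List ℕ} (hJ : J ∈ blF4) {x : GL chevF4.Idx K}
    (hx : x ∈ FUr hF4r isoOK_F4 hinj φ (nR hF4r K J)) (hx1 : x ≠ 1) :
    ∃ b ∈ chevF4.borelSubgroup K ⊓ fixR hF4r isoOK_F4 hinj φ,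
      ∃ x2 ∈ FUr hF4r isoOK_F4 hinj φ (nR hF4r K J),
      nR hF4r K J * x * (nR hF4r K J)⁻¹ = b * nR hF4r K J * x2 := by
  have hnJ := nR_blk_fix hinj φ hφ hJ
  have hy : nR hF4r K J * x * (nR hF4r K J)⁻¹ ∈ fixR hF4r isoOK_F4 hinj φ :=
    mul_mem (mul_mem hnJ hx.2) (inv_mem hnJ)
  obtain ⟨u, hu, h, hh, M, hM, u', hu', e⟩ := normal_form_F4 hinj φ hφ hy
  have hb : u * h ∈ chevF4.borelSubgroup K ⊓ fixR hF4r isoOK_F4 hinj φ :=
    Subgroup.mem_inf.mpr ⟨mul_mem (posU_le_borel hF4r hu.1) (diag_le_borel hF4r hh.1), mul_mem hu.2 hh.2⟩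
  obtain ⟨L', hL', b1, hb1, b2, hb2, e2⟩ := para_mul (F := K) hF4r (blF4_lt J hJ) J (fun i hi => hi)
    (g := x * (nR hF4r K J)⁻¹) ⟨J, fun i hi => hi, x, posU_le_borel hF4r (Uw_le_posU _ hx.1),
      (nR hF4r K J * nR hF4r K J)⁻¹, inv_mem (diag_le_borel hF4r (nR_sq_F4 hJ)), by group⟩
  have hL'l : ∀ i ∈ L', i < chevF4.rank := fun i hi => blF4_lt J hJ i (hL' i hi)
  have hMl := (repsF4_red M hM).lt
  have hm := nR_mem_mono (F := K) hF4r M.flatten hMl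
  have hm' := nR_mem_mono (F := K) hF4r L' hL'l
  have e3 : u * h * nR hF4r K M.flatten * u' = b1 * nR hF4r K L' * b2 := by
    rw [← e, ← e2, mul_assoc]
  have h1 := bruhat_unique hF4r hm hm' hb.1 hb1 (posU_le_borel hF4r (Uw_le_posU _ hu'.1)) hb2 e3
  have h2 : om (sP hF4r) L' = om (sP hF4r) M.flatten := by
    apply om_of_nR_eq (F := K) hF4r hL'l hMl
    refine ⟨nR hF4r K M.flatten * ((nR hF4r K M.flatten)⁻¹ * nR hF4r K L') * (nR hF4r K M.flatten)⁻¹,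
      mono_conj_diag hF4r hm h1, ?_⟩
    group
  have h3 := (om_eq_iff hF4r hL'l hMl).mp h2
  have h4 : ∀ s, (24 ≤ s ∧ s < 48 ∧ 24 ≤ wR chevF4 J s) →
      (24 ≤ wR chevF4 L' s ∧ wR chevF4 L' s < 48 ∧ 24 ≤ wR chevF4 J (wR chevF4 L' s)) :=
    wR_stable (D := chevF4) (P := fun s => 24 ≤ s ∧ s < 48 ∧ 24 ≤ wR chevF4 J s) (I := J)
      (fun i hi s hs => f4stab J hJ i hi s hs.2.1 hs.1 hs.2.2) L' hL'
  rcases f4para J hJ M hM (fun s hs h24 hw => by rw [← h3 s hs]; exact (h4 s ⟨h24, hs, hw⟩).1) with rfl | rfl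
  · exfalso
    apply hx1
    have h5 : nR hF4r K J * x * (nR hF4r K J)⁻¹ ∈ chevF4.borelSubgroup K ⊓ chevF4.negUnipotent K := by
      refine Subgroup.mem_inf.mpr ⟨?_, conj_Uw_mem_negU hx.1⟩
      rw [e]
      exact mul_mem (mul_mem hb.1 (one_mem _)) (posU_le_borel hF4r (Uw_le_posU _ hu'.1))
    rw [borel_inf_negU hF4r, Subgroup.mem_bot] at h5
    have := congrArg (fun z => (nR hF4r K J)⁻¹ * z * nR hF4r K J) h5
    simpa [mul_assoc] using this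
  · have e5 : [J].flatten = J := by simp
    rw [e5] at e hu'
    exact ⟨u * h, hb, u', hu', e⟩

theorem nR_flatten_mem_closureF : ∀ {M : List (List ℕ)}, (∀ J ∈ M, J ∈ blF4) →
    nR hF4r K M.flatten ∈ Subgroup.closure {g | ∃ J ∈ blF4, g = nR hF4r K J}
  | [], _ => one_mem _
  | J :: M, h => by
    rw [List.flatten_cons, nR_append]
    exact mul_mem (nR_flatten_mem_closureF (fun A hA => h A (List.mem_cons_of_mem _ hA)))
      (Subgroup.subset_closure ⟨J, h J List.mem_cons_self, rfl⟩)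

theorem rbn_F4 : RBN hF4r isoOK_F4 hinj φ blF4 where
  red := (rblk_F4 φ hinj hφ).red
  nmem := fun J hJ => nR_blk_fix hinj φ hφ hJ
  sq := fun J hJ => nR_sq_F4 hJ
  rk := fun J hJ x hx hx1 => rk_F4 hinj φ hφ hJ hx hx1
  sign := fun J hJ n hn => sign_F4 hinj φ hJ hn
  ne := by
    intro J hJ
    simp only [blF4, List.mem_cons, List.not_mem_nil, or_false] at hJ
    rcases hJ with rfl | rfl
    · refine ⟨a1F φ 1, a1F_mem_FUr hinj φ hφ 1, fun h => ?_⟩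
      have h0 : a1F φ 1 = xG hF4r K 33 0 * xG hF4r K 24 0 := by rw [h]; simp [xG_zero]
      exact one_ne_zero (P2_inj h0).2
    · refine ⟨a2F φ 1 0, a2F_mem_FUr hinj φ hφ 1 0, fun h => ?_⟩
      have h0 : a2F φ 1 0 = P4 K 0 0 0 0 := by rw [h]; simp [P4, z2, xG_zero]
      exact one_ne_zero (P4_inj h0).2.1
  inj := by
    intro J hJ J' hJ' e
    have h1 := (om_eq_iff hF4r (blF4_lt J' hJ') (blF4_lt J hJ)).mp e 24 (by decide)
    have key : ∀ J ∈ blF4, ∀ J' ∈ blF4, wR chevF4 J' 24 = wR chevF4 J 24 → J = J' := by decide +kernel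
    exact key J hJ J' hJ' h1
  gen := by
    intro g hg
    obtain ⟨u, hu, h, hh, M, hM, u', hu', rfl⟩ := normal_form_F4 hinj φ hφ hg
    have hB : ∀ {z : GL chevF4.Idx K}, z ∈ chevF4.borelSubgroup K → z ∈ fixR hF4r isoOK_F4 hinj φ →
        z ∈ (chevF4.borelSubgroup K ⊓ fixR hF4r isoOK_F4 hinj φ) ⊔
          (chevF4.monomialSubgroup K ⊓ fixR hF4r isoOK_F4 hinj φ) := fun h1 h2 =>
      (le_sup_left : chevF4.borelSubgroup K ⊓ fixR hF4r isoOK_F4 hinj φ ≤ _) (Subgroup.mem_inf.mpr ⟨h1, h2⟩)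
    refine mul_mem (mul_mem (mul_mem (hB (posU_le_borel hF4r hu.1) hu.2) (hB (diag_le_borel hF4r hh.1) hh.2)) ?_)
      (hB (posU_le_borel hF4r (Uw_le_posU _ hu'.1)) hu'.2)
    exact (le_sup_right : chevF4.monomialSubgroup K ⊓ fixR hF4r isoOK_F4 hinj φ ≤ _)
      (Subgroup.mem_inf.mpr ⟨nR_mem_mono hF4r _ (repsF4_red M hM).lt,
        (rblk_F4 φ hinj hφ).le ((rblk_F4 φ hinj hφ).nR_flatten_mem hF4r isoOK_F4 hinj φ (repsF4_bl M hM))⟩)
  ngen := by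
    intro n hn
    obtain ⟨M, hM, -, h, hh, e⟩ := mono_fix_act hinj φ hn
    have hnM : nR hF4r K M.flatten ∈ fixR hF4r isoOK_F4 hinj φ :=
      (rblk_F4 φ hinj hφ).le ((rblk_F4 φ hinj hφ).nR_flatten_mem hF4r isoOK_F4 hinj φ (repsF4_bl M hM))
    have hhF : h ∈ fixR hF4r isoOK_F4 hinj φ := by
      have : h = n * (nR hF4r K M.flatten)⁻¹ := by rw [e]; group
      rw [this]
      exact mul_mem hn.2 (inv_mem hnM)
    rw [e]
    exact mul_mem ((le_sup_right : chevF4.diagonalSubgroup K ⊓ fixR hF4r isoOK_F4 hinj φ ≤ _)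
      (Subgroup.mem_inf.mpr ⟨hh, hhF⟩))
      ((le_sup_left : Subgroup.closure {g | ∃ J ∈ blF4, g = nR hF4r K J} ≤ _)
        (nR_flatten_mem_closureF φ hφ (repsF4_bl M hM)))

/-- the (B,N)-pair of `²F₄` -/
noncomputable def bnPairF : Cfsg.BNPair ↥(fixR hF4r isoOK_F4 hinj φ) :=
  bnPairR hF4r isoOK_F4 hinj φ isoR_F4 isoF4_odd (rbn_F4 hinj φ hφ)

include hinj in
theorem exists_bnPairF : ∃ P : Cfsg.BNPair ↥(reeF φ),
    P.B = (chevF4.borelSubgroup K ⊓ reeF φ).subgroupOf (reeF φ) ∧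
    P.N = (chevF4.monomialSubgroup K ⊓ reeF φ).subgroupOf (reeF φ) := by
  rw [reeF_eq_fixR hinj φ hφ]
  exact ⟨bnPairF hinj φ hφ, rfl, rfl⟩

end

end Cfsg.Agent.Lib.Helper8
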