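import Cfsg.Agent.Lib.Helper8.Ree1
import Cfsg.Agent.Lib.Helper8.Tw7
import Cfsg.Agent.Lib.Helper8.WeylLev2

set_option autoImplicit false
set_option linter.unusedSectionVars false
set_option linter.unusedVariables false

/-! Fixed points of `σ` = special isogeny ∘ field endomorphism: the unipotent parts, block by block. -/

namespace Cfsg.Agent.Lib.Helper8

open Cfsg Cfsg.Lie

section
variable {D : ChevalleyDatum} (hD : D ∈ allData) {T : IsoData} (hT : IsoOK D T) {p0 : List ℕ}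
  {K : Type*} [Field K] [CharP K T.c] (hinj : Function.Injective (isoR1 hD hT (F := K))) (φ : K →+* K)
  (R : IsoR D T p0) (hodd : ∀ r, (-1 : K) ^ T.lamF r = -1)

/-- the fixed points in `U_w⁻` -/
noncomputable def FUr (n : GL D.Idx K) : Subgroup (GL D.Idx K) := Uw D K n ⊓ fixR hD hT hinj φ

include R in
theorem sg_mem_Uw {L : List ℕ} (hL : Red D L) (hs : nR hD K L ∈ fixR hD hT hinj φ) {u : GL D.Idx K}
    (hu : u ∈ Uw D K (nR hD K L)) : sg hD hT hinj φ u ∈ Uw D K (nR hD K L) := by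
  have huU := Uw_le_posU _ hu
  have huG := posU_le_group hD huU
  apply mem_Uw_of hD hL (sg_mem_posU hD hT hinj φ R huU)
  have := sg_mem_negU hD hT hinj φ R (conj_Uw_mem_negU hu)
  rwa [sg_mul hD hT hinj φ (mul_mem hs.1 huG) (inv_mem hs.1), sg_mul hD hT hinj φ hs.1 huG,
    sg_inv hD hT hinj φ hs.1, hs.2] at this

theorem rstep_mem {J L : List ℕ} (hJ : Red D J) (hJL : Red D (J ++ L)) (hnJ : nR hD K J ∈ fixR hD hT hinj φ)
    {c : GL D.Idx K} (hc : c ∈ FUr hD hT hinj φ (nR hD K L)) {y : GL D.Idx K}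
    (hy : y ∈ FUr hD hT hinj φ (nR hD K J)) :
    (nR hD K J)⁻¹ * c * nR hD K J * y ∈ FUr hD hT hinj φ (nR hD K (J ++ L)) :=
  Subgroup.mem_inf.mpr ⟨Uw_append_mem hD hJ hJL hc.1 hy.1,
    mul_mem (mul_mem (mul_mem (inv_mem hnJ) hc.2) hnJ) hy.2⟩

include R in
theorem rstep_bijective {J L : List ℕ} (hJ : Red D J) (hL : Red D L) (hJL : Red D (J ++ L))
    (hnJ : nR hD K J ∈ fixR hD hT hinj φ) :
    Function.Bijective (fun x : ↥(FUr hD hT hinj φ (nR hD K L)) × ↥(FUr hD hT hinj φ (nR hD K J)) =>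
      (⟨(nR hD K J)⁻¹ * x.1 * nR hD K J * x.2, rstep_mem hD hT hinj φ hJ hJL hnJ x.1.2 x.2.2⟩ :
        ↥(FUr hD hT hinj φ (nR hD K (J ++ L))))) := by
  constructor
  · rintro ⟨⟨c, hc⟩, ⟨y, hy⟩⟩ ⟨⟨c', hc'⟩, ⟨y', hy'⟩⟩ e
    have e1 : (nR hD K J)⁻¹ * c * nR hD K J * y = (nR hD K J)⁻¹ * c' * nR hD K J * y' :=
      congrArg Subtype.val e
    obtain ⟨rfl, rfl⟩ := Uw_append_unique hD (Uw_le_posU _ hc.1) (Uw_le_posU _ hc'.1) hy.1 hy'.1 e1
    rfl
  · rintro ⟨u, hu1, hu2⟩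
    obtain ⟨c, hc, y, hy, rfl⟩ := Uw_append_exists hD hJ hJL hu1
    have hcU := Uw_le_posU _ hc
    have hcG := posU_le_group hD hcU
    have hyG := posU_le_group hD (Uw_le_posU _ hy)
    have hu3 := hu2.2
    rw [sg_mul hD hT hinj φ (mul_mem (mul_mem (inv_mem hnJ.1) hcG) hnJ.1) hyG,
      sg_mul hD hT hinj φ (mul_mem (inv_mem hnJ.1) hcG) hnJ.1, sg_mul hD hT hinj φ (inv_mem hnJ.1) hcG,
      sg_inv hD hT hinj φ hnJ.1, hnJ.2] at hu3
    obtain ⟨e1, e2⟩ := Uw_append_unique hD (sg_mem_posU hD hT hinj φ R hcU) hcU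
      (sg_mem_Uw hD hT hinj φ R hJ hnJ hy) hy hu3
    exact ⟨(⟨c, hc, hcG, e1⟩, ⟨y, hy, hyG, e2⟩), rfl⟩

/-- the data of the blocks -/
structure RBlk (G1 : Subgroup (GL D.Idx K)) (Bl : List (List ℕ)) (q : ℕ) (wt : List ℕ → ℕ) : Prop where
  le : G1 ≤ fixR hD hT hinj φ
  red : ∀ J ∈ Bl, Red D J
  nmem : ∀ J ∈ Bl, nR hD K J ∈ G1
  fu : ∀ J ∈ Bl, FUr hD hT hinj φ (nR hD K J) ≤ G1
  card : ∀ J ∈ Bl, Nat.card ↥(FUr hD hT hinj φ (nR hD K J)) = q ^ wt J

variable {G1 : Subgroup (GL D.Idx K)} {Bl : List (List ℕ)} {q : ℕ} {wt : List ℕ → ℕ}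
  (B : RBlk hD hT hinj φ G1 Bl q wt)
include B

theorem RBlk.nR_flatten_mem : ∀ {M : List (List ℕ)}, (∀ J ∈ M, J ∈ Bl) → nR hD K M.flatten ∈ G1
  | [], _ => one_mem _
  | J :: M, h => by
    rw [List.flatten_cons, nR_append]
    exact mul_mem (RBlk.nR_flatten_mem (fun A hA => h A (List.mem_cons_of_mem _ hA)))
      (B.nmem J (h J List.mem_cons_self))

include R in
theorem RBlk.FUr_le : ∀ {M : List (List ℕ)}, (∀ J ∈ M, J ∈ Bl) → Red D M.flatten →
    FUr hD hT hinj φ (nR hD K M.flatten) ≤ G1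
  | [], _, _ => by
    intro u hu
    have h1 : u ∈ Uw D K 1 := hu.1
    rw [Uw_one hD, Subgroup.mem_bot] at h1
    rw [h1]; exact one_mem _
  | J :: M, h, hred => by
    have hM : ∀ A ∈ M, A ∈ Bl := fun A hA => h A (List.mem_cons_of_mem _ hA)
    have hJ := h J List.mem_cons_self
    rw [List.flatten_cons] at hred ⊢
    have hred' : Red D M.flatten := red_of_append hD hred
    intro u hu
    obtain ⟨⟨⟨c, hc⟩, ⟨y, hy⟩⟩, e⟩ := (rstep_bijective hD hT hinj φ R (B.red J hJ) hred' hred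
      (B.le (B.nmem J hJ))).2 ⟨u, hu⟩
    have e1 : (nR hD K J)⁻¹ * c * nR hD K J * y = u := congrArg Subtype.val e
    rw [← e1]
    have hn := B.nmem J hJ
    exact mul_mem (mul_mem (mul_mem (inv_mem hn) (RBlk.FUr_le hM hred' hc)) hn) (B.fu J hJ hy)

include R in
theorem RBlk.card_FUr : ∀ {M : List (List ℕ)}, (∀ J ∈ M, J ∈ Bl) → Red D M.flatten →
    Nat.card ↥(FUr hD hT hinj φ (nR hD K M.flatten)) = q ^ (M.map wt).sum
  | [], _, _ => by
    have : FUr hD hT hinj φ (nR hD K ([] : List (List ℕ)).flatten) = ⊥ := by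
      rw [eq_bot_iff]
      intro u hu
      have h1 : u ∈ Uw D K 1 := hu.1
      rwa [Uw_one hD] at h1
    rw [this]
    simp
  | J :: M, h, hred => by
    have hM : ∀ A ∈ M, A ∈ Bl := fun A hA => h A (List.mem_cons_of_mem _ hA)
    have hJ := h J List.mem_cons_self
    rw [List.flatten_cons] at hred ⊢
    have hred' : Red D M.flatten := red_of_append hD hred
    rw [← Nat.card_congr (Equiv.ofBijective _ (rstep_bijective hD hT hinj φ R (B.red J hJ) hred' hred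
      (B.le (B.nmem J hJ)))), Nat.card_prod, RBlk.card_FUr hM hred', B.card J hJ, List.map_cons, List.sum_cons,
      pow_add, mul_comm]

end

end Cfsg.Agent.Lib.Helper8
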