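import Cfsg.Agent.Lib.Helper8.RT1

set_option autoImplicit false
set_option linter.unusedSectionVars false
set_option linter.unusedVariables false

/-! Fixed points of `σ`: the normal form and the order. -/

namespace Cfsg.Agent.Lib.Helper8

open Cfsg Cfsg.Lie

section
variable {D : ChevalleyDatum} (hD : D ∈ allData) {T : IsoData} (hT : IsoOK D T) {p0 : List ℕ}
  {K : Type*} [Field K] [CharP K T.c] (hinj : Function.Injective (isoR1 hD hT (F := K))) (φ : K →+* K)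
  (R : IsoR D T p0) (hodd : ∀ r, (-1 : K) ^ T.lamF r = -1)

local notation "σ" => sg hD hT hinj φ
local notation "Fx" => fixR hD hT hinj φ

include R hodd

theorem fixed_borelR {b : GL D.Idx K} (hb : b ∈ D.borelSubgroup K) {h2 : GL D.Idx K}
    (hh2 : h2 ∈ D.diagonalSubgroup K) (e : σ b * h2 = b) :
    ∃ u ∈ D.posUnipotent K ⊓ Fx, ∃ h ∈ D.diagonalSubgroup K, σ h * h2 = h ∧ b = u * h := by
  obtain ⟨u, hu, h, hh, e5⟩ := mem_borel hD hb
  have hug := posU_le_group hD hu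
  have hhg := diag_le_group hD hh
  rw [e5, sg_mul hD hT hinj φ hug hhg] at e
  have e6 : u⁻¹ * σ u = h * (σ h * h2)⁻¹ := by
    have : σ u = u * h * (σ h * h2)⁻¹ := by rw [← e]; group
    rw [this]; group
  have e7 : u⁻¹ * σ u ∈ D.posUnipotent K ⊓ D.diagonalSubgroup K :=
    Subgroup.mem_inf.mpr ⟨mul_mem (inv_mem hu) (sg_mem_posU hD hT hinj φ R hu), by
      rw [e6]; exact mul_mem hh (inv_mem (mul_mem (sg_mem_diag hD hT hinj φ R hodd hh) hh2))⟩
  rw [posU_inf_diag hD, Subgroup.mem_bot] at e7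
  have e8 : σ u = u := by
    have := congrArg (fun z => u * z) e7
    simpa using this
  have e9 : σ h * h2 = h := by
    rw [e8, mul_assoc] at e
    exact mul_left_cancel e
  exact ⟨u, ⟨hu, hug, e8⟩, h, hh, e9, e5⟩

theorem fixed_normal_formR {g : GL D.Idx K} (hg : g ∈ Fx) :
    ∃ u ∈ D.posUnipotent K ⊓ Fx, ∃ h ∈ D.diagonalSubgroup K, ∃ L : List ℕ, Red D L ∧
      om (sP hD) (L.map R.p) = om (sP hD) L ∧ h * nR hD K L ∈ Fx ∧
      ∃ u' ∈ FUr hD hT hinj φ (nR hD K L), g = u * (h * nR hD K L) * u' := by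
  obtain ⟨hgG, hfix⟩ := hg
  obtain ⟨b, hb, L, hL, u', hu', rfl⟩ := normal_form_exists hD hgG
  have hm := nR_mem_mono (F := K) hD L hL.lt
  have hm' := nR_mem_mono (F := K) hD (L.map R.p) (R.map_lt hL.lt)
  have hbG := borel_le_group hD hb
  have hmG := mono_le_group hD hm
  have hu'U := Uw_le_posU _ hu'
  have hu'G := posU_le_group hD hu'U
  have e0 : σ b * nR hD K (L.map R.p) * σ u' = b * nR hD K L * u' := by
    rw [← sg_nR hD hT hinj φ R hodd L hL.lt, ← sg_mul hD hT hinj φ hbG hmG,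
      ← sg_mul hD hT hinj φ (mul_mem hbG hmG) hu'G]
    exact hfix
  have h1 := bruhat_unique hD hm hm' hb (sg_mem_borel hD hT hinj φ R hodd hb)
    (posU_le_borel hD hu'U)
    (posU_le_borel hD (sg_mem_posU hD hT hinj φ R hu'U)) e0.symm
  have hst : om (sP hD) (L.map R.p) = om (sP hD) L := by
    apply om_of_nR_eq (F := K) hD (R.map_lt hL.lt) hL.lt
    refine ⟨nR hD K L * ((nR hD K L)⁻¹ * nR hD K (L.map R.p)) * (nR hD K L)⁻¹,
      mono_conj_diag hD hm h1, ?_⟩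
    group
  obtain ⟨h2, hh2, e2⟩ := nR_eq_of_om (F := K) hD (R.map_lt hL.lt) hL.lt hst
  have hus : σ u' ∈ Uw D K (nR hD K L) := by
    apply mem_Uw_of hD hL (sg_mem_posU hD hT hinj φ R hu'U)
    have h3 := sg_mem_negU hD hT hinj φ R (conj_Uw_mem_negU hu')
    rw [sg_mul hD hT hinj φ (mul_mem hmG hu'G) (inv_mem hmG), sg_mul hD hT hinj φ hmG hu'G,
      sg_inv hD hT hinj φ hmG, sg_nR hD hT hinj φ R hodd L hL.lt, e2] at h3
    have h4 : nR hD K L * σ u' * (nR hD K L)⁻¹ =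
        h2⁻¹ * (h2 * nR hD K L * σ u' * (h2 * nR hD K L)⁻¹) * (h2⁻¹)⁻¹ := by group
    rw [h4]
    exact (Subgroup.le_normalizer_iff.mp (diag_le_normalizer_negU hD)) _ (inv_mem hh2) _ h3
  have e3 : (σ b * h2) * nR hD K L * σ u' = b * nR hD K L * u' := by
    rw [← e0, e2]; group
  obtain ⟨e4, e5⟩ := normal_form_unique hD
    (mul_mem (sg_mem_borel hD hT hinj φ R hodd hb) (diag_le_borel hD hh2)) hb hus hu' e3
  obtain ⟨u, hu, h, hh, e6, rfl⟩ := fixed_borelR hD hT hinj φ R hodd hb hh2 e4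
  have hhG := diag_le_group hD hh
  have hmfix : h * nR hD K L ∈ Fx := by
    refine ⟨mul_mem hhG hmG, ?_⟩
    rw [sg_mul hD hT hinj φ hhG hmG, sg_nR hD hT hinj φ R hodd L hL.lt, e2, ← mul_assoc, e6]
  exact ⟨u, hu, h, hh, L, hL, hst, hmfix, u', ⟨hu', hu'G, e5⟩, by group⟩

variable {G1 : Subgroup (GL D.Idx K)} {Bl : List (List ℕ)} {q : ℕ} {wt : List ℕ → ℕ}
  (B : RBlk hD hT hinj φ G1 Bl q wt) (Rp : Finset (List (List ℕ)))
  (hR : ∀ M ∈ Rp, (∀ J ∈ M, J ∈ Bl) ∧ Red D M.flatten)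
  (hC : ∀ L : List ℕ, (∀ i ∈ L, i < D.rank) → om (sP hD) (L.map R.p) = om (sP hD) L →
    ∃ M ∈ Rp, om (sP hD) M.flatten = om (sP hD) L)
include B hR hC

theorem fixed_normal_formM {g : GL D.Idx K} (hg : g ∈ Fx) :
    ∃ u ∈ D.posUnipotent K ⊓ Fx, ∃ h ∈ D.diagonalSubgroup K ⊓ Fx, ∃ M ∈ Rp,
      ∃ u' ∈ FUr hD hT hinj φ (nR hD K M.flatten), g = u * h * nR hD K M.flatten * u' := by
  obtain ⟨u, hu, h, hh, L, hL, hst, hm, u', hu', rfl⟩ := fixed_normal_formR hD hT hinj φ R hodd hg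
  obtain ⟨M, hM, e⟩ := hC L hL.lt hst
  have hMl := (hR M hM).2.lt
  obtain ⟨h3, hh3, e3⟩ := nR_eq_of_om (F := K) hD hL.lt hMl e.symm
  have hUw : Uw D K (nR hD K L) = Uw D K (nR hD K M.flatten) :=
    Uw_congr hD (act_nR hD _ hL.lt) (act_nR hD _ hMl) ((om_eq_iff hD hL.lt hMl).mp e.symm)
  have hnM := B.le (B.nR_flatten_mem hD hT hinj φ (hR M hM).1)
  have hfix : h * h3 ∈ Fx := by
    have : h * h3 = (h * nR hD K L) * (nR hD K M.flatten)⁻¹ := by rw [e3]; group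
    rw [this]
    exact mul_mem hm (inv_mem hnM)
  have hd : h * h3 ∈ D.diagonalSubgroup K := mul_mem hh hh3
  refine ⟨u, hu, h * h3, ⟨hd, hfix⟩, M, hM, u', ?_, ?_⟩
  · rw [FUr, ← hUw]; exact hu'
  · rw [e3]; group

/-- if the fixed points of the torus lie in `G¹`, then `G¹` is the group of all fixed points -/
theorem fixR_eq_G1 {M0 : List (List ℕ)} (hM0 : M0 ∈ Rp) (h0 : chkW0 D (nrowOf D) M0.flatten = true)
    (hH : D.diagonalSubgroup K ⊓ Fx ≤ G1) : G1 = Fx := by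
  apply le_antisymm B.le
  intro g hg
  obtain ⟨u, hu, h, hh, M, hM, u', hu', rfl⟩ := fixed_normal_formM hD hT hinj φ R hodd B Rp hR hC hg
  have hU : D.posUnipotent K ⊓ Fx ≤ G1 := by
    have := B.FUr_le hD hT hinj φ R (hR M0 hM0).1 (hR M0 hM0).2
    rwa [FUr, Uw_eq_posU hD h0] at this
  exact mul_mem (mul_mem (mul_mem (hU hu) (hH hh)) (B.nR_flatten_mem hD hT hinj φ (hR M hM).1))
    (B.FUr_le hD hT hinj φ R (hR M hM).1 (hR M hM).2 hu')

theorem card_posU_fixR {M0 : List (List ℕ)} (hM0 : M0 ∈ Rp) (h0 : chkW0 D (nrowOf D) M0.flatten = true) :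
    Nat.card ↥(D.posUnipotent K ⊓ Fx) = q ^ (M0.map wt).sum := by
  rw [← B.card_FUr hD hT hinj φ R (hR M0 hM0).1 (hR M0 hM0).2, FUr, Uw_eq_posU hD h0]

theorem card_fixR [Fintype K] {M0 : List (List ℕ)} (hM0 : M0 ∈ Rp) (h0 : chkW0 D (nrowOf D) M0.flatten = true)
    (hU : ∀ t ∈ Rp, ∀ t' ∈ Rp, om (sP hD) t.flatten = om (sP hD) t'.flatten → t = t') :
    Nat.card ↥Fx = q ^ (M0.map wt).sum * Nat.card ↥(D.diagonalSubgroup K ⊓ Fx) *
      ∑ t ∈ Rp, q ^ (t.map wt).sum := by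
  have hmem : ∀ (t : Rp) (x : (↥(D.posUnipotent K ⊓ Fx) × ↥(D.diagonalSubgroup K ⊓ Fx)) ×
      ↥(FUr hD hT hinj φ (nR hD K t.1.flatten))),
      (x.1.1 : GL D.Idx K) * x.1.2 * nR hD K t.1.flatten * x.2 ∈ Fx := fun t x =>
    mul_mem (mul_mem (mul_mem x.1.1.2.2 x.1.2.2.2) (B.le (B.nR_flatten_mem hD hT hinj φ (hR t.1 t.2).1))) x.2.2.2
  have key : Function.Bijective (fun x : (Σ t : Rp, (↥(D.posUnipotent K ⊓ Fx) ×
      ↥(D.diagonalSubgroup K ⊓ Fx)) × ↥(FUr hD hT hinj φ (nR hD K t.1.flatten))) =>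
      (⟨(x.2.1.1 : GL D.Idx K) * x.2.1.2 * nR hD K x.1.1.flatten * x.2.2, hmem x.1 x.2⟩ : ↥Fx)) := by
    constructor
    · rintro ⟨⟨t, ht⟩, ⟨⟨u, hu⟩, ⟨h, hh⟩⟩, ⟨v, hv⟩⟩ ⟨⟨t', ht'⟩, ⟨⟨u', hu'⟩, ⟨h', hh'⟩⟩, ⟨v', hv'⟩⟩ e
      have e1 : u * h * nR hD K t.flatten * v = u' * h' * nR hD K t'.flatten * v' := congrArg Subtype.val e
      have hm := nR_mem_mono (F := K) hD t.flatten (hR t ht).2.lt
      have hm' := nR_mem_mono (F := K) hD t'.flatten (hR t' ht').2.lt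
      have hb : u * h ∈ D.borelSubgroup K := mul_mem (posU_le_borel hD hu.1) (diag_le_borel hD hh.1)
      have hb' : u' * h' ∈ D.borelSubgroup K := mul_mem (posU_le_borel hD hu'.1) (diag_le_borel hD hh'.1)
      have h1 := bruhat_unique hD hm hm' hb hb' (posU_le_borel hD (Uw_le_posU _ hv.1))
        (posU_le_borel hD (Uw_le_posU _ hv'.1)) e1
      have h2 : t' = t := by
        apply hU t' ht' t ht
        apply om_of_nR_eq (F := K) hD (hR t' ht').2.lt (hR t ht).2.lt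
        refine ⟨nR hD K t.flatten * ((nR hD K t.flatten)⁻¹ * nR hD K t'.flatten) * (nR hD K t.flatten)⁻¹,
          mono_conj_diag hD hm h1, ?_⟩
        group
      subst h2
      obtain ⟨e2, rfl⟩ := normal_form_unique hD hb hb' hv.1 hv'.1 e1
      have e3 : u'⁻¹ * u = h' * h⁻¹ := by
        have : u = u' * h' * h⁻¹ := by rw [← e2]; group
        rw [this]; group
      have e4 : u'⁻¹ * u ∈ D.posUnipotent K ⊓ D.diagonalSubgroup K :=
        Subgroup.mem_inf.mpr ⟨mul_mem (inv_mem hu'.1) hu.1, by rw [e3]; exact mul_mem hh'.1 (inv_mem hh.1)⟩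
      rw [posU_inf_diag hD, Subgroup.mem_bot] at e4
      have e5 : u = u' := by
        have := congrArg (fun z => u' * z) e4
        simpa using this
      subst e5
      have e6 : h = h' := mul_left_cancel e2
      subst e6
      rfl
    · rintro ⟨g, hg⟩
      obtain ⟨u, hu, h, hh, M, hM, v, hv, rfl⟩ := fixed_normal_formM hD hT hinj φ R hodd B Rp hR hC hg
      exact ⟨⟨⟨M, hM⟩, ⟨⟨u, hu⟩, ⟨h, hh⟩⟩, ⟨v, hv⟩⟩, rfl⟩
  rw [← Nat.card_congr (Equiv.ofBijective _ key), Nat.card_sigma, Finset.mul_sum, ← Finset.sum_coe_sort Rp]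
  apply Finset.sum_congr rfl
  intro t _
  rw [Nat.card_prod, Nat.card_prod, card_posU_fixR hD hT hinj φ R hodd B Rp hR hC hM0 h0,
    B.card_FUr hD hT hinj φ R (hR t.1 t.2).1 (hR t.1 t.2).2]

end

end Cfsg.Agent.Lib.Helper8
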