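import Cfsg.Agent.Lib.Helper8.Ree15
import Cfsg.Agent.S0319

set_option autoImplicit false
set_option linter.unusedSectionVars false
set_option linter.unusedVariables false

/-! Simplicity of the Ree groups. -/

namespace Cfsg.Agent.Lib.Helper8

open Cfsg Cfsg.Lie

section
variable {K : Type*} [Field K] (φ : K →+* K)

theorem exists_unit_ree [Fintype K] (hcard : 3 < Fintype.card K) (hφ : ∀ t, φ (φ t) ^ 3 = t) :
    ∃ z : Kˣ, φ z ^ 3 ≠ z := by
  classical
  by_contra h
  push_neg at h
  have h1 : ∀ z : Kˣ, φ z = z := by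
    intro z
    have := h (Units.map (φ : K →* K) z)
    simp only [Units.coe_map, MonoidHom.coe_coe] at this
    rw [← this, hφ]
  have h2 : ∀ x : K, x ∈ ({0, 1, -1} : Finset K) := by
    intro x
    by_cases hx : x = 0
    · simp [hx]
    · have e := h (Units.mk0 x hx)
      rw [h1] at e
      simp only [Units.val_mk0] at e
      have e2 : (x - 1) * (x + 1) = 0 := by
        have : x * ((x - 1) * (x + 1)) = 0 := by linear_combination e
        rcases mul_eq_zero.mp this with h | h
        · exact absurd h hx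
        · exact h
      rcases mul_eq_zero.mp e2 with h | h
      · have : x = 1 := by linear_combination h
        simp [this]
      · have : x = -1 := by linear_combination h
        simp [this]
  have h3 : Fintype.card K ≤ ({0, 1, -1} : Finset K).card := by
    rw [← Finset.card_univ]
    exact Finset.card_le_card (fun x _ => h2 x)
  have h4 := Finset.card_le_three (a := (0 : K)) (b := 1) (c := -1)
  omega

variable [CharP K 3] [Fintype K] (hinj : Function.Injective (isoR1 hG2 isoOK_G2 (F := K)))
  (hφ : ∀ t, φ (φ t) ^ 3 = t)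
variable {h0 : GL chevG2.Idx K} (hh0 : h0 ∈ chevG2.diagonalSubgroup K) (hn : h0 * n0 hG2 K ∈ reeG φ)

omit [CharP K 3] in
theorem reeG_nontrivial : Nontrivial ↥(reeG φ) := by
  refine ⟨⟨⟨alphaR φ 0 0 1, alphaR_mem φ 0 0 1⟩, 1, ?_⟩⟩
  intro h
  have h1 : alphaR φ 0 0 1 = 1 := congrArg Subtype.val h
  rw [← alphaR_zero φ] at h1
  exact one_ne_zero (alphaR_inj φ h1).2.2

include hinj hφ hh0 hn

theorem reeG_simple (hperf : commutator ↥(reeG φ) = ⊤) :
    IsSimpleGroup ↥(reeG φ) ∧ ¬ IsMulCommutative ↥(reeG φ) := by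
  haveI := reeG_nontrivial φ
  constructor
  · refine Cfsg.Agent.S0319.result (bnPairRee φ hinj hφ hh0 hn) ?_ ?_ hperf (borel_core_ree φ hinj hφ hh0 hn)
    · intro J hJ hne hne'
      exfalso
      obtain ⟨s, hs⟩ := hne
      obtain ⟨s', hs', hs''⟩ := hne'
      have e1 : s = ⟨h0 * n0 hG2 K, hn⟩ := hJ hs
      have e2 : s' = ⟨h0 * n0 hG2 K, hn⟩ := hs'
      rw [e2, ← e1] at hs''
      exact hs'' hs
    · haveI := borel_solvable (F := K) hG2
      have hle : chevG2.borelSubgroup K ⊓ reeG φ ≤ chevG2.borelSubgroup K := inf_le_left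
      haveI : Group.IsSolvable ↥(chevG2.borelSubgroup K ⊓ reeG φ) :=
        Group.isSolvable_of_isSolvable_injective (f := Subgroup.inclusion hle) (Subgroup.inclusion_injective hle)
      exact Group.isSolvable_of_isSolvable_injective
        (f := (Subgroup.subgroupOfEquivOfLe (inf_le_right : chevG2.borelSubgroup K ⊓ reeG φ ≤ reeG φ)).toMonoidHom)
        (Subgroup.subgroupOfEquivOfLe (inf_le_right : chevG2.borelSubgroup K ⊓ reeG φ ≤ reeG φ)).injective
  · intro hc
    have h1 : commutator ↥(reeG φ) = ⊥ := by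
      rw [commutator_def, Subgroup.commutator_eq_bot_iff_le_centralizer]
      intro x _
      rw [Subgroup.mem_centralizer_iff]
      intro y _
      exact hc.is_comm.comm y x
    rw [hperf] at h1
    exact top_ne_bot h1

end

theorem three_lt_pow {m : ℕ} (hm : 1 ≤ m) : 3 < 3 ^ (2 * m + 1) := by
  calc 3 = 3 ^ 1 := by norm_num
    _ < 3 ^ (2 * m + 1) := Nat.pow_lt_pow_right (by norm_num) (by omega)

end Cfsg.Agent.Lib.Helper8
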