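import Cfsg.Agent.Lib.Helper8.Ree16
import Cfsg.Agent.Lib.Helper8.Ree19
import Cfsg.Agent.Lib.Helper8.Ree20

set_option autoImplicit false
set_option linter.unusedSectionVars false
set_option linter.unusedVariables false

/-! The Ree groups are generated by two elements. -/

namespace Cfsg.Agent.Lib.Helper8

open Cfsg Cfsg.Lie

theorem sq_or_neg_sq {K : Type*} [Field K] [Fintype K] (h4 : Fintype.card K % 4 = 3) {x : K} (hx : x ≠ 0) :
    (∃ y : K, y ≠ 0 ∧ x = y ^ 2) ∨ (∃ y : K, y ≠ 0 ∧ x = -y ^ 2) := by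
  classical
  have hm1 : ¬ IsSquare (-1 : K) := by
    rw [FiniteField.isSquare_neg_one_iff]
    simp [h4]
  by_cases hz : IsSquare x
  · obtain ⟨y, hy⟩ := hz
    have hy0 : y ≠ 0 := by
      rintro rfl
      exact hx (by rw [hy, mul_zero])
    exact Or.inl ⟨y, hy0, by rw [hy, sq]⟩
  · have h1 : quadraticChar K (-x) = 1 := by
      rw [← neg_one_mul, map_mul, quadraticChar_neg_one_iff_not_isSquare.mpr hm1,
        quadraticChar_neg_one_iff_not_isSquare.mpr hz]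
      norm_num
    obtain ⟨y, hy⟩ := (quadraticChar_one_iff_isSquare (neg_ne_zero.mpr hx)).mp h1
    have hy0 : y ≠ 0 := by
      rintro rfl
      exact hx (by rw [← neg_eq_zero, hy, mul_zero])
    exact Or.inr ⟨y, hy0, by rw [sq, ← hy, neg_neg]⟩

section
variable {K : Type*} [Field K] (φ : K →+* K)
variable [CharP K 3] [Fintype K] (hinj : Function.Injective (isoR1 hG2 isoOK_G2 (F := K)))
  (hφ : ∀ t, φ (φ t) ^ 3 = t)
include hinj hφ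

theorem exists_chR_6 {y : K} (hy : y ≠ 0) : ∃ z : Kˣ, chR φ z 6 = y := by
  have hy' : φ y ≠ 0 := by rwa [Ne, map_eq_zero]
  refine ⟨Units.mk0 (φ y ^ 3 * y ^ 2) (mul_ne_zero (pow_ne_zero _ hy') (pow_ne_zero _ hy)), ?_⟩
  rw [chR_6, Units.val_mk0, map_mul, map_pow, map_pow, hφ]
  field_simp

theorem exists_chR_10 {y : K} (hy : y ≠ 0) : ∃ z : Kˣ, chR φ z 10 = y ^ 2 := by
  have hy' : φ y ≠ 0 := by rwa [Ne, map_eq_zero]
  refine ⟨Units.mk0 (φ y ^ 3 * y) (mul_ne_zero (pow_ne_zero _ hy') hy), ?_⟩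
  rw [chR_10, Units.val_mk0, map_mul, map_pow, hφ]
  field_simp

theorem alphaR_mul_u (t u v t' u' v' : K) : ∃ v'' : K,
    alphaR φ t u v * alphaR φ t' u' v' = alphaR φ (t + t') (u - φ t' ^ 3 * t + u') v'' := by
  have hm : alphaR φ t u v * alphaR φ t' u' v' ∈ chevG2.posUnipotent K ⊓ reeG φ :=
    mul_mem ((mem_posU_inf_reeG φ hinj hφ).mpr ⟨_, _, _, rfl⟩) ((mem_posU_inf_reeG φ hinj hφ).mpr ⟨_, _, _, rfl⟩)
  obtain ⟨a, b, c, e⟩ := (mem_posU_inf_reeG φ hinj hφ).mp hm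
  refine ⟨c, ?_⟩
  rw [e]
  unfold alphaR at e
  rw [P6_mul] at e
  obtain ⟨-, e2, -, -, e5, -⟩ := P6_inj e
  rw [e2, e5]

theorem alphaR_mem_of {L : Subgroup (GL chevG2.Idx K)} (h4 : Fintype.card K % 4 = 3)
    (hz : ∃ z : Kˣ, φ z ^ 3 ≠ z) (hL : ∀ z : Kˣ, hR φ z ∈ L) {t₀ u₀ v₀ : K} (ht₀ : t₀ ≠ 0)
    (h0 : alphaR φ t₀ u₀ v₀ ∈ L) (t u v : K) : alphaR φ t u v ∈ L := by
  have hU : ∀ t u v, alphaR φ t u v ∈ chevG2.posUnipotent K ⊓ reeG φ :=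
    fun t u v => (mem_posU_inf_reeG φ hinj hφ).mpr ⟨t, u, v, rfl⟩
  have conj : ∀ (z : Kˣ) (t u v : K), alphaR φ t u v ∈ L →
      alphaR φ (chR φ z 6 * t) (chR φ z 10 * u) (chR φ z 11 * v) ∈ L := by
    intro z t u v h
    rw [← conj_hR_alphaR φ hinj hφ]
    exact mul_mem (mul_mem (hL z) h) (inv_mem (hL z))
  have A : ∀ t, ∃ u v, alphaR φ t u v ∈ L := by
    intro t
    by_cases ht : t = 0
    · exact ⟨0, 0, by rw [ht, alphaR_zero]; exact one_mem _⟩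
    · obtain ⟨z, hz⟩ := exists_chR_6 φ hinj hφ (div_ne_zero ht ht₀)
      have := conj z _ _ _ h0
      rw [hz, div_mul_cancel₀ _ ht₀] at this
      exact ⟨_, _, this⟩
  have B : ∀ v, alphaR φ 0 0 v ∈ L := by
    have hc : alphaR φ t₀ u₀ v₀ ^ 3 ∈ L := pow_mem h0 3
    obtain ⟨a, b, c, e⟩ := (mem_posU_inf_reeG φ hinj hφ).mp (pow_mem (hU t₀ u₀ v₀) 3)
    have hne := alphaR_cube_ne φ ht₀ u₀ v₀
    obtain ⟨c', d', e1⟩ := P6_cube (φ t₀) t₀ (φ t₀ * t₀ + φ u₀) (φ t₀ ^ 2 * t₀ + φ v₀) u₀ v₀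
    have e2 : P6 K 0 0 c' d' 0 (-(φ t₀ ^ 3 * t₀ ^ 2)) = alphaR φ a b c := by
      rw [← e1, ← e]; rfl
    unfold alphaR at e2
    obtain ⟨-, f2, -, -, f5, f6⟩ := P6_inj e2
    have hc0 : c ≠ 0 := by
      rintro rfl
      apply hne
      rw [e, ← f2, ← f5, alphaR_zero]
    rw [e, ← f2, ← f5] at hc
    intro v
    by_cases hv : v = 0
    · rw [hv, alphaR_zero]; exact one_mem _
    · have := conj (Units.mk0 (v / c) (div_ne_zero hv hc0)) _ _ _ hc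
      rw [mul_zero, mul_zero, chR_11, Units.val_mk0, div_mul_cancel₀ _ hc0] at this
      exact this
  obtain ⟨z, hz⟩ := hz
  obtain ⟨a1, b1, g1⟩ := A 1
  obtain ⟨a2, b2, g2⟩ := A (z : K)
  have C : ∃ u₁ v₁, u₁ ≠ 0 ∧ alphaR φ 0 u₁ v₁ ∈ L := by
    have hcL : (alphaR φ z a2 b2 * alphaR φ 1 a1 b1)⁻¹ * (alphaR φ 1 a1 b1 * alphaR φ z a2 b2) ∈ L :=
      mul_mem (inv_mem (mul_mem g2 g1)) (mul_mem g1 g2)
    obtain ⟨tc, uc, vc, e⟩ := (mem_posU_inf_reeG φ hinj hφ).mp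
      (mul_mem (inv_mem (mul_mem (hU z a2 b2) (hU 1 a1 b1))) (mul_mem (hU 1 a1 b1) (hU z a2 b2)))
    have e' : alphaR φ z a2 b2 * alphaR φ 1 a1 b1 * alphaR φ tc uc vc =
        alphaR φ 1 a1 b1 * alphaR φ z a2 b2 := by
      rw [← e]; group
    obtain ⟨w1, m1⟩ := alphaR_mul_u φ hinj hφ 1 a1 b1 z a2 b2
    obtain ⟨w2, m2⟩ := alphaR_mul_u φ hinj hφ z a2 b2 1 a1 b1
    rw [m1, m2] at e'
    obtain ⟨w3, m3⟩ := alphaR_mul_u φ hinj hφ (z + 1) (a2 - φ 1 ^ 3 * z + a1) w2 tc uc vc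
    rw [m3] at e'
    obtain ⟨f1, f2, -⟩ := alphaR_inj φ e'
    have htc : tc = 0 := by linear_combination f1
    rw [htc, map_zero, map_one] at f2
    have huc : uc = z - φ z ^ 3 := by linear_combination f2
    refine ⟨uc, vc, ?_, ?_⟩
    · rw [huc]
      intro h
      exact hz (by linear_combination -h)
    · rw [← htc, ← e]
      exact hcL
  obtain ⟨u₁, v₁, hu₁, hC⟩ := C
  have D0 : alphaR φ 0 u₁ 0 ∈ L := by
    have := mul_mem hC (B (-v₁))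
    rwa [alphaR_0_mul, add_zero, add_neg_cancel] at this
  have D1 : ∀ y : K, y ≠ 0 → alphaR φ 0 (y ^ 2 * u₁) 0 ∈ L := by
    intro y hy
    obtain ⟨z', hz'⟩ := exists_chR_10 φ hinj hφ hy
    have := conj z' _ _ _ D0
    rwa [hz', mul_zero, mul_zero] at this
  have D : ∀ u, alphaR φ 0 u 0 ∈ L := by
    intro u
    by_cases hu : u = 0
    · rw [hu, alphaR_zero]; exact one_mem _
    · have hu' : u = (u / u₁) * u₁ := (div_mul_cancel₀ _ hu₁).symm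
      rcases sq_or_neg_sq h4 (div_ne_zero hu hu₁) with ⟨y, hy0, hy⟩ | ⟨y, hy0, hy⟩
      · rw [hu', hy]
        exact D1 y hy0
      · have := inv_mem (D1 y hy0)
        rw [alphaR_0_inv, neg_zero] at this
        rw [hu', hy, neg_mul]
        exact this
  obtain ⟨a, b, g⟩ := A t
  obtain ⟨t', u', v', e⟩ := (mem_posU_inf_reeG φ hinj hφ).mp (mul_mem (inv_mem (hU t a b)) (hU t u v))
  have e' : alphaR φ t a b * alphaR φ t' u' v' = alphaR φ t u v := by rw [← e]; group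
  obtain ⟨w, m⟩ := alphaR_mul_u φ hinj hφ t a b t' u' v'
  have e'' := e'
  rw [m] at e''
  have ht' : t' = 0 := by linear_combination (alphaR_inj φ e'').1
  rw [← e', ht', show alphaR φ 0 u' v' = alphaR φ 0 u' 0 * alphaR φ 0 0 v' by
    rw [alphaR_0_mul, add_zero, zero_add]]
  exact mul_mem g (mul_mem (D u') (B v'))

variable {h0 : GL chevG2.Idx K} (hh0 : h0 ∈ chevG2.diagonalSubgroup K) (hn : h0 * n0 hG2 K ∈ reeG φ)
include hh0 hn

theorem ree_two_gen (h4 : Fintype.card K % 4 = 3) (hcard : 3 < Fintype.card K)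
    (hH : chevG2.diagonalSubgroup K ⊓ reeG φ = (hR φ).range) :
    ∃ a b : GL chevG2.Idx K, a ∈ reeG φ ∧ b ∈ reeG φ ∧ Subgroup.closure {a, b} = reeG φ := by
  obtain ⟨ζ, hζ⟩ := IsCyclic.exists_generator (α := Kˣ)
  have haR : hR φ ζ ∈ reeG φ := hR_mem_reeG φ hinj hφ h4 ζ
  have hbR : alphaR φ 1 0 0 * (h0 * n0 hG2 K) ∈ reeG φ := mul_mem (alphaR_mem φ 1 0 0) hn
  refine ⟨hR φ ζ, alphaR φ 1 0 0 * (h0 * n0 hG2 K), haR, hbR, le_antisymm ?_ ?_⟩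
  · rw [Subgroup.closure_le]
    rintro g (rfl | rfl)
    exacts [haR, hbR]
  generalize hLdef : Subgroup.closure {hR φ ζ, alphaR φ 1 0 0 * (h0 * n0 hG2 K)} = L
  have ha : hR φ ζ ∈ L := by rw [← hLdef]; exact Subgroup.subset_closure (by simp)
  have hb : alphaR φ 1 0 0 * (h0 * n0 hG2 K) ∈ L := by rw [← hLdef]; exact Subgroup.subset_closure (by simp)
  have hL : ∀ z, hR φ z ∈ L := by
    intro z
    obtain ⟨k, rfl⟩ := Subgroup.mem_zpowers_iff.mp (hζ z)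
    rw [map_zpow]
    exact zpow_mem ha k
  have hh' : (h0 * n0 hG2 K) * hR φ ζ * (h0 * n0 hG2 K)⁻¹ ∈ chevG2.diagonalSubgroup K ⊓ reeG φ :=
    Subgroup.mem_inf.mpr ⟨mono_conj_diag hG2 (nstar_mem_mono hh0) (hR_mem_diag φ ζ),
      (reeG φ).mul_mem ((reeG φ).mul_mem hn haR) ((reeG φ).inv_mem hn)⟩
  rw [hH] at hh'
  obtain ⟨z', hz'⟩ := hh'
  have hz1 : z' ≠ 1 := by
    rintro rfl
    rw [map_one] at hz'
    have e1 : hR φ ζ = 1 := by
      have : hR φ ζ = (h0 * n0 hG2 K)⁻¹ * ((h0 * n0 hG2 K) * hR φ ζ * (h0 * n0 hG2 K)⁻¹) * (h0 * n0 hG2 K) := by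
        group
      rw [this, ← hz']; group
    have e2 : ζ = 1 := hR_injective φ (by rw [e1, map_one])
    obtain ⟨w, hw⟩ := exists_unit_ree φ hcard hφ
    obtain ⟨k, hk⟩ := Subgroup.mem_zpowers_iff.mp (hζ w)
    rw [e2, one_zpow] at hk
    apply hw
    rw [← hk]
    simp
  have hy : (hR φ z'⁻¹ * alphaR φ 1 0 0 * (hR φ z'⁻¹)⁻¹) * (alphaR φ 1 0 0)⁻¹ ∈ L := by
    have e : (hR φ z'⁻¹ * alphaR φ 1 0 0 * (hR φ z'⁻¹)⁻¹) * (alphaR φ 1 0 0)⁻¹ =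
        hR φ z'⁻¹ * ((alphaR φ 1 0 0 * (h0 * n0 hG2 K)) * hR φ ζ * (alphaR φ 1 0 0 * (h0 * n0 hG2 K))⁻¹) := by
      rw [map_inv, hz']; group
    rw [e]
    exact mul_mem (hL _) (mul_mem (mul_mem hb ha) (inv_mem hb))
  rw [conj_hR_alphaR φ hinj hφ] at hy
  obtain ⟨u', v', ei⟩ := alphaR_inv φ hinj hφ 1 0 0
  rw [ei] at hy
  obtain ⟨u'', v'', em⟩ := alphaR_mul φ hinj hφ (chR φ z'⁻¹ 6 * 1) (chR φ z'⁻¹ 10 * 0) (chR φ z'⁻¹ 11 * 0)
    (-1) u' v'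
  rw [em] at hy
  have ht0 : chR φ z'⁻¹ 6 * 1 + -1 ≠ 0 := by
    intro h
    have h6 : chR φ z'⁻¹ 6 = 1 := by linear_combination h
    have hcen : hR φ z'⁻¹ * alphaR φ 1 0 0 * (hR φ z'⁻¹)⁻¹ = alphaR φ 1 0 0 := by
      rw [conj_hR_alphaR φ hinj hφ, h6, mul_one, mul_zero, mul_zero]
    have := (hR_centralizes φ hinj hφ hcen).2.2 one_ne_zero
    exact hz1 (inv_eq_one.mp this)
  have hU := alphaR_mem_of φ hinj hφ h4 (exists_unit_ree φ hcard hφ) hL ht0 hy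
  have hnL : h0 * n0 hG2 K ∈ L := by
    have : h0 * n0 hG2 K = (alphaR φ 1 0 0)⁻¹ * (alphaR φ 1 0 0 * (h0 * n0 hG2 K)) := by group
    rw [this]
    exact mul_mem (inv_mem (hU 1 0 0)) hb
  unfold reeG
  rw [Subgroup.closure_le]
  rintro g (⟨t, u, v, rfl⟩ | ⟨t, u, v, rfl⟩)
  · exact hU t u v
  · obtain ⟨t', u', v', e⟩ := betaR_eq_conj φ hinj hφ hh0 hn t u v
    rw [e]
    exact mul_mem (mul_mem hnL (hU _ _ _)) (inv_mem hnL)

theorem ree_two_gen' (h4 : Fintype.card K % 4 = 3) (hcard : 3 < Fintype.card K)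
    (hH : chevG2.diagonalSubgroup K ⊓ reeG φ = (hR φ).range) :
    ∃ a b : ↥(reeG φ), Subgroup.closure ({a, b} : Set ↥(reeG φ)) = ⊤ := by
  obtain ⟨a, b, ha, hb, e⟩ := ree_two_gen φ hinj hφ hh0 hn h4 hcard hH
  refine ⟨⟨a, ha⟩, ⟨b, hb⟩, ?_⟩
  apply Subgroup.map_injective (reeG φ).subtype_injective
  rw [MonoidHom.map_closure, ← MonoidHom.range_eq_map, Subgroup.range_subtype, Set.image_pair]
  exact e

end

end Cfsg.Agent.Lib.Helper8
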