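import Cfsg.Agent.Lib.Helper8.SL2a

set_option autoImplicit false
set_option linter.unusedSectionVars false
set_option linter.unusedVariables false

/-! More on `SL₂(F)`. -/

namespace Cfsg.Agent.Lib.Helper8

section
variable {G : Type*} [Group G] {F : Type*} [Field F]

def sl2y (s : F) : Matrix.SpecialLinearGroup (Fin 2) F := ⟨!![1, 0; s, 1], by simp [Matrix.det_fin_two_of]⟩

theorem Rk1.hom_n {X Y : F → G} (h : Rk1 X Y) {t : F} (ht : t ≠ 0) : h.hom (sl2n t ht) = r1N X Y t := by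
  show r1Fe X Y (0 : F) t (-t⁻¹) 0 = _
  unfold r1Fe
  rw [if_neg (neg_ne_zero.mpr (inv_ne_zero ht)), zero_div, h.X0, one_mul, mul_one, inv_neg, inv_inv, neg_neg]

theorem sl2_induct {P : Matrix.SpecialLinearGroup (Fin 2) F → Prop} (hx : ∀ u, P (sl2x u))
    (hn : ∀ t ht, P (sl2n t ht)) (hmul : ∀ a b, P a → P b → P (a * b)) (g : Matrix.SpecialLinearGroup (Fin 2) F) :
    P g := by
  by_cases hc : g.1 1 0 = 0
  · have ha : g.1 0 0 ≠ 0 := by
      intro ha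
      have := sl2_det g
      rw [hc, ha] at this
      simp at this
    rw [sl2_small g hc ha]
    exact hmul _ _ (hmul _ _ (hx _) (hn _ _)) (hn _ _)
  · rw [sl2_big g hc]
    exact hmul _ _ (hmul _ _ (hx _) (hn _ _)) (hx _)

theorem sl2_x_n (β : F) {t : F} (ht : t ≠ 0) : sl2x β * sl2n t ht = sl2n t ht * sl2y (-(t⁻¹ ^ 2 * β)) := by
  obtain ⟨b1, b2, b3, b4⟩ := sl2_mul_n (sl2x β) ht
  have e : (sl2n t ht * sl2y (-(t⁻¹ ^ 2 * β))).1 = !![0, t; -t⁻¹, 0] * !![1, 0; -(t⁻¹ ^ 2 * β), 1] := rfl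
  have c1 : (sl2x β).1 0 0 = 1 := rfl
  have c2 : (sl2x β).1 0 1 = β := rfl
  have c3 : (sl2x β).1 1 0 = 0 := rfl
  have c4 : (sl2x β).1 1 1 = 1 := rfl
  apply sl2_ext
  · rw [b1, c2, e]; simp [Matrix.mul_apply, Fin.sum_univ_two]; field_simp
  · rw [b2, c1, e]; simp [Matrix.mul_apply, Fin.sum_univ_two]
  · rw [b3, c4, e]; simp [Matrix.mul_apply, Fin.sum_univ_two]
  · rw [b4, c3, e]; simp [Matrix.mul_apply, Fin.sum_univ_two]

theorem sl2_map_x (σ : F →+* F) (u : F) : Matrix.SpecialLinearGroup.map σ (sl2x u) = sl2x (σ u) := by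
  apply sl2_ext
  · show σ 1 = 1
    exact map_one σ
  · rfl
  · show σ 0 = 0
    exact map_zero σ
  · show σ 1 = 1
    exact map_one σ

theorem sl2_map_y (σ : F →+* F) (u : F) : Matrix.SpecialLinearGroup.map σ (sl2y u) = sl2y (σ u) := by
  apply sl2_ext
  · show σ 1 = 1
    exact map_one σ
  · show σ 0 = 0
    exact map_zero σ
  · rfl
  · show σ 1 = 1
    exact map_one σ

theorem sl2_map_n (σ : F →+* F) {t : F} (ht : t ≠ 0) :
    Matrix.SpecialLinearGroup.map σ (sl2n t ht) = sl2n (σ t) (by rwa [Ne, map_eq_zero]) := by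
  apply sl2_ext
  · show σ 0 = 0
    exact map_zero σ
  · rfl
  · show σ (-t⁻¹) = -(σ t)⁻¹
    rw [map_neg, map_inv₀]
  · show σ 0 = 0
    exact map_zero σ

/-- scalar matrices -/
def IsSc (g : Matrix.SpecialLinearGroup (Fin 2) F) : Prop := g.1 0 1 = 0 ∧ g.1 1 0 = 0 ∧ g.1 0 0 = g.1 1 1

theorem mem_center_iff_isSc (g : Matrix.SpecialLinearGroup (Fin 2) F) :
    g ∈ Subgroup.center (Matrix.SpecialLinearGroup (Fin 2) F) ↔ IsSc g := by
  rw [Matrix.SpecialLinearGroup.mem_center_iff]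
  constructor
  · rintro ⟨r, -, hr⟩
    have h' : g.1 = Matrix.scalar (Fin 2) r := hr.symm
    refine ⟨?_, ?_, ?_⟩ <;> rw [h'] <;> simp
  · rintro ⟨h1, h2, h3⟩
    have hdet := sl2_det g
    refine ⟨g.1 0 0, ?_, ?_⟩
    · rw [h1, zero_mul, sub_zero, ← h3] at hdet
      simpa [sq] using hdet
    · ext i j
      fin_cases i <;> fin_cases j
      · simp
      · simpa using h1.symm
      · simpa using h2.symm
      · simpa using h3

theorem sl2_sq_entries (g : Matrix.SpecialLinearGroup (Fin 2) F) :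
    (g * g).1 0 1 = g.1 0 1 * (g.1 0 0 + g.1 1 1) ∧ (g * g).1 1 0 = g.1 1 0 * (g.1 0 0 + g.1 1 1) ∧
    (g * g).1 0 0 - (g * g).1 1 1 = (g.1 0 0 - g.1 1 1) * (g.1 0 0 + g.1 1 1) ∧
    (g * g).1 0 0 + (g * g).1 1 1 = (g.1 0 0 + g.1 1 1) ^ 2 - 2 := by
  have e : (g * g).1 = g.1 * g.1 := rfl
  have hdet := sl2_det g
  rw [e]
  simp only [Matrix.mul_apply, Fin.sum_univ_two]
  refine ⟨by ring, by ring, by ring, ?_⟩
  linear_combination (-2 : F) * hdet

theorem isSc_sq_of_four (h2 : ¬ IsSquare (2 : F)) (g : Matrix.SpecialLinearGroup (Fin 2) F)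
    (h : IsSc ((g * g) * (g * g))) : IsSc (g * g) := by
  obtain ⟨a1, a2, a3, a4⟩ := sl2_sq_entries (g * g)
  obtain ⟨b1, b2, b3, b4⟩ := sl2_sq_entries g
  obtain ⟨h01, h10, h00⟩ := h
  have hτ : (g * g).1 0 0 + (g * g).1 1 1 ≠ 0 := by
    intro h0
    apply h2
    rw [b4] at h0
    exact ⟨g.1 0 0 + g.1 1 1, by linear_combination -h0⟩
  refine ⟨?_, ?_, ?_⟩
  · rw [a1] at h01
    exact (mul_eq_zero.mp h01).resolve_right hτ
  · rw [a2] at h10
    exact (mul_eq_zero.mp h10).resolve_right hτ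
  · have : ((g * g).1 0 0 - (g * g).1 1 1) * ((g * g).1 0 0 + (g * g).1 1 1) = 0 := by
      rw [← a3, h00, sub_self]
    exact sub_eq_zero.mp ((mul_eq_zero.mp this).resolve_right hτ)

theorem isSc_sq_of_pow (h2 : ¬ IsSquare (2 : F)) : ∀ (k : ℕ) (g : Matrix.SpecialLinearGroup (Fin 2) F),
    IsSc (g ^ 2 ^ (k + 1)) → IsSc (g * g)
  | 0, g, h => by simpa [sq] using h
  | k + 1, g, h => by
    apply isSc_sq_of_pow h2 k g
    have e : g ^ 2 ^ (k + 1 + 1) = (g ^ 2 ^ k * g ^ 2 ^ k) * (g ^ 2 ^ k * g ^ 2 ^ k) := by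
      rw [← pow_add, ← pow_add]
      congr 1
      ring
    rw [e] at h
    have := isSc_sq_of_four h2 _ h
    rwa [← pow_add, show 2 ^ k + 2 ^ k = 2 ^ (k + 1) by ring] at this

end

end Cfsg.Agent.Lib.Helper8
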