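import Cfsg.Agent.Lib.Helper8.SL2b
import Cfsg.Agent.Lib.Helper8.SL2c
import Cfsg.Agent.Lib.Helper8.Ree21

set_option autoImplicit false
set_option linter.unusedSectionVars false
set_option linter.unusedVariables false

/-! The centraliser of an involution in the small Ree groups: the subgroup `PSL₂(q)`. -/

namespace Cfsg.Agent.Lib.Helper8

open Cfsg Cfsg.Lie

section
variable {K : Type*} [Field K]

noncomputable def ph8 (K : Type*) [Field K] : Matrix.SpecialLinearGroup (Fin 2) K →* GL chevG2.Idx K :=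
  (rk1_chev (F := K) hG2 (r := 8) (by decide)).hom

noncomputable def ph10 (K : Type*) [Field K] : Matrix.SpecialLinearGroup (Fin 2) K →* GL chevG2.Idx K :=
  (rk1_chev (F := K) hG2 (r := 10) (by decide)).hom

theorem ph_commute (x y : Matrix.SpecialLinearGroup (Fin 2) K) : Commute (ph8 K x) (ph10 K y) := by
  have h1 : ∀ s ∈ [10, 1], ∀ (u : K), ph8 K x ∈ Subgroup.centralizer {xG hG2 K s u} := by
    intro s hs u
    apply Rk1.hom_mem
    · intro t
      rw [Subgroup.mem_centralizer_singleton_iff]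
      exact (G2_orth_commute (by simp) hs t u).eq
    · intro t
      rw [Subgroup.mem_centralizer_singleton_iff]
      exact (G2_orth_commute (r := chevG2.neg 8) (by decide) hs t u).eq
  have h2 : ph10 K y ∈ Subgroup.centralizer {ph8 K x} := by
    apply Rk1.hom_mem
    · intro u
      have := h1 10 (by simp) u
      rw [Subgroup.mem_centralizer_singleton_iff] at this ⊢
      exact this.symm
    · intro u
      have := h1 (chevG2.neg 10) (by decide) u
      rw [Subgroup.mem_centralizer_singleton_iff] at this ⊢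
      exact this.symm
  rw [Subgroup.mem_centralizer_singleton_iff] at h2
  exact h2.symm

variable (φ : K →+* K)

noncomputable def psiR : Matrix.SpecialLinearGroup (Fin 2) K →* GL chevG2.Idx K :=
  MonoidHom.mk' (fun g => ph8 K (Matrix.SpecialLinearGroup.map φ g) * ph10 K g) (by
    intro a b
    rw [map_mul, map_mul, map_mul]
    have c := ph_commute (Matrix.SpecialLinearGroup.map φ b) a
    generalize ph8 K (Matrix.SpecialLinearGroup.map φ a) = A8 at *
    generalize ph8 K (Matrix.SpecialLinearGroup.map φ b) = B8 at *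
    generalize ph10 K a = A10 at *
    generalize ph10 K b = B10 at *
    calc A8 * B8 * (A10 * B10) = A8 * (B8 * A10) * B10 := by group
      _ = A8 * (A10 * B8) * B10 := by rw [c.eq]
      _ = _ := by group)

theorem psiR_apply (g : Matrix.SpecialLinearGroup (Fin 2) K) :
    psiR φ g = ph8 K (Matrix.SpecialLinearGroup.map φ g) * ph10 K g := rfl

theorem psiR_x (u : K) : psiR φ (sl2x u) = alphaR φ 0 u 0 := by
  rw [psiR_apply, sl2_map_x, alphaR_0u0]
  congr 1
  · exact Rk1.hom_x _ rfl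
  · exact Rk1.hom_x _ rfl

theorem psiR_n {t : K} (ht : t ≠ 0) : psiR φ (sl2n t ht) = n1R φ t := by
  rw [psiR_apply, sl2_map_n]
  unfold n1R
  congr 1
  · exact Rk1.hom_n _ _
  · exact Rk1.hom_n _ _

theorem psiR_y_mem (s : K) : psiR φ (sl2y s) ∈ chevG2.negUnipotent K := by
  rw [psiR_apply, sl2_map_y]
  apply mul_mem
  · have : ph8 K (sl2y (φ s)) = xG hG2 K (chevG2.neg 8) (φ s) := Rk1.hom_y _ rfl
    rw [this]
    exact xG_mem_negU hG2 ((isNeg_iff hG2).mpr (by decide)) _
  · have : ph10 K (sl2y s) = xG hG2 K (chevG2.neg 10) s := Rk1.hom_y _ rfl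
    rw [this]
    exact xG_mem_negU hG2 ((isNeg_iff hG2).mpr (by decide)) _

theorem n1R_mul_neg (u : K) : n1R φ u * n1R φ (-1) = hG hG2 K 8 (φ u) * hG hG2 K 10 u := by
  unfold n1R hG
  rw [map_neg, map_one]
  have c := nG_orth_commute (K := K) (-1) u
  generalize nG hG2 K 8 (φ u) = A at *
  generalize nG hG2 K 10 u = B at *
  generalize nG hG2 K 8 (-1) = C at *
  generalize nG hG2 K 10 (-1) = E at *
  calc A * B * (C * E) = A * (B * C) * E := by group
    _ = A * (C * B) * E := by rw [c.eq]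
    _ = A * C * (B * E) := by group

theorem n1R_mem_mono {t : K} (ht : t ≠ 0) : n1R φ t ∈ chevG2.monomialSubgroup K := by
  have h : ∀ (r : ℕ) (hr : r < chevG2.nroots) (s : K), s ≠ 0 → nG hG2 K r s ∈ chevG2.monomialSubgroup K := by
    intro r hr s hs
    have e : nG hG2 K r s = hG hG2 K r s * nG hG2 K r 1 := (rk1_chev (F := K) hG2 hr).NH s
    rw [e]
    exact mul_mem (diag_le_mono hG2 (hG_mem_diag hG2 hr hs)) (nG_mem_mono hG2 hr)
  exact mul_mem (h 8 (by decide) _ (by rwa [Ne, map_eq_zero])) (h 10 (by decide) _ ht)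

theorem n1R_not_borel [Fintype K] {t : K} (ht : t ≠ 0) : n1R φ t ∉ chevG2.borelSubgroup K := by
  intro hB
  have e := congrArg (psiR φ) (sl2_x_n (1 : K) ht)
  rw [map_mul, map_mul, psiR_x, psiR_n] at e
  have hy := psiR_y_mem φ (-(t⁻¹ ^ 2 * 1))
  have e2 : psiR φ (sl2y (-(t⁻¹ ^ 2 * 1))) = (n1R φ t)⁻¹ * alphaR φ 0 1 0 * n1R φ t := by
    rw [mul_assoc, e]; group
  have h1 : psiR φ (sl2y (-(t⁻¹ ^ 2 * 1))) ∈ chevG2.borelSubgroup K ⊓ chevG2.negUnipotent K := by
    refine Subgroup.mem_inf.mpr ⟨?_, hy⟩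
    rw [e2]
    exact mul_mem (mul_mem (inv_mem hB) (posU_le_borel hG2 (alphaR_mem_posU φ 0 1 0))) hB
  rw [borel_inf_negU hG2, Subgroup.mem_bot] at h1
  rw [h1, mul_one] at e
  have h2 : alphaR φ 0 1 0 = 1 := by simpa using e
  rw [← alphaR_zero φ] at h2
  exact one_ne_zero (alphaR_inj φ h2).2.1

end

section
variable {K : Type*} [Field K] (φ : K →+* K)
variable [CharP K 3] [Fintype K] (hinj : Function.Injective (isoR1 hG2 isoOK_G2 (F := K)))
  (hφ : ∀ t, φ (φ t) ^ 3 = t)

omit [Fintype K] in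
theorem neg_one_ne_one_units : (-1 : Kˣ) ≠ 1 := by
  intro h2
  have h3 : (-1 : K) = 1 := by simpa using congrArg Units.val h2
  have h4 : ((2 : ℕ) : K) = 0 := by
    push_cast
    linear_combination -h3
  rw [CharP.cast_eq_zero_iff K 3] at h4
  omega

include hφ in
omit [CharP K 3] [Fintype K] in
theorem chiR_sq {z ε : K} (hz : z ≠ 0) (hε : ε = 1 ∨ ε = -1) (h : φ z ^ 3 * z = ε) : z ^ 2 = 1 := by
  have hε2 : ε * ε = 1 := by rcases hε with rfl | rfl <;> ring
  have hφε : φ ε = ε := by rcases hε with rfl | rfl <;> simp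
  have hw : φ z ≠ 0 := by rwa [Ne, map_eq_zero]
  have h1 := congrArg (fun x => φ x ^ 3) h
  simp only [map_mul, map_pow, mul_pow] at h1
  rw [← pow_mul, mul_comm 3 3, pow_mul, hφ, hφε] at h1
  -- h1 : z ^ 3 * φ z ^ 3 = ε ^ 3
  have h2 : z * (z ^ 2 - 1) = 0 := by
    have h3 : z ^ 3 * φ z ^ 3 * z = ε ^ 3 * z := by rw [h1]
    have h4 : z ^ 3 * ε = ε ^ 3 * z := by rw [← h3, ← h]; ring
    have h5 : z ^ 3 * (ε * ε) = ε ^ 2 * (ε * ε) * z := by linear_combination ε * h4
    rw [hε2] at h5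
    have h6 : ε ^ 2 = 1 := by rw [sq, hε2]
    rw [h6] at h5
    linear_combination h5
  rcases mul_eq_zero.mp h2 with h3 | h3
  · exact absurd h3 hz
  · linear_combination h3

include hinj hφ

theorem n1R_mul_neg_eq (u : Kˣ) : n1R φ u * n1R φ (-1) = hR φ ((Units.map (φ : K →* K) u) ^ 3 * u) := by
  rw [n1R_mul_neg]
  have h1 := h1R_mem φ (u : K)
  have hu : (u : K) ≠ 0 := u.ne_zero
  have hu' : φ u ≠ 0 := by rwa [Ne, map_eq_zero]
  have h2 : hG hG2 K 8 (φ u) * hG hG2 K 10 u ∈ chevG2.diagonalSubgroup K :=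
    mul_mem (hG_mem_diag hG2 (by decide) hu') (hG_mem_diag hG2 (by decide) hu)
  obtain ⟨z, hz⟩ := fixed_diag hinj φ hφ ⟨h2, reeG_le_fixR φ hinj hφ h1⟩
  have e1 := conj_hR_x φ z (s := 11) (by decide) 1
  rw [← hz, chi_G2_11] at e1
  have e2 : hG hG2 K 8 (φ u) * hG hG2 K 10 u * xG hG2 K 11 1 * (hG hG2 K 8 (φ u) * hG hG2 K 10 u)⁻¹ =
      hG hG2 K 8 (φ u) * (hG hG2 K 10 u * xG hG2 K 11 1 * (hG hG2 K 10 u)⁻¹) * (hG hG2 K 8 (φ u))⁻¹ := by group
  rw [e2, conj_hG_x hG2 (by decide) (by decide) hu, conj_hG_x hG2 (by decide) (by decide) hu',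
    show AOf chevG2 8 11 = 3 by decide +kernel, show AOf chevG2 10 11 = 1 by decide +kernel] at e1
  have e3 := xG_inj hG2 (by decide) e1
  have e4 : z = (Units.map (φ : K →* K) u) ^ 3 * u := by
    apply Units.ext
    have : ((cR φ z 1 : Kˣ) : K) = z := rfl
    rw [this] at e3
    simp only [mul_one, zpow_one] at e3
    rw [← e3]
    simp only [Units.val_mul, Units.val_pow_eq_pow_val, Units.coe_map, MonoidHom.coe_coe]
    norm_cast
  rw [← e4, hz]

theorem psiR_small {g : Matrix.SpecialLinearGroup (Fin 2) K} (hc : g.1 1 0 = 0) (ha : g.1 0 0 ≠ 0) :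
    psiR φ g = alphaR φ 0 (g.1 0 0 * g.1 0 1) 0 *
      hR φ ((Units.map (φ : K →* K) (Units.mk0 _ ha)) ^ 3 * Units.mk0 _ ha) := by
  conv_lhs => rw [sl2_small g hc ha]
  rw [map_mul, map_mul, psiR_x, psiR_n, psiR_n, mul_assoc, ← n1R_mul_neg_eq φ hinj hφ]
  rfl

omit hinj hφ [CharP K 3] [Fintype K] in
theorem psiR_big {g : Matrix.SpecialLinearGroup (Fin 2) K} (hc : g.1 1 0 ≠ 0) :
    psiR φ g = alphaR φ 0 (g.1 0 0 / g.1 1 0) 0 * n1R φ (-(g.1 1 0)⁻¹) * alphaR φ 0 (g.1 1 1 / g.1 1 0) 0 := by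
  conv_lhs => rw [sl2_big g hc]
  rw [map_mul, map_mul, psiR_x, psiR_n, psiR_x]

omit hinj hφ [CharP K 3] [Fintype K] in
theorem psiR_mem (g : Matrix.SpecialLinearGroup (Fin 2) K) : psiR φ g ∈ reeG φ := by
  refine sl2_induct (P := fun g => psiR φ g ∈ reeG φ) (fun u => ?_) (fun t ht => ?_) (fun a b ha hb => ?_) g
  · rw [psiR_x]; exact alphaR_mem φ _ _ _
  · rw [psiR_n]; exact n1R_mem φ t
  · rw [map_mul]; exact mul_mem ha hb

theorem psiR_ker {g : Matrix.SpecialLinearGroup (Fin 2) K} : psiR φ g = 1 ↔ IsSc g := by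
  constructor
  · intro h
    by_cases hc : g.1 1 0 = 0
    · have ha : g.1 0 0 ≠ 0 := by
        intro ha
        have := sl2_det g
        rw [hc, ha] at this
        simp at this
      rw [psiR_small φ hinj hφ hc ha] at h
      have h1 : alphaR φ 0 (g.1 0 0 * g.1 0 1) 0 *
          hR φ ((Units.map (φ : K →* K) (Units.mk0 _ ha)) ^ 3 * Units.mk0 _ ha) = 1 * 1 := by rw [h, one_mul]
      obtain ⟨e1, e2⟩ := uh_unique (h0 := (1 : GL chevG2.Idx K)) (one_mem _) (alphaR_mem_posU φ _ _ _)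
        (hR_mem_diag φ _) (one_mem _) (one_mem _) h1
      rw [← alphaR_zero φ] at e1
      have e3 := (alphaR_inj φ e1).2.1
      have hb : g.1 0 1 = 0 := (mul_eq_zero.mp e3).resolve_left ha
      have e4 : (Units.map (φ : K →* K) (Units.mk0 _ ha)) ^ 3 * Units.mk0 _ ha = 1 :=
        hR_injective φ (by rw [e2, map_one])
      have e5 : φ (g.1 0 0) ^ 3 * g.1 0 0 = 1 := by
        have := congrArg Units.val e4
        simpa using this
      have e6 := chiR_sq φ hφ ha (Or.inl rfl) e5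
      have hdet := sl2_det g
      rw [hc, mul_zero, sub_zero] at hdet
      refine ⟨hb, hc, ?_⟩
      have : g.1 0 0 * (g.1 0 0 - g.1 1 1) = 0 := by linear_combination e6 - hdet
      exact sub_eq_zero.mp ((mul_eq_zero.mp this).resolve_left ha)
    · exfalso
      rw [psiR_big φ hc] at h
      apply n1R_not_borel φ (neg_ne_zero.mpr (inv_ne_zero hc))
      have e : n1R φ (-(g.1 1 0)⁻¹) = (alphaR φ 0 (g.1 0 0 / g.1 1 0) 0)⁻¹ * 1 *
          (alphaR φ 0 (g.1 1 1 / g.1 1 0) 0)⁻¹ := by rw [← h]; group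
      rw [e]
      exact mul_mem (mul_mem (inv_mem (posU_le_borel hG2 (alphaR_mem_posU φ _ _ _))) (one_mem _))
        (inv_mem (posU_le_borel hG2 (alphaR_mem_posU φ _ _ _)))
  · rintro ⟨h01, h10, h00⟩
    have hdet := sl2_det g
    rw [h10, mul_zero, sub_zero, ← h00] at hdet
    have ha : g.1 0 0 ≠ 0 := left_ne_zero_of_mul_eq_one hdet
    rw [psiR_small φ hinj hφ h10 ha, h01, mul_zero, alphaR_zero, one_mul]
    have e : (Units.map (φ : K →* K) (Units.mk0 _ ha)) ^ 3 * Units.mk0 _ ha = 1 := by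
      apply Units.ext
      simp only [Units.val_mul, Units.val_pow_eq_pow_val, Units.coe_map, MonoidHom.coe_coe, Units.val_mk0,
        Units.val_one]
      rcases mul_self_eq_one_iff.mp hdet with h | h
      · rw [h]; simp
      · rw [h, map_neg, map_one]; ring
    rw [e, map_one]

end

end Cfsg.Agent.Lib.Helper8
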