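import Cfsg.Agent.Lib.Helper8.Ree22

set_option autoImplicit false
set_option linter.unusedSectionVars false
set_option linter.unusedVariables false

/-! The centraliser of an involution in the small Ree groups. -/

namespace Cfsg.Agent.Lib.Helper8

open Cfsg Cfsg.Lie

section
variable {K : Type*} [Field K] (φ : K →+* K)
variable [CharP K 3] [Fintype K] (hinj : Function.Injective (isoR1 hG2 isoOK_G2 (F := K)))
  (hφ : ∀ t, φ (φ t) ^ 3 = t)
variable {h0 : GL chevG2.Idx K} (hh0 : h0 ∈ chevG2.diagonalSubgroup K) (hn : h0 * n0 hG2 K ∈ reeG φ)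
include hinj hφ

theorem cen_alpha {t u v : K} (h : hR φ (-1) * alphaR φ t u v * (hR φ (-1))⁻¹ = alphaR φ t u v) :
    t = 0 ∧ v = 0 := by
  obtain ⟨a1, -, a3⟩ := hR_centralizes φ hinj hφ h
  constructor
  · by_contra ht
    exact neg_one_ne_one_units (a3 ht)
  · by_contra hv
    exact neg_one_ne_one_units (a1 hv)

theorem conj_a_alpha (u : K) : hR φ (-1) * alphaR φ 0 u 0 * (hR φ (-1))⁻¹ = alphaR φ 0 u 0 := by
  rw [conj_hR_alphaR φ hinj hφ, chR_10]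
  have : φ ((-1 : Kˣ) : K) ^ 3 * (((-1 : Kˣ) : K))⁻¹ * u = u := by
    rw [Units.val_neg, Units.val_one, map_neg, map_one]
    norm_num
  rw [this, mul_zero, mul_zero]

include hh0 hn

theorem n1R_eq_nstar {t : K} (ht : t ≠ 0) : ∃ h ∈ chevG2.diagonalSubgroup K ⊓ reeG φ,
    n1R φ t = h * (h0 * n0 hG2 K) := by
  rcases mono_cases φ hinj hφ hh0 hn (n := n1R φ t) ⟨n1R_mem_mono φ ht, n1R_mem φ t⟩ with h | h
  · exact absurd (diag_le_borel hG2 h.1) (n1R_not_borel φ ht)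
  · exact ⟨_, h, by group⟩

theorem inv_unique (hH : chevG2.diagonalSubgroup K ⊓ reeG φ = (hR φ).range) {x : GL chevG2.Idx K}
    (hx : x ∈ chevG2.diagonalSubgroup K ⊓ reeG φ) (h1 : x ≠ 1) (h2 : x * x = 1) : x = hR φ (-1) := by
  rw [hH] at hx
  obtain ⟨z, rfl⟩ := hx
  have e : z * z = 1 := hR_injective φ (by rw [map_mul, h2, map_one])
  have e' : (z : K) * z = 1 := by simpa using congrArg Units.val e
  rcases mul_self_eq_one_iff.mp e' with h | h
  · exfalso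
    apply h1
    have : z = 1 := Units.ext h
    rw [this, map_one]
  · have : z = -1 := Units.ext (by simpa using h)
    rw [this]

theorem conj_a_nstar (hH : chevG2.diagonalSubgroup K ⊓ reeG φ = (hR φ).range) :
    hR φ (-1) * (h0 * n0 hG2 K) * (hR φ (-1))⁻¹ = h0 * n0 hG2 K := by
  have hm : (h0 * n0 hG2 K) * hR φ (-1) * (h0 * n0 hG2 K)⁻¹ ∈ chevG2.diagonalSubgroup K ⊓ reeG φ :=
    Subgroup.mem_inf.mpr ⟨mono_conj_diag hG2 (nstar_mem_mono hh0) (hR_mem_diag φ _),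
      (reeG φ).mul_mem ((reeG φ).mul_mem hn (hR_neg_one_mem φ hinj hφ)) ((reeG φ).inv_mem hn)⟩
  have hsq : hR φ (-1) * hR φ (-1) = 1 := by rw [← map_mul]; simp
  have hne : hR φ (-1) ≠ 1 := fun h => neg_one_ne_one_units (K := K) (hR_injective φ (by rw [h, map_one]))
  have e := inv_unique φ hinj hφ hh0 hn hH hm (by
    intro h
    apply hne
    have : hR φ (-1) = (h0 * n0 hG2 K)⁻¹ * ((h0 * n0 hG2 K) * hR φ (-1) * (h0 * n0 hG2 K)⁻¹) * (h0 * n0 hG2 K) := by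
      group
    rw [this, h]; group) (by
    have : (h0 * n0 hG2 K) * hR φ (-1) * (h0 * n0 hG2 K)⁻¹ * ((h0 * n0 hG2 K) * hR φ (-1) * (h0 * n0 hG2 K)⁻¹) =
        (h0 * n0 hG2 K) * (hR φ (-1) * hR φ (-1)) * (h0 * n0 hG2 K)⁻¹ := by group
    rw [this, hsq]; group)
  have e2 : (h0 * n0 hG2 K) * hR φ (-1) = hR φ (-1) * (h0 * n0 hG2 K) := by
    rw [← mul_inv_eq_iff_eq_mul]; exact e
  rw [← e2, mul_inv_cancel_right]

theorem hR_mem_S (h4 : Fintype.card K % 4 = 3) (z : Kˣ) :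
    hR φ z ∈ Subgroup.zpowers (hR φ (-1)) ⊔ (psiR φ).range := by
  have hsq : ∀ y : Kˣ, hR φ (y ^ 2) ∈ (psiR φ).range := by
    intro y
    have e : (Units.map (φ : K →* K) ((Units.map (φ : K →* K) y) ^ 3 * y⁻¹)) ^ 3 *
        ((Units.map (φ : K →* K) y) ^ 3 * y⁻¹) = y ^ 2 := by
      have h1 : (Units.map (φ : K →* K) (Units.map (φ : K →* K) y)) ^ 3 = y := by
        apply Units.ext
        simp only [Units.val_pow_eq_pow_val, Units.coe_map, MonoidHom.coe_coe]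
        exact hφ y
      rw [map_mul, map_pow, map_inv, mul_pow, ← pow_mul, mul_comm 3 3, pow_mul, h1]
      generalize (Units.map (φ : K →* K)) y = w
      rw [inv_pow]
      have : y ^ 3 * (w ^ 3)⁻¹ * (w ^ 3 * y⁻¹) = y ^ 3 * y⁻¹ := by group
      rw [this, pow_succ y 2, mul_assoc, mul_inv_cancel, mul_one]
    rw [← e, ← n1R_mul_neg_eq φ hinj hφ]
    refine ⟨sl2n _ (Units.ne_zero ((Units.map (φ : K →* K) y) ^ 3 * y⁻¹)) * sl2n (-1) (by simp), ?_⟩
    rw [map_mul, psiR_n, psiR_n]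
  rcases sq_or_neg_sq h4 z.ne_zero with ⟨y, hy0, hy⟩ | ⟨y, hy0, hy⟩
  · have : z = (Units.mk0 y hy0) ^ 2 := Units.ext (by simpa using hy)
    rw [this]
    exact Subgroup.mem_sup_right (hsq _)
  · have : z = -1 * (Units.mk0 y hy0) ^ 2 := Units.ext (by simpa using hy)
    rw [this, map_mul]
    exact mul_mem (Subgroup.mem_sup_left (Subgroup.mem_zpowers _)) (Subgroup.mem_sup_right (hsq _))

theorem cen_le (h4 : Fintype.card K % 4 = 3) (hH : chevG2.diagonalSubgroup K ⊓ reeG φ = (hR φ).range)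
    {g : GL chevG2.Idx K} (hg : g ∈ reeG φ) (hc : hR φ (-1) * g * (hR φ (-1))⁻¹ = g) :
    g ∈ Subgroup.zpowers (hR φ (-1)) ⊔ (psiR φ).range := by
  have hA : ∀ u, alphaR φ 0 u 0 ∈ Subgroup.zpowers (hR φ (-1)) ⊔ (psiR φ).range := fun u =>
    Subgroup.mem_sup_right ⟨sl2x u, psiR_x φ u⟩
  have hHS : ∀ h ∈ chevG2.diagonalSubgroup K ⊓ reeG φ, h ∈ Subgroup.zpowers (hR φ (-1)) ⊔ (psiR φ).range := by
    intro h hh
    rw [hH] at hh
    obtain ⟨z, rfl⟩ := hh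
    exact hR_mem_S φ hinj hφ hh0 hn h4 z
  have hcomm : ∀ h ∈ chevG2.diagonalSubgroup K ⊓ reeG φ, hR φ (-1) * h * (hR φ (-1))⁻¹ = h := by
    intro h hh
    rw [hH] at hh
    obtain ⟨z, rfl⟩ := hh
    rw [← map_mul, ← map_inv, ← map_mul, mul_comm (-1 : Kˣ) z, mul_inv_cancel_right]
  have hU : ∀ u ∈ chevG2.posUnipotent K ⊓ reeG φ, hR φ (-1) * u * (hR φ (-1))⁻¹ ∈ chevG2.posUnipotent K :=
    fun u hu => (Subgroup.le_normalizer_iff.mp (diag_le_normalizer_posU hG2)) _ (hR_mem_diag φ _) _ hu.1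
  have hUS : ∀ u ∈ chevG2.posUnipotent K ⊓ reeG φ, hR φ (-1) * u * (hR φ (-1))⁻¹ = u →
      u ∈ Subgroup.zpowers (hR φ (-1)) ⊔ (psiR φ).range := by
    intro u hu e
    obtain ⟨t, u', v, rfl⟩ := (mem_posU_inf_reeG φ hinj hφ).mp hu
    obtain ⟨rfl, rfl⟩ := cen_alpha φ hinj hφ e
    exact hA u'
  have hnS : h0 * n0 hG2 K ∈ Subgroup.zpowers (hR φ (-1)) ⊔ (psiR φ).range := by
    obtain ⟨h, hh, e⟩ := n1R_eq_nstar φ hinj hφ hh0 hn (t := 1) one_ne_zero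
    have : h0 * n0 hG2 K = h⁻¹ * n1R φ 1 := by rw [e]; group
    rw [this]
    exact mul_mem (inv_mem (hHS h hh)) (Subgroup.mem_sup_right ⟨sl2n 1 one_ne_zero, psiR_n φ _⟩)
  rcases reeG_cases φ hinj hφ hh0 hn hg with ⟨u, hu, h, hh, e⟩ | ⟨u, hu, h, hh, v, hv, e⟩
  · have e1 : (hR φ (-1) * u * (hR φ (-1))⁻¹) * h = u * h := by
      have : (hR φ (-1) * u * (hR φ (-1))⁻¹) * (hR φ (-1) * h * (hR φ (-1))⁻¹) =
          hR φ (-1) * (u * h) * (hR φ (-1))⁻¹ := by group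
      rw [← hcomm h hh] 
      conv_rhs => rw [hcomm h hh]
      rw [this, ← e, hc]
    obtain ⟨e2, -⟩ := uh_unique hh0 (hU u hu) hh.1 hu.1 hh.1 e1
    rw [e]
    exact mul_mem (hUS u hu e2) (hHS h hh)
  · have e1 : (hR φ (-1) * u * (hR φ (-1))⁻¹) * h * (h0 * n0 hG2 K) * (hR φ (-1) * v * (hR φ (-1))⁻¹) =
        u * h * (h0 * n0 hG2 K) * v := by
      have : (hR φ (-1) * u * (hR φ (-1))⁻¹) * (hR φ (-1) * h * (hR φ (-1))⁻¹) *
          (hR φ (-1) * (h0 * n0 hG2 K) * (hR φ (-1))⁻¹) * (hR φ (-1) * v * (hR φ (-1))⁻¹) =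
          hR φ (-1) * (u * h * (h0 * n0 hG2 K) * v) * (hR φ (-1))⁻¹ := by group
      rw [hcomm h hh, conj_a_nstar φ hinj hφ hh0 hn hH] at this
      rw [this, ← e, hc]
    obtain ⟨e2, -, e3⟩ := big_cell_unique hh0 (hU u hu) hh.1 (hU v hv) hu.1 hh.1 hv.1 e1
    rw [e]
    exact mul_mem (mul_mem (mul_mem (hUS u hu e2) (hHS h hh)) hnS) (hUS v hv e3)

theorem a_not_mem_range : hR φ (-1) ∉ (psiR φ).range := by
  rintro ⟨g, hg⟩
  by_cases hc : g.1 1 0 = 0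
  · have ha : g.1 0 0 ≠ 0 := by
      intro ha
      have := sl2_det g
      rw [hc, ha] at this
      simp at this
    rw [psiR_small φ hinj hφ hc ha] at hg
    have h1 : alphaR φ 0 (g.1 0 0 * g.1 0 1) 0 *
        hR φ ((Units.map (φ : K →* K) (Units.mk0 _ ha)) ^ 3 * Units.mk0 _ ha) = 1 * hR φ (-1) := by
      rw [hg, one_mul]
    obtain ⟨-, e2⟩ := uh_unique hh0 (alphaR_mem_posU φ _ _ _) (hR_mem_diag φ _) (one_mem _) (hR_mem_diag φ _) h1
    have e4 := hR_injective φ e2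
    have e5 : φ (g.1 0 0) ^ 3 * g.1 0 0 = -1 := by
      have := congrArg Units.val e4
      simpa using this
    have e6 := chiR_sq φ hφ ha (Or.inr rfl) e5
    have e7 : g.1 0 0 * g.1 0 0 = 1 := by rw [← sq]; exact e6
    have h3 : (-1 : K) ≠ 1 := by
      intro h
      exact neg_one_ne_one_units (K := K) (Units.ext (by simpa using h))
    rcases mul_self_eq_one_iff.mp e7 with h | h
    · rw [h] at e5
      simp at e5
      exact h3 e5.symm
    · rw [h, map_neg, map_one] at e5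
      apply h3
      linear_combination -e5
  · rw [psiR_big φ hc] at hg
    obtain ⟨h, hh, e⟩ := n1R_eq_nstar φ hinj hφ hh0 hn (neg_ne_zero.mpr (inv_ne_zero hc))
    rw [e] at hg
    have h1 : 1 * hR φ (-1) = alphaR φ 0 (g.1 0 0 / g.1 1 0) 0 * h * (h0 * n0 hG2 K) *
        alphaR φ 0 (g.1 1 1 / g.1 1 0) 0 := by
      rw [one_mul, ← hg]; group
    exact cells_disjoint hh0 (one_mem _) (hR_mem_diag φ _) (alphaR_mem_posU φ _ _ _) hh.1
      (alphaR_mem_posU φ _ _ _) h1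

theorem psiR_cen (hH : chevG2.diagonalSubgroup K ⊓ reeG φ = (hR φ).range)
    (g : Matrix.SpecialLinearGroup (Fin 2) K) : hR φ (-1) * psiR φ g * (hR φ (-1))⁻¹ = psiR φ g := by
  refine sl2_induct (P := fun g => hR φ (-1) * psiR φ g * (hR φ (-1))⁻¹ = psiR φ g)
    (fun u => ?_) (fun t ht => ?_) (fun a b ha hb => ?_) g
  · rw [psiR_x]; exact conj_a_alpha φ hinj hφ u
  · rw [psiR_n]
    obtain ⟨h, hh, e⟩ := n1R_eq_nstar φ hinj hφ hh0 hn ht
    have hcomm : hR φ (-1) * h * (hR φ (-1))⁻¹ = h := by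
      rw [hH] at hh
      obtain ⟨z, rfl⟩ := hh
      rw [← map_mul, ← map_inv, ← map_mul, mul_comm (-1 : Kˣ) z, mul_inv_cancel_right]
    have : hR φ (-1) * (h * (h0 * n0 hG2 K)) * (hR φ (-1))⁻¹ =
        (hR φ (-1) * h * (hR φ (-1))⁻¹) * (hR φ (-1) * (h0 * n0 hG2 K) * (hR φ (-1))⁻¹) := by group
    rw [e, this, hcomm, conj_a_nstar φ hinj hφ hh0 hn hH]
  · have : hR φ (-1) * (psiR φ a * psiR φ b) * (hR φ (-1))⁻¹ =
        (hR φ (-1) * psiR φ a * (hR φ (-1))⁻¹) * (hR φ (-1) * psiR φ b * (hR φ (-1))⁻¹) := by group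
    rw [map_mul, this, ha, hb]

end

end Cfsg.Agent.Lib.Helper8
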