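import Cfsg.Agent.Lib.Helper8.Ree23
import Cfsg.Agent.Lib.Helper8.Ree10
import Cfsg.Agent.Lib.Helper14.ClassCard

set_option autoImplicit false
set_option linter.unusedSectionVars false
set_option linter.unusedVariables false

/-! The centraliser of an involution in the small Ree groups: the isomorphism and the Sylow 2-subgroups. -/

namespace Cfsg.Agent.Lib.Helper8

open Cfsg Cfsg.Lie

theorem prod_equiv {G : Type*} [Group G] (A B C : Subgroup G) (hcomm : ∀ x ∈ A, ∀ y ∈ B, Commute x y)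
    (hdisj : A ⊓ B = ⊥) (hC : A ⊔ B = C) : Nonempty (↥C ≃* ↥A × ↥B) := by
  have hc' : ∀ (m : ↥A) (n : ↥B), Commute (A.subtype m) (B.subtype n) := fun x y => hcomm x x.2 y y.2
  let f : ↥A × ↥B →* G := MonoidHom.noncommCoprod A.subtype B.subtype hc'
  have hf : Function.Injective f := by
    rw [injective_iff_map_eq_one]
    rintro ⟨x, y⟩ h
    have h' : (x : G) * y = 1 := h
    have hx : (x : G) ∈ A ⊓ B := ⟨x.2, by rw [eq_inv_of_mul_eq_one_left h']; exact B.inv_mem y.2⟩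
    rw [hdisj, Subgroup.mem_bot] at hx
    have hy : (y : G) = 1 := by rw [hx, one_mul] at h'; exact h'
    exact Prod.ext (Subtype.ext hx) (Subtype.ext hy)
  have hr : f.range = C := by
    show (MonoidHom.noncommCoprod A.subtype B.subtype hc').range = C
    rw [MonoidHom.noncommCoprod_range, Subgroup.range_subtype, Subgroup.range_subtype, hC]
  exact ⟨((MonoidHom.ofInjective hf).trans (MulEquiv.subgroupCongr hr)).symm⟩

theorem mem_sup_commute {G : Type*} [Group G] (A B : Subgroup G) (hcomm : ∀ x ∈ A, ∀ y ∈ B, Commute x y)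
    {x : G} (hx : x ∈ A ⊔ B) : ∃ y ∈ A, ∃ z ∈ B, x = y * z := by
  have hc' : ∀ (m : ↥A) (n : ↥B), Commute (A.subtype m) (B.subtype n) := fun x y => hcomm x x.2 y y.2
  have hr := MonoidHom.noncommCoprod_range A.subtype B.subtype hc'
  rw [Subgroup.range_subtype, Subgroup.range_subtype] at hr
  rw [← hr] at hx
  obtain ⟨⟨y, z⟩, rfl⟩ := hx
  exact ⟨y, y.2, z, z.2, rfl⟩

theorem mul_zpow_self_comm_aux {G : Type*} [Group G] (a : G) (j : ℤ) (h : a * a = 1) :
    1 = a ^ j * a ^ j := by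
  rw [← zpow_add, ← two_mul, zpow_mul, zpow_two, h, one_zpow]

section
variable {K : Type*} [Field K] (φ : K →+* K)
variable [CharP K 3] [Fintype K] (hinj : Function.Injective (isoR1 hG2 isoOK_G2 (F := K)))
  (hφ : ∀ t, φ (φ t) ^ 3 = t)
variable {h0 : GL chevG2.Idx K} (hh0 : h0 ∈ chevG2.diagonalSubgroup K) (hn : h0 * n0 hG2 K ∈ reeG φ)

noncomputable def psiRR : Matrix.SpecialLinearGroup (Fin 2) K →* ↥(reeG φ) :=
  (psiR φ).codRestrict (reeG φ) (psiR_mem φ)

include hinj hφ in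
theorem psiRR_ker : (psiRR φ).ker = Subgroup.center (Matrix.SpecialLinearGroup (Fin 2) K) := by
  ext g
  rw [MonoidHom.mem_ker, mem_center_iff_isSc, ← psiR_ker φ hinj hφ, Subtype.ext_iff]
  rfl

include hinj hφ hh0 hn

theorem ree_cen_struct (h4 : Fintype.card K % 4 = 3) (hH : chevG2.diagonalSubgroup K ⊓ reeG φ = (hR φ).range)
    (a : ↥(reeG φ)) (ha : (a : GL chevG2.Idx K) = hR φ (-1)) :
    (∀ x ∈ Subgroup.zpowers a, ∀ y ∈ (psiRR φ).range, Commute x y) ∧
    Subgroup.zpowers a ⊓ (psiRR φ).range = ⊥ ∧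
    Subgroup.zpowers a ⊔ (psiRR φ).range = Subgroup.centralizer {a} ∧ a * a = 1 ∧ a ≠ 1 := by
  have ha2 : a * a = 1 := by
    apply Subtype.ext
    show (a : GL chevG2.Idx K) * a = 1
    rw [ha, ← map_mul]; simp
  have ha1 : a ≠ 1 := by
    intro h
    have : hR φ (-1) = 1 := by rw [← ha, h]; rfl
    exact neg_one_ne_one_units (K := K) (hR_injective φ (by rw [this, map_one]))
  have hca : ∀ g, Commute a (psiRR φ g) := by
    intro g
    apply Subtype.ext
    show (a : GL chevG2.Idx K) * psiR φ g = psiR φ g * a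
    rw [ha]
    have := psiR_cen φ hinj hφ hh0 hn hH g
    rwa [mul_inv_eq_iff_eq_mul] at this
  have hcomm : ∀ x ∈ Subgroup.zpowers a, ∀ y ∈ (psiRR φ).range, Commute x y := by
    rintro x hx _ ⟨g, rfl⟩
    obtain ⟨k, rfl⟩ := Subgroup.mem_zpowers_iff.mp hx
    exact (hca g).zpow_left k
  have hz : ∀ x ∈ Subgroup.zpowers a, x = 1 ∨ x = a := by
    intro x hx
    obtain ⟨k, rfl⟩ := Subgroup.mem_zpowers_iff.mp hx
    have hsq : a ^ (2 : ℤ) = 1 := by rw [zpow_two]; exact ha2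
    rcases Int.even_or_odd' k with ⟨j, rfl | rfl⟩
    · left; rw [zpow_mul, hsq, one_zpow]
    · right; rw [zpow_add, zpow_mul, hsq, one_zpow, one_mul, zpow_one]
  refine ⟨hcomm, ?_, ?_, ha2, ha1⟩
  · rw [eq_bot_iff]
    rintro x ⟨hx1, hx2⟩
    rw [Subgroup.mem_bot]
    rcases hz x hx1 with h | h
    · exact h
    · exfalso
      obtain ⟨g, hg⟩ := hx2
      apply a_not_mem_range φ hinj hφ hh0 hn
      refine ⟨g, ?_⟩
      rw [← ha, ← h, ← hg]
      rfl
  · apply le_antisymm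
    · refine sup_le ?_ ?_
      · rw [Subgroup.zpowers_le, Subgroup.mem_centralizer_singleton_iff]
      · rintro _ ⟨g, rfl⟩
        rw [Subgroup.mem_centralizer_singleton_iff]
        exact (hca g).symm.eq
    · intro g hg
      rw [Subgroup.mem_centralizer_singleton_iff] at hg
      have hg' : hR φ (-1) * (g : GL chevG2.Idx K) * (hR φ (-1))⁻¹ = g := by
        rw [mul_inv_eq_iff_eq_mul, ← ha]
        exact (congrArg Subtype.val hg).symm
      have h1 := cen_le φ hinj hφ hh0 hn h4 hH g.2 hg'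
      have e : (Subgroup.zpowers a ⊔ (psiRR φ).range).map (reeG φ).subtype =
          Subgroup.zpowers (hR φ (-1)) ⊔ (psiR φ).range := by
        rw [Subgroup.map_sup, MonoidHom.map_zpowers, MonoidHom.map_range]
        congr 1
        rw [← ha]; rfl
      rw [← e] at h1
      exact (Subgroup.mem_map_iff_mem (reeG φ).subtype_injective).mp h1

theorem ree_cen_iso (h4 : Fintype.card K % 4 = 3) (hH : chevG2.diagonalSubgroup K ⊓ reeG φ = (hR φ).range)
    (a : ↥(reeG φ)) (ha : (a : GL chevG2.Idx K) = hR φ (-1)) :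
    Nonempty (↥(Subgroup.centralizer {a}) ≃* Multiplicative (ZMod 2) × Matrix.ProjectiveSpecialLinearGroup (Fin 2) K) := by
  obtain ⟨hcomm, hdisj, hsup, ha2, ha1⟩ := ree_cen_struct φ hinj hφ hh0 hn h4 hH a ha
  obtain ⟨e⟩ := prod_equiv _ _ _ hcomm hdisj hsup
  have : Fact (Nat.Prime 2) := ⟨Nat.prime_two⟩
  have c1 : Nat.card ↥(Subgroup.zpowers a) = 2 := by
    rw [Nat.card_zpowers]
    exact orderOf_eq_prime (by rw [sq]; exact ha2) ha1
  have c2 : Nat.card (Multiplicative (ZMod 2)) = 2 := by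
    rw [Nat.card_eq_fintype_card, Fintype.card_multiplicative, ZMod.card]
  let e1 : ↥(Subgroup.zpowers a) ≃* Multiplicative (ZMod 2) := mulEquivOfPrimeCardEq c1 c2
  let e2 : ↥(psiRR φ).range ≃* Matrix.ProjectiveSpecialLinearGroup (Fin 2) K :=
    (QuotientGroup.quotientKerEquivRange (psiRR φ)).symm.trans
      (QuotientGroup.quotientMulEquivOfEq (psiRR_ker φ hinj hφ))
  exact ⟨e.trans (MulEquiv.prodCongr e1 e2)⟩

theorem ree_cen_exp (h4 : Fintype.card K % 4 = 3) (h8 : Fintype.card K % 8 = 3)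
    (hH : chevG2.diagonalSubgroup K ⊓ reeG φ = (hR φ).range)
    (a : ↥(reeG φ)) (ha : (a : GL chevG2.Idx K) = hR φ (-1)) {x : ↥(reeG φ)} (hx : x ∈ Subgroup.centralizer {a})
    (k : ℕ) (hk : x ^ 2 ^ (k + 1) = 1) : x * x = 1 := by
  obtain ⟨hcomm, hdisj, hsup, ha2, ha1⟩ := ree_cen_struct φ hinj hφ hh0 hn h4 hH a ha
  rw [← hsup] at hx
  obtain ⟨y, hy, z, hz, rfl⟩ := mem_sup_commute _ _ hcomm hx
  have hc := hcomm y hy z hz
  have hyy : y * y = 1 := by
    obtain ⟨j, rfl⟩ := Subgroup.mem_zpowers_iff.mp hy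
    rw [← mul_zpow_self_comm_aux a j ha2]
  obtain ⟨g, rfl⟩ := hz
  have h2 : ¬ IsSquare (2 : K) := by
    rw [FiniteField.isSquare_two_iff]
    simp [h8]
  have hy2 : y ^ 2 ^ (k + 1) = 1 := by
    rw [pow_succ, mul_comm, pow_mul, sq, hyy, one_pow]
  rw [hc.mul_pow, hy2, one_mul, ← map_pow] at hk
  have h3 : psiR φ (g ^ 2 ^ (k + 1)) = 1 := congrArg Subtype.val hk
  rw [psiR_ker φ hinj hφ] at h3
  have h4' := isSc_sq_of_pow h2 k g h3
  rw [← psiR_ker φ hinj hφ] at h4'
  have hzz : psiRR φ g * psiRR φ g = 1 := by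
    rw [← map_mul]
    exact Subtype.ext h4'
  calc y * psiRR φ g * (y * psiRR φ g) = y * (psiRR φ g * y) * psiRR φ g := by group
    _ = y * (y * psiRR φ g) * psiRR φ g := by rw [hc.eq]
    _ = (y * y) * (psiRR φ g * psiRR φ g) := by group
    _ = 1 := by rw [hyy, hzz, one_mul]

end

end Cfsg.Agent.Lib.Helper8
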