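import Cfsg.Agent.Lib.Helper8.Ree24

set_option autoImplicit false
set_option linter.unusedSectionVars false
set_option linter.unusedVariables false

/-! The Sylow 2-subgroups of the small Ree groups. -/

namespace Cfsg.Agent.Lib.Helper8

open Cfsg Cfsg.Lie
open scoped Pointwise

theorem three_pow_mod8 (m : ℕ) : 3 ^ (2 * m + 1) % 8 = 3 := by
  rw [pow_succ, pow_mul, Nat.mul_mod, Nat.pow_mod]
  norm_num

def sl2negI (F : Type*) [Field F] : Matrix.SpecialLinearGroup (Fin 2) F :=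
  ⟨!![-1, 0; 0, -1], by simp [Matrix.det_fin_two_of]⟩

theorem isSc_cases {F : Type*} [Field F] {g : Matrix.SpecialLinearGroup (Fin 2) F} (h : IsSc g) :
    g = 1 ∨ g = sl2negI F := by
  obtain ⟨h01, h10, h00⟩ := h
  have hdet := sl2_det g
  rw [h10, mul_zero, sub_zero, ← h00] at hdet
  rcases mul_self_eq_one_iff.mp hdet with h | h
  · left
    apply sl2_ext
    · rw [h]; rfl
    · rw [h01]; rfl
    · rw [h10]; rfl
    · rw [← h00, h]; rfl
  · right
    apply sl2_ext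
    · rw [h]; rfl
    · rw [h01]; rfl
    · rw [h10]; rfl
    · rw [← h00, h]; rfl

section
variable {K : Type*} [Field K] (φ : K →+* K)
variable [CharP K 3] [Fintype K] (hinj : Function.Injective (isoR1 hG2 isoOK_G2 (F := K)))
  (hφ : ∀ t, φ (φ t) ^ 3 = t)
variable {h0 : GL chevG2.Idx K} (hh0 : h0 ∈ chevG2.diagonalSubgroup K) (hn : h0 * n0 hG2 K ∈ reeG φ)
include hinj hφ hh0 hn

theorem ree_sylow2 (h8 : Fintype.card K % 8 = 3)
    (hH : chevG2.diagonalSubgroup K ⊓ reeG φ = (hR φ).range) (S : Sylow 2 ↥(reeG φ)) :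
    Nat.card S = 8 ∧ ∀ x ∈ S, x * x = 1 := by
  classical
  have : Fact (Nat.Prime 2) := ⟨Nat.prime_two⟩
  have h4 : Fintype.card K % 4 = 3 := by omega
  obtain ⟨k, hk⟩ : ∃ k, Fintype.card K = 8 * k + 3 := ⟨Fintype.card K / 8, by omega⟩
  have cardR : Nat.card ↥(reeG φ) =
      2 ^ 3 * ((8 * k + 3) ^ 3 * (4 * k + 1) * (128 * k ^ 3 + 144 * k ^ 2 + 54 * k + 7)) := by
    rw [card_reeG φ hinj hφ hh0 hn, hH, card_hR_range, hk]
    have : 8 * k + 3 - 1 = 8 * k + 2 := by omega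
    rw [this]
    ring
  have hodd : ¬ 2 ∣ ((8 * k + 3) ^ 3 * (4 * k + 1) * (128 * k ^ 3 + 144 * k ^ 2 + 54 * k + 7)) := by
    intro hd
    rcases (Nat.Prime.dvd_mul Nat.prime_two).mp hd with hd | hd
    · rcases (Nat.Prime.dvd_mul Nat.prime_two).mp hd with hd | hd
      · have := Nat.Prime.dvd_of_dvd_pow Nat.prime_two hd
        omega
      · omega
    · have e : 128 * k ^ 3 + 144 * k ^ 2 + 54 * k + 7 = 2 * (64 * k ^ 3 + 72 * k ^ 2 + 27 * k + 3) + 1 := by ring
      rw [e] at hd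
      omega
  have hr0 : ((8 * k + 3) ^ 3 * (4 * k + 1) * (128 * k ^ 3 + 144 * k ^ 2 + 54 * k + 7)) ≠ 0 := by
    intro h
    rw [h] at hodd
    exact hodd (dvd_zero _)
  have hfac : (Nat.card ↥(reeG φ)).factorization 2 = 3 := by
    rw [cardR]
    generalize ((8 * k + 3) ^ 3 * (4 * k + 1) * (128 * k ^ 3 + 144 * k ^ 2 + 54 * k + 7)) = r at hodd hr0 ⊢
    rw [Nat.factorization_mul (by norm_num) hr0, Nat.Prime.factorization_pow Nat.prime_two, Finsupp.add_apply,
      Nat.factorization_eq_zero_of_not_dvd hodd]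
    simp
  have cardS : ∀ S : Sylow 2 ↥(reeG φ), Nat.card S = 8 := by
    intro S
    rw [Sylow.card_eq_multiplicity, hfac]
    norm_num
  refine ⟨cardS S, ?_⟩
  -- the centraliser of the involution
  obtain ⟨hcomm, hdisj, hsup, ha2, ha1⟩ := ree_cen_struct φ hinj hφ hh0 hn h4 hH
    ⟨hR φ (-1), hR_neg_one_mem φ hinj hφ⟩ rfl
  set a : ↥(reeG φ) := ⟨hR φ (-1), hR_neg_one_mem φ hinj hφ⟩ with ha
  obtain ⟨e⟩ := prod_equiv _ _ _ hcomm hdisj hsup
  have c1 : Nat.card ↥(Subgroup.zpowers a) = 2 := by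
    rw [Nat.card_zpowers]
    exact orderOf_eq_prime (by rw [sq]; exact ha2) ha1
  have cC : Nat.card ↥(Subgroup.centralizer {a}) = 2 * Nat.card ↥(psiRR φ).range := by
    rw [Nat.card_congr e.toEquiv, Nat.card_prod, c1]
  have cK : Nat.card ↥(psiRR φ).ker * Nat.card ↥(psiRR φ).range =
      8 * ((8 * k + 3) * (8 * k ^ 2 + 6 * k + 1)) := by
    rw [← Subgroup.index_ker, Subgroup.card_mul_index, Cfsg.Agent.Lib.Helper14.card_SL2, hk]
    have : (8 * k + 3) ^ 2 - 1 = 8 * (8 * k ^ 2 + 6 * k + 1) := by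
      have : (8 * k + 3) ^ 2 = 8 * (8 * k ^ 2 + 6 * k + 1) + 1 := by ring
      omega
    rw [this]
    ring
  have cker : Nat.card ↥(psiRR φ).ker ≤ 2 := by
    have hsub : ((psiRR φ).ker : Set (Matrix.SpecialLinearGroup (Fin 2) K)) ⊆ {1, sl2negI K} := by
      intro g hg
      rw [SetLike.mem_coe, psiRR_ker φ hinj hφ, mem_center_iff_isSc] at hg
      rcases isSc_cases hg with h | h
      · left; exact h
      · right; exact h
    calc _ = Set.ncard _ := (Nat.card_coe_set_eq _)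
      _ ≤ Set.ncard _ := Set.ncard_le_ncard hsub (Set.toFinite _)
      _ ≤ 2 := (Set.ncard_insert_le _ _).trans (by rw [Set.ncard_singleton])
  have cker0 : 0 < Nat.card ↥(psiRR φ).ker := Nat.card_pos
  have h8C : 2 ^ 3 ∣ Nat.card ↥(Subgroup.centralizer {a}) := by
    rw [cC]
    have : Nat.card ↥(psiRR φ).ker = 1 ∨ Nat.card ↥(psiRR φ).ker = 2 := by omega
    rcases this with h | h
    · rw [h, one_mul] at cK
      rw [cK]
      exact ⟨2 * ((8 * k + 3) * (8 * k ^ 2 + 6 * k + 1)), by ring⟩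
    · rw [h] at cK
      rw [cK]
      exact ⟨(8 * k + 3) * (8 * k ^ 2 + 6 * k + 1), by ring⟩
  obtain ⟨T⟩ : Nonempty (Sylow 2 ↥(Subgroup.centralizer {a})) := inferInstance
  have cT : 8 ≤ Nat.card T := by
    rw [Sylow.card_eq_multiplicity]
    have h3 := (Nat.Prime.pow_dvd_iff_le_factorization Nat.prime_two (Nat.card_pos.ne')).mp h8C
    calc 8 = 2 ^ 3 := by norm_num
      _ ≤ _ := Nat.pow_le_pow_right (by norm_num) h3
  have hT' : IsPGroup 2 ↥((T : Subgroup ↥(Subgroup.centralizer {a})).map (Subgroup.centralizer {a}).subtype) :=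
    T.2.map _
  obtain ⟨S0, hle⟩ := hT'.exists_le_sylow
  have heq : (T : Subgroup ↥(Subgroup.centralizer {a})).map (Subgroup.centralizer {a}).subtype = S0 := by
    apply Subgroup.eq_of_le_of_card_ge hle
    rw [Subgroup.card_map_of_injective (Subgroup.subtype_injective _)]
    have := cardS S0
    calc Nat.card ↥(S0 : Subgroup ↥(reeG φ)) = 8 := this
      _ ≤ _ := cT
  have hS0 : ∀ x ∈ (S0 : Subgroup ↥(reeG φ)), x * x = 1 := by
    intro x hx
    have hxC : x ∈ Subgroup.centralizer {a} := by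
      rw [← heq] at hx
      exact Subgroup.map_subtype_le _ hx
    obtain ⟨j, hj⟩ := S0.2 ⟨x, hx⟩
    have hj' : x ^ 2 ^ j = 1 := congrArg Subtype.val hj
    apply ree_cen_exp φ hinj hφ hh0 hn h4 h8 hH a rfl hxC j
    rw [pow_succ, pow_mul, hj', one_pow]
  obtain ⟨g, rfl⟩ := MulAction.exists_smul_eq ↥(reeG φ) S0 S
  intro x hx
  have hx1 : x ∈ ((g • S0 : Sylow 2 ↥(reeG φ)) : Subgroup ↥(reeG φ)) := hx
  rw [Sylow.coe_subgroup_smul, Subgroup.mem_pointwise_smul_iff_inv_smul_mem] at hx1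
  have h1 := hS0 _ hx1
  have h2 : g⁻¹ * x * g * (g⁻¹ * x * g) = 1 := by
    simpa [MulAut.smul_def] using h1
  have h3 : x * x = g * (g⁻¹ * x * g * (g⁻¹ * x * g)) * g⁻¹ := by group
  rw [h3, h2]
  group

end

end Cfsg.Agent.Lib.Helper8
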