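import Mathlib

set_option autoImplicit false
set_option linter.unusedSectionVars false
set_option linter.unusedVariables false

/-! A homomorphism from `SL₂(F)` out of the rank-one relations. -/

namespace Cfsg.Agent.Lib.Helper8

section
variable {G : Type*} [Group G] {F : Type*} [Field F]

def r1N (X Y : F → G) (t : F) : G := X t * Y (-t⁻¹) * X t
def r1H (X Y : F → G) (t : F) : G := r1N X Y t * r1N X Y (-1)

structure Rk1 (X Y : F → G) : Prop where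
  addX : ∀ s t, X s * X t = X (s + t)
  addY : ∀ s t, Y s * Y t = Y (s + t)
  mulH : ∀ s t, s ≠ 0 → t ≠ 0 → r1H X Y s * r1H X Y t = r1H X Y (s * t)
  conjH : ∀ c, c ≠ 0 → ∀ t, r1H X Y c * X t * (r1H X Y c)⁻¹ = X (c ^ 2 * t)
  conjN : ∀ t, r1N X Y 1 * X t * (r1N X Y 1)⁻¹ = Y (-t)

variable {X Y : F → G} (h : Rk1 X Y)
include h

theorem Rk1.X0 : X 0 = 1 := by
  have := h.addX 0 0
  rw [add_zero] at this
  simpa using this

theorem Rk1.Y0 : Y 0 = 1 := by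
  have := h.addY 0 0
  rw [add_zero] at this
  simpa using this

theorem Rk1.Xinv (t : F) : (X t)⁻¹ = X (-t) := by
  rw [inv_eq_iff_mul_eq_one, h.addX, add_neg_cancel, h.X0]

theorem Rk1.Yinv (t : F) : (Y t)⁻¹ = Y (-t) := by
  rw [inv_eq_iff_mul_eq_one, h.addY, add_neg_cancel, h.Y0]

theorem Rk1.Ninv (t : F) : (r1N X Y t)⁻¹ = r1N X Y (-t) := by
  unfold r1N
  rw [mul_inv_rev, mul_inv_rev, h.Xinv, h.Yinv, inv_neg, mul_assoc]

theorem Rk1.H1 : r1H X Y 1 = 1 := by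
  unfold r1H
  rw [← h.Ninv, mul_inv_cancel]

theorem Rk1.Hinv {t : F} (ht : t ≠ 0) : (r1H X Y t)⁻¹ = r1H X Y t⁻¹ := by
  rw [inv_eq_iff_mul_eq_one, h.mulH _ _ ht (inv_ne_zero ht), mul_inv_cancel₀ ht, h.H1]

theorem Rk1.NH (s : F) : r1N X Y s = r1H X Y s * r1N X Y 1 := by
  unfold r1H
  rw [mul_assoc, ← h.Ninv 1, inv_mul_cancel, mul_one]

theorem Rk1.HN {a s : F} (ha : a ≠ 0) (hs : s ≠ 0) : r1H X Y a * r1N X Y s = r1N X Y (a * s) := by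
  rw [h.NH s, ← mul_assoc, h.mulH _ _ ha hs, ← h.NH]

theorem Rk1.NN {s t : F} (hs : s ≠ 0) (ht : t ≠ 0) : r1N X Y s * r1N X Y t = r1H X Y (s * (-t)⁻¹) := by
  have e : r1N X Y t = (r1N X Y (-t))⁻¹ := by rw [h.Ninv, neg_neg]
  rw [e, h.NH s, h.NH (-t), mul_inv_rev, mul_assoc, mul_inv_cancel_left, h.Hinv (neg_ne_zero.mpr ht),
    h.mulH _ _ hs (inv_ne_zero (neg_ne_zero.mpr ht))]

theorem Rk1.HX {c : F} (hc : c ≠ 0) (t : F) : r1H X Y c * X t = X (c ^ 2 * t) * r1H X Y c := by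
  rw [← h.conjH c hc t, inv_mul_cancel_right]

theorem Rk1.conjN' (t : F) : (r1N X Y 1)⁻¹ * X t * r1N X Y 1 = Y (-t) := by
  have e : (r1N X Y 1 * r1N X Y 1)⁻¹ = r1H X Y (-1) := by
    unfold r1H
    rw [mul_inv_rev, h.Ninv]
  calc (r1N X Y 1)⁻¹ * X t * r1N X Y 1
      = r1N X Y 1 * ((r1N X Y 1 * r1N X Y 1)⁻¹ * X t * ((r1N X Y 1 * r1N X Y 1)⁻¹)⁻¹) * (r1N X Y 1)⁻¹ := by
        group
    _ = r1N X Y 1 * X t * (r1N X Y 1)⁻¹ := by
        rw [e, h.conjH (-1) (by simp)]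
        norm_num
    _ = Y (-t) := h.conjN t

theorem Rk1.XN {t : F} (ht : t ≠ 0) (β : F) :
    X β * r1N X Y t = r1N X Y t * Y (-(t⁻¹ ^ 2 * β)) := by
  rw [← h.conjN', ← h.conjH t⁻¹ (inv_ne_zero ht), ← h.Hinv ht, h.NH t]
  group

theorem Rk1.Yeq {u : F} (hu : u ≠ 0) : Y u = X u⁻¹ * r1N X Y (-u⁻¹) * X u⁻¹ := by
  unfold r1N
  rw [inv_neg, inv_inv, neg_neg]
  have e1 : X u⁻¹ * X (-u⁻¹) = 1 := by rw [h.addX, add_neg_cancel, h.X0]
  have e2 : X (-u⁻¹) * X u⁻¹ = 1 := by rw [h.addX, neg_add_cancel, h.X0]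
  calc Y u = (X u⁻¹ * X (-u⁻¹)) * Y u * (X (-u⁻¹) * X u⁻¹) := by rw [e1, e2]; simp
    _ = _ := by simp only [mul_assoc]

theorem Rk1.key {s t β : F} (hs : s ≠ 0) (ht : t ≠ 0) (hβ : β ≠ 0) :
    r1N X Y s * X β * r1N X Y t = X (-(s ^ 2 / β)) * r1N X Y (-(s * t / β)) * X (-(t ^ 2 / β)) := by
  have hu : -(t⁻¹ ^ 2 * β) ≠ 0 := neg_ne_zero.mpr (mul_ne_zero (pow_ne_zero _ (inv_ne_zero ht)) hβ)
  have hσ : s * (-t)⁻¹ ≠ 0 := mul_ne_zero hs (inv_ne_zero (neg_ne_zero.mpr ht))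
  rw [mul_assoc, h.XN ht, ← mul_assoc, h.NN hs ht, h.Yeq hu, ← mul_assoc, ← mul_assoc, h.HX hσ,
    mul_assoc (X _) (r1H X Y _), h.HN hσ (neg_ne_zero.mpr (inv_ne_zero hu))]
  have e1 : (s * (-t)⁻¹) ^ 2 * (-(t⁻¹ ^ 2 * β))⁻¹ = -(s ^ 2 / β) := by
    field_simp
  have e2 : s * (-t)⁻¹ * -(-(t⁻¹ ^ 2 * β))⁻¹ = -(s * t / β) := by
    field_simp
  have e3 : (-(t⁻¹ ^ 2 * β))⁻¹ = -(t ^ 2 / β) := by
    field_simp
  rw [e1, e2, e3]

omit h in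
open Classical in
/-- the map on the two cells -/
noncomputable def r1Fe (X Y : F → G) (a b c d : F) : G :=
  if c = 0 then X (a * b) * r1H X Y a else X (a / c) * r1N X Y (-c⁻¹) * X (d / c)

theorem Rk1.Fe_x {a b c d : F} (hdet : a * d - b * c = 1) (s : F) :
    r1Fe X Y a (a * s + b) c (c * s + d) = r1Fe X Y a b c d * X s := by
  unfold r1Fe
  by_cases hc : c = 0
  · rw [if_pos hc, if_pos hc]
    have ha : a ≠ 0 := by
      rintro rfl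
      rw [hc] at hdet
      simp at hdet
    rw [mul_assoc, h.HX ha, ← mul_assoc, h.addX]
    congr 2
    ring
  · rw [if_neg hc, if_neg hc, mul_assoc _ (X (d / c)), h.addX]
    congr 2
    field_simp
    ring

theorem Rk1.Fe_n {a b c d : F} (hdet : a * d - b * c = 1) {t : F} (ht : t ≠ 0) :
    r1Fe X Y (-(b * t⁻¹)) (a * t) (-(d * t⁻¹)) (c * t) = r1Fe X Y a b c d * r1N X Y t := by
  unfold r1Fe
  by_cases hc : c = 0
  · have had : a * d = 1 := by rw [hc] at hdet; simpa using hdet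
    have ha : a ≠ 0 := left_ne_zero_of_mul_eq_one had
    have hd : d ≠ 0 := right_ne_zero_of_mul_eq_one had
    have hd' : d = a⁻¹ := eq_inv_of_mul_eq_one_right had
    rw [if_pos hc, if_neg (neg_ne_zero.mpr (mul_ne_zero hd (inv_ne_zero ht))), mul_assoc (X (a * b)),
      h.HN ha ht, hc, zero_mul, zero_div, h.X0, mul_one]
    congr 2
    · rw [hd']; field_simp
    · rw [hd']; field_simp
  · by_cases hd : d = 0
    · have hbc : b * c = -1 := by rw [hd] at hdet; linear_combination -hdet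
      have hb : b = -c⁻¹ := by
        field_simp
        linear_combination hbc
      rw [if_neg hc, if_pos (by rw [hd]; simp), hd, zero_div, h.X0, mul_one, mul_assoc,
        h.NN (neg_ne_zero.mpr (inv_ne_zero hc)) ht]
      congr 2
      · rw [hb]; field_simp
      · rw [hb]; field_simp
    · rw [if_neg hc, if_neg (neg_ne_zero.mpr (mul_ne_zero hd (inv_ne_zero ht))), mul_assoc (X (a / c)),
        mul_assoc (X (a / c)),
        h.key (neg_ne_zero.mpr (inv_ne_zero hc)) ht (div_ne_zero hd hc), ← mul_assoc, ← mul_assoc, h.addX]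
      have hb : b = (a * d - 1) / c := by
        field_simp
        linear_combination -hdet
      have e1 : -(b * t⁻¹) / -(d * t⁻¹) = a / c + -((-c⁻¹) ^ 2 / (d / c)) := by
        rw [hb]; field_simp; ring
      have e2 : -(-(d * t⁻¹))⁻¹ = -(-c⁻¹ * t / (d / c)) := by
        field_simp
      have e3 : c * t / -(d * t⁻¹) = -(t ^ 2 / (d / c)) := by
        field_simp
      rw [e1, e2, e3]

omit h

def sl2x (s : F) : Matrix.SpecialLinearGroup (Fin 2) F := ⟨!![1, s; 0, 1], by simp [Matrix.det_fin_two_of]⟩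

def sl2n (t : F) (ht : t ≠ 0) : Matrix.SpecialLinearGroup (Fin 2) F :=
  ⟨!![0, t; -t⁻¹, 0], by simp [Matrix.det_fin_two_of, ht]⟩

noncomputable def r1Fm (X Y : F → G) (g : Matrix.SpecialLinearGroup (Fin 2) F) : G :=
  r1Fe X Y (g.1 0 0) (g.1 0 1) (g.1 1 0) (g.1 1 1)

theorem sl2_det (g : Matrix.SpecialLinearGroup (Fin 2) F) : g.1 0 0 * g.1 1 1 - g.1 0 1 * g.1 1 0 = 1 := by
  have := g.2
  rwa [Matrix.det_fin_two] at this

theorem sl2_mul_x (g : Matrix.SpecialLinearGroup (Fin 2) F) (s : F) :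
    (g * sl2x s).1 0 0 = g.1 0 0 ∧ (g * sl2x s).1 0 1 = g.1 0 0 * s + g.1 0 1 ∧
    (g * sl2x s).1 1 0 = g.1 1 0 ∧ (g * sl2x s).1 1 1 = g.1 1 0 * s + g.1 1 1 := by
  have e : (g * sl2x s).1 = g.1 * !![1, s; 0, 1] := rfl
  rw [e]
  refine ⟨?_, ?_, ?_, ?_⟩ <;> simp [Matrix.mul_apply, Fin.sum_univ_two]

theorem sl2_mul_n (g : Matrix.SpecialLinearGroup (Fin 2) F) {t : F} (ht : t ≠ 0) :
    (g * sl2n t ht).1 0 0 = -(g.1 0 1 * t⁻¹) ∧ (g * sl2n t ht).1 0 1 = g.1 0 0 * t ∧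
    (g * sl2n t ht).1 1 0 = -(g.1 1 1 * t⁻¹) ∧ (g * sl2n t ht).1 1 1 = g.1 1 0 * t := by
  have e : (g * sl2n t ht).1 = g.1 * !![0, t; -t⁻¹, 0] := rfl
  rw [e]
  refine ⟨?_, ?_, ?_, ?_⟩ <;> simp [Matrix.mul_apply, Fin.sum_univ_two]

theorem sl2_ext {g g' : Matrix.SpecialLinearGroup (Fin 2) F} (h00 : g.1 0 0 = g'.1 0 0) (h01 : g.1 0 1 = g'.1 0 1)
    (h10 : g.1 1 0 = g'.1 1 0) (h11 : g.1 1 1 = g'.1 1 1) : g = g' := by
  apply Subtype.ext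
  ext i j
  fin_cases i <;> fin_cases j
  exacts [h00, h01, h10, h11]

theorem sl2_big (g : Matrix.SpecialLinearGroup (Fin 2) F) (hc : g.1 1 0 ≠ 0) :
    g = sl2x (g.1 0 0 / g.1 1 0) * sl2n (-(g.1 1 0)⁻¹) (neg_ne_zero.mpr (inv_ne_zero hc)) *
      sl2x (g.1 1 1 / g.1 1 0) := by
  have hdet := sl2_det g
  obtain ⟨a1, a2, a3, a4⟩ := sl2_mul_x (sl2x (g.1 0 0 / g.1 1 0) *
    sl2n (-(g.1 1 0)⁻¹) (neg_ne_zero.mpr (inv_ne_zero hc))) (g.1 1 1 / g.1 1 0)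
  obtain ⟨b1, b2, b3, b4⟩ := sl2_mul_n (sl2x (g.1 0 0 / g.1 1 0)) (neg_ne_zero.mpr (inv_ne_zero hc))
  have c1 : (sl2x (g.1 0 0 / g.1 1 0)).1 0 0 = 1 := rfl
  have c2 : (sl2x (g.1 0 0 / g.1 1 0)).1 0 1 = g.1 0 0 / g.1 1 0 := rfl
  have c3 : (sl2x (g.1 0 0 / g.1 1 0)).1 1 0 = 0 := rfl
  have c4 : (sl2x (g.1 0 0 / g.1 1 0)).1 1 1 = 1 := rfl
  apply sl2_ext
  · rw [a1, b1, c2]; field_simp
  · rw [a2, b1, b2, c1, c2]
    field_simp
    linear_combination -hdet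
  · rw [a3, b3, c4]; field_simp
  · rw [a4, b3, b4, c3, c4, zero_mul, add_zero]; field_simp

theorem sl2_small (g : Matrix.SpecialLinearGroup (Fin 2) F) (hc : g.1 1 0 = 0) (ha : g.1 0 0 ≠ 0) :
    g = sl2x (g.1 0 0 * g.1 0 1) * sl2n (g.1 0 0) ha * sl2n (-1) (by simp) := by
  have hdet := sl2_det g
  rw [hc, mul_zero, sub_zero] at hdet
  have hd : g.1 1 1 = (g.1 0 0)⁻¹ := eq_inv_of_mul_eq_one_right hdet
  obtain ⟨a1, a2, a3, a4⟩ := sl2_mul_n (sl2x (g.1 0 0 * g.1 0 1) * sl2n (g.1 0 0) ha) (t := (-1 : F)) (by simp)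
  obtain ⟨b1, b2, b3, b4⟩ := sl2_mul_n (sl2x (g.1 0 0 * g.1 0 1)) ha
  have c1 : (sl2x (g.1 0 0 * g.1 0 1)).1 0 0 = 1 := rfl
  have c2 : (sl2x (g.1 0 0 * g.1 0 1)).1 0 1 = g.1 0 0 * g.1 0 1 := rfl
  have c3 : (sl2x (g.1 0 0 * g.1 0 1)).1 1 0 = 0 := rfl
  have c4 : (sl2x (g.1 0 0 * g.1 0 1)).1 1 1 = 1 := rfl
  apply sl2_ext
  · rw [a1, b2, c1]; simp
  · rw [a2, b1, c2]; field_simp
  · rw [a3, b4, c3, hc]; simp
  · rw [a4, b3, c4, hd]; simp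

include h

theorem Rk1.Fm_x (g : Matrix.SpecialLinearGroup (Fin 2) F) (s : F) :
    r1Fm X Y (g * sl2x s) = r1Fm X Y g * X s := by
  obtain ⟨a1, a2, a3, a4⟩ := sl2_mul_x g s
  rw [r1Fm, r1Fm, ← h.Fe_x (sl2_det g) s, a1, a2, a3, a4]

theorem Rk1.Fm_n (g : Matrix.SpecialLinearGroup (Fin 2) F) {t : F} (ht : t ≠ 0) :
    r1Fm X Y (g * sl2n t ht) = r1Fm X Y g * r1N X Y t := by
  obtain ⟨a1, a2, a3, a4⟩ := sl2_mul_n g ht
  rw [r1Fm, r1Fm, ← h.Fe_n (sl2_det g) ht, a1, a2, a3, a4]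

theorem Rk1.Fm_mul (g g' : Matrix.SpecialLinearGroup (Fin 2) F) :
    r1Fm X Y (g * g') = r1Fm X Y g * r1Fm X Y g' := by
  by_cases hc : g'.1 1 0 = 0
  · have ha : g'.1 0 0 ≠ 0 := by
      intro ha
      have := sl2_det g'
      rw [hc, ha] at this
      simp at this
    have e2 : r1Fm X Y g' = X (g'.1 0 0 * g'.1 0 1) * (r1N X Y (g'.1 0 0) * r1N X Y (-1)) := by
      unfold r1Fm r1Fe
      rw [if_pos hc]
      rfl
    rw [e2]
    conv_lhs => rw [sl2_small g' hc ha]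
    rw [← mul_assoc, ← mul_assoc, h.Fm_n, h.Fm_n, h.Fm_x]
    simp only [mul_assoc]
  · have e2 : r1Fm X Y g' = X (g'.1 0 0 / g'.1 1 0) * r1N X Y (-(g'.1 1 0)⁻¹) * X (g'.1 1 1 / g'.1 1 0) := by
      unfold r1Fm r1Fe
      rw [if_neg hc]
    rw [e2]
    conv_lhs => rw [sl2_big g' hc]
    rw [← mul_assoc, ← mul_assoc, h.Fm_x, h.Fm_n, h.Fm_x]
    simp only [mul_assoc]

/-- the homomorphism -/
noncomputable def Rk1.hom : Matrix.SpecialLinearGroup (Fin 2) F →* G := MonoidHom.mk' (r1Fm X Y) h.Fm_mul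

theorem Rk1.hom_x {g : Matrix.SpecialLinearGroup (Fin 2) F} {t : F}
    (hg : (g : Matrix (Fin 2) (Fin 2) F) = !![1, t; 0, 1]) : h.hom g = X t := by
  show r1Fe X Y (g.1 0 0) (g.1 0 1) (g.1 1 0) (g.1 1 1) = X t
  have hg' : g.1 = !![1, t; 0, 1] := hg
  rw [hg']
  unfold r1Fe
  simp [h.H1]

theorem Rk1.hom_y {g : Matrix.SpecialLinearGroup (Fin 2) F} {t : F}
    (hg : (g : Matrix (Fin 2) (Fin 2) F) = !![1, 0; t, 1]) : h.hom g = Y t := by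
  show r1Fe X Y (g.1 0 0) (g.1 0 1) (g.1 1 0) (g.1 1 1) = Y t
  have hg' : g.1 = !![1, 0; t, 1] := hg
  rw [hg']
  unfold r1Fe
  by_cases ht : t = 0
  · simp [ht, h.H1, h.X0, h.Y0]
  · rw [h.Yeq ht]
    simp [ht]

theorem Rk1.hom_mem {K : Subgroup G} (hX : ∀ t, X t ∈ K) (hY : ∀ t, Y t ∈ K)
    (g : Matrix.SpecialLinearGroup (Fin 2) F) : h.hom g ∈ K := by
  have hN : ∀ t, r1N X Y t ∈ K := fun t => mul_mem (mul_mem (hX _) (hY _)) (hX _)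
  show r1Fe X Y (g.1 0 0) (g.1 0 1) (g.1 1 0) (g.1 1 1) ∈ K
  unfold r1Fe
  split_ifs
  · exact mul_mem (hX _) (mul_mem (hN _) (hN _))
  · exact mul_mem (mul_mem (hX _) (hN _)) (hX _)

end

end Cfsg.Agent.Lib.Helper8
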