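import Cfsg.Agent.Lib.Helper8.SL2a
import Cfsg.Agent.Lib.Helper8.BN
import Cfsg.Agent.Lib.Helper8.Perfect
import Cfsg.Agent.Lib.Helper8.RootInd
import Cfsg.Agent.Lib.Helper8.UStruct

set_option autoImplicit false
set_option linter.unusedSectionVars false
set_option linter.unusedVariables false

/-! The homomorphism `SL₂(F) → ⟨X_r, X_{-r}⟩`. -/

namespace Cfsg.Agent.Lib.Helper8

open Cfsg Cfsg.Lie

section
variable {D : ChevalleyDatum} (hD : D ∈ allData) {F : Type*} [Field F]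

theorem conj_nG_neg_of {r : ℕ} (hr : r < D.nroots)
    (h : ∀ t : F, nG hD F r 1 * xG hD F r t * (nG hD F r 1)⁻¹ = xG hD F (D.neg r) (-t)) (t : F) :
    nG hD F r (-1) * xG hD F r t * (nG hD F r (-1))⁻¹ = xG hD F (D.neg r) (-t) := by
  rw [← nG_inv hD r (1 : F), inv_inv]
  have e : (nG hD F r 1 * nG hD F r 1)⁻¹ = hG hD F r (-1) := by rw [nG_sq, inv_inv]
  calc (nG hD F r 1)⁻¹ * xG hD F r t * nG hD F r 1
      = nG hD F r 1 * ((nG hD F r 1 * nG hD F r 1)⁻¹ * xG hD F r t * ((nG hD F r 1 * nG hD F r 1)⁻¹)⁻¹) *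
          (nG hD F r 1)⁻¹ := by group
    _ = nG hD F r 1 * xG hD F r t * (nG hD F r 1)⁻¹ := by
        rw [e, conj_hG_x_self hD hr (by simp)]
        norm_num
    _ = _ := h t

theorem conj_nG_x_self : ∀ r < D.nroots, ∀ t : F,
    nG hD F r 1 * xG hD F r t * (nG hD F r 1)⁻¹ = xG hD F (D.neg r) (-t) := by
  refine root_induction hD (P := fun r => ∀ t : F,
    nG hD F r 1 * xG hD F r t * (nG hD F r 1)⁻¹ = xG hD F (D.neg r) (-t)) ?_ ?_
  · intro i hi t
    have := nS_x_simple hD hi t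
    rw [this, mul_inv_cancel_right]
  · intro i hi r hr ih t
    have hr' := reflect_lt hD hi hr
    have hrr : D.reflectRoot i (D.reflectRoot i r) = r := reflect_reflect hD hi hr
    have hηη := etaF_sq (F := F) (D := D) i (D.reflectRoot i r)
    have hη : ((etaOf D i (D.reflectRoot i r) : ℤ) : F) = 1 ∨ ((etaOf D i (D.reflectRoot i r) : ℤ) : F) = -1 := by
      rcases eta_cases (D := D) i (D.reflectRoot i r) with h | h <;> simp [h]
    have c1 := conj_nS_x hD hi hr' (((etaOf D i (D.reflectRoot i r) : ℤ) : F) * t)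
    have c2 := conj_nS_n hD hi hr' ((etaOf D i (D.reflectRoot i r) : ℤ) : F)
    have c3 := conj_nS_x hD hi (neg_lt' hD _ hr') (-(((etaOf D i (D.reflectRoot i r) : ℤ) : F) * t))
    rw [hrr, ← mul_assoc, hηη, one_mul] at c1
    rw [hrr, hηη] at c2
    rw [reflect_neg hD hi hr', hrr, eta_neg hD hi hr', mul_neg, ← mul_assoc, hηη, one_mul] at c3
    rw [← c1, ← c2, ← c3, ← map_inv, ← map_mul, ← map_mul]
    congr 1
    rcases hη with h | h
    · rw [h]
      exact ih _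
    · rw [h]
      exact conj_nG_neg_of hD hr' ih _

theorem rk1_chev {r : ℕ} (hr : r < D.nroots) : Rk1 (xG hD F r) (xG hD F (D.neg r)) where
  addX := fun s t => xG_mul hD r s t
  addY := fun s t => xG_mul hD (D.neg r) s t
  mulH := fun s t hs ht => hG_mul hD hr hs ht
  conjH := fun c hc t => conj_hG_x_self hD hr hc t
  conjN := fun t => conj_nG_x_self hD r hr t

include hD in
theorem sl2_hom {r : ℕ} (hr : r < D.nroots) :
    ∃ φ : Matrix.SpecialLinearGroup (Fin 2) F →* GL D.Idx F,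
      φ.range = D.rootSubgroup F r ⊔ D.rootSubgroup F (D.neg r) ∧
      ∀ (g : Matrix.SpecialLinearGroup (Fin 2) F) (t : F),
        ((g : Matrix (Fin 2) (Fin 2) F) = !![1, t; 0, 1] → ((φ g : GL D.Idx F) : Matrix D.Idx D.Idx F) = D.x F r t) ∧
        ((g : Matrix (Fin 2) (Fin 2) F) = !![1, 0; t, 1] →
          ((φ g : GL D.Idx F) : Matrix D.Idx D.Idx F) = D.x F (D.neg r) t) := by
  have h := rk1_chev (F := F) hD hr
  refine ⟨h.hom, le_antisymm ?_ ?_, fun g t => ⟨fun hg => ?_, fun hg => ?_⟩⟩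
  · rintro _ ⟨g, rfl⟩
    apply h.hom_mem
    · intro t
      exact Subgroup.mem_sup_left ((mem_rootSubgroup hD).mpr ⟨t, rfl⟩)
    · intro t
      exact Subgroup.mem_sup_right ((mem_rootSubgroup hD).mpr ⟨t, rfl⟩)
  · rw [sup_le_iff]
    constructor
    · intro x hx
      obtain ⟨t, rfl⟩ := (mem_rootSubgroup hD).mp hx
      exact ⟨sl2x t, h.hom_x rfl⟩
    · intro x hx
      obtain ⟨t, rfl⟩ := (mem_rootSubgroup hD).mp hx
      exact ⟨⟨!![1, 0; t, 1], by simp [Matrix.det_fin_two_of]⟩, h.hom_y rfl⟩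
  · rw [h.hom_x hg, xG_coe]
  · rw [h.hom_y hg, xG_coe]

end

end Cfsg.Agent.Lib.Helper8
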