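import Cfsg.Agent.Lib.Helper8.Perfect
import Cfsg.Prelude.Def_SteinbergCover

set_option autoImplicit false
set_option linter.unusedSectionVars false
set_option linter.unusedVariables false

open scoped commutatorElement

/-! The group presented by (R1), (R2) is perfect. -/

namespace Cfsg.Agent.Lib.Helper8

open Cfsg Cfsg.Lie

/-- a family of elements satisfying (R1) and (R2) -/
structure StR (D : ChevalleyDatum) (K : Type*) [Field K] {P : Type*} [Group P] (X : ℕ → K → P) : Prop where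
  add : ∀ r < D.nroots, ∀ t u : K, X r t * X r u = X r (t + u)
  comm : ∀ r < D.nroots, ∀ s < D.nroots, s ≠ r → s ≠ D.neg r → ∀ t u : K,
    (X s u)⁻¹ * (X r t)⁻¹ * X s u * X r t = ((D.commWord K r s t u).map (fun p => X p.1 p.2)).prod

section
variable {D : ChevalleyDatum} {K : Type*} [Field K] {P : Type*} [Group P] {X : ℕ → K → P} (R : StR D K X)
  {Kc : Subgroup P} (hK : ∀ r s : ℕ, ∀ t u : K, (X s u)⁻¹ * (X r t)⁻¹ * X s u * X r t ∈ Kc)
include R hK

theorem rest_mem {rest : List (ℕ × ℤ × ℕ × ℕ)} (h : ∀ c ∈ rest, ∀ a : K, X c.1 a ∈ Kc) (t u : K) :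
    ((rest.map (fun c => (c.1, ((c.2.1 : ℤ) : K) * (-t) ^ c.2.2.1 * u ^ c.2.2.2))).map
      (fun p => X p.1 p.2)).prod ∈ Kc := by
  apply Subgroup.list_prod_mem
  intro x hx
  simp only [List.mem_map] at hx
  obtain ⟨p, ⟨c, hc, rfl⟩, rfl⟩ := hx
  exact h c hc _

theorem first_term {r s k : ℕ} {C : ℤ} {rest : List (ℕ × ℤ × ℕ × ℕ)} (hr : r < D.nroots) (hs : s < D.nroots)
    (hsr : s ≠ r) (hsn : s ≠ D.neg r) (hT : D.commTerms r s = (k, C, 1, 1) :: rest) (hC : C = 1 ∨ C = -1)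
    (h : ∀ c ∈ rest, ∀ a : K, X c.1 a ∈ Kc) (a : K) : X k a ∈ Kc := by
  have hC0 : (C : K) ≠ 0 := by
    rcases hC with h | h <;> rw [h] <;> simp
  have h1 := R.comm r hr s hs hsr hsn (-(a / C)) 1
  have h2 := hK r s (-(a / C)) 1
  rw [h1, ChevalleyDatum.commWord, hT, List.map_cons, List.map_cons, List.prod_cons] at h2
  have e3 : (C : K) * (- -(a / C)) ^ 1 * (1 : K) ^ 1 = a := by
    field_simp
  simp only [e3] at h2
  have h4 := rest_mem R hK h (-(a / C)) 1
  have := Subgroup.mul_mem _ h2 (Subgroup.inv_mem _ h4)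
  rwa [mul_inv_cancel_right] at this

theorem second_term {r s k1 k : ℕ} {C1 C : ℤ} {rest : List (ℕ × ℤ × ℕ × ℕ)} (hr : r < D.nroots)
    (hs : s < D.nroots) (hsr : s ≠ r) (hsn : s ≠ D.neg r) (hk : k < D.nroots)
    (hT : D.commTerms r s = (k1, C1, 1, 1) :: (k, C, 1, 2) :: rest) (hC : C = 1 ∨ C = -1)
    (h : ∀ c ∈ rest, ∀ a : K, X c.1 a ∈ Kc) {c0 : K} (h0 : c0 ≠ 0) (h1 : c0 ≠ 1) (a : K) : X k a ∈ Kc := by
  have hC0 : (C : K) ≠ 0 := by
    rcases hC with h | h <;> rw [h] <;> simp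
  have hc1 : c0 - 1 ≠ 0 := sub_ne_zero.mpr h1
  have key : ∀ t u : K, X k1 ((C1 : K) * (-t) ^ 1 * u ^ 1) * X k ((C : K) * (-t) ^ 1 * u ^ 2) ∈ Kc := by
    intro t u
    have e1 := R.comm r hr s hs hsr hsn t u
    have e2 := hK r s t u
    rw [e1, ChevalleyDatum.commWord, hT, List.map_cons, List.map_cons, List.map_cons, List.map_cons,
      List.prod_cons, List.prod_cons, ← mul_assoc] at e2
    have h4 := rest_mem R hK h t u
    have := Subgroup.mul_mem _ e2 (Subgroup.inv_mem _ h4)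
    rwa [mul_inv_cancel_right] at this
  set m : K := a / (C * (c0 - 1)) with hm
  have k1' := key (-(m / c0)) c0
  have k2' := key (-m) 1
  have e1 : (C1 : K) * (- -(m / c0)) ^ 1 * c0 ^ 1 = C1 * m := by field_simp
  have e2 : (C1 : K) * (- -m) ^ 1 * (1 : K) ^ 1 = C1 * m := by ring
  have e3 : (C : K) * (- -(m / c0)) ^ 1 * c0 ^ 2 = C * m + a := by
    rw [hm]; field_simp; ring
  have e4 : (C : K) * (- -m) ^ 1 * (1 : K) ^ 2 = C * m := by ring
  rw [e1, e3, ← R.add k hk, ← mul_assoc] at k1'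
  rw [e2, e4] at k2'
  have := Subgroup.mul_mem _ (Subgroup.inv_mem _ k2') k1'
  rwa [inv_mul_cancel_left] at this

end

section
variable {D : ChevalleyDatum} (hD : D ∈ allData) {K : Type*} [Field K] {P : Type*} [Group P] {X : ℕ → K → P}
  (R : StR D K X) {Kc : Subgroup P}
  (hK : ∀ r s : ℕ, ∀ t u : K, (X s u)⁻¹ * (X r t)⁻¹ * X s u * X r t ∈ Kc)
include hD R hK

theorem X_mem_big (hbig : 12 < D.nroots) : ∀ k < D.nroots, ∀ a : K, X k a ∈ Kc := by
  have key : ∀ m k, ((witOf D).getD k (0, 0, 0)).2.2 = m → k < D.nroots → ∀ a : K, X k a ∈ Kc := by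
    intro m
    induction m using Nat.strong_induction_on with
    | _ m ih =>
      intro k hm hk a
      obtain ⟨r, s, C, rest, hr, hs, hsr, hsn, hT, hC, hrest⟩ := wit_spec hD hk
      have hC' : C = 1 ∨ C = -1 := by
        rcases hC with h | h | ⟨h0, -⟩
        · exact Or.inl h
        · exact Or.inr h
        · omega
      exact first_term R hK hr hs hsr hsn hT hC'
        (fun c hc b => ih _ (by rw [← hm]; exact (hrest c hc).2) c.1 rfl (hrest c hc).1 b) a
  intro k hk a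
  exact key _ k rfl hk a

end

end Cfsg.Agent.Lib.Helper8
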