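import Cfsg.Agent.Lib.Helper8.St1

set_option autoImplicit false
set_option linter.unusedSectionVars false
set_option linter.unusedVariables false

open scoped commutatorElement

/-! The group presented by (R1), (R2) is perfect: the small types and the conclusion. -/

namespace Cfsg.Agent.Lib.Helper8

open Cfsg Cfsg.Lie

section
variable {K : Type*} [Field K] {P : Type*} [Group P] {X : ℕ → K → P} (R : StR chevB2 K X) {Kc : Subgroup P}
  (hK : ∀ r s : ℕ, ∀ t u : K, (X s u)⁻¹ * (X r t)⁻¹ * X s u * X r t ∈ Kc) {c0 : K} (h0 : c0 ≠ 0) (h1 : c0 ≠ 1)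
include R hK h0 h1

theorem X_mem_B2 : ∀ k < chevB2.nroots, ∀ a : K, X k a ∈ Kc := by
  have L3 : ∀ a : K, X 3 a ∈ Kc := second_term R hK (r := 0) (s := 5) (by decide) (by decide) (by decide)
    (by decide) (by decide) (show chevB2.commTerms 0 5 = (1, 1, 1, 1) :: (3, -1, 1, 2) :: [] by decide +kernel) (Or.inr rfl)
    (by intro c hc; simp at hc) h0 h1
  have L4 : ∀ a : K, X 4 a ∈ Kc := second_term R hK (r := 0) (s := 6) (by decide) (by decide) (by decide)
    (by decide) (by decide) (show chevB2.commTerms 0 6 = (2, -1, 1, 1) :: (4, 1, 1, 2) :: [] by decide +kernel) (Or.inl rfl)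
    (by intro c hc; simp at hc) h0 h1
  have L0 : ∀ a : K, X 0 a ∈ Kc := second_term R hK (r := 3) (s := 2) (by decide) (by decide) (by decide)
    (by decide) (by decide) (show chevB2.commTerms 3 2 = (1, -1, 1, 1) :: (0, -1, 1, 2) :: [] by decide +kernel) (Or.inr rfl)
    (by intro c hc; simp at hc) h0 h1
  have L7 : ∀ a : K, X 7 a ∈ Kc := second_term R hK (r := 3) (s := 6) (by decide) (by decide) (by decide)
    (by decide) (by decide) (show chevB2.commTerms 3 6 = (5, 1, 1, 1) :: (7, 1, 1, 2) :: [] by decide +kernel) (Or.inl rfl)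
    (by intro c hc; simp at hc) h0 h1
  have L1 : ∀ a : K, X 1 a ∈ Kc := first_term R hK (r := 0) (s := 5) (by decide) (by decide) (by decide)
    (by decide) (show chevB2.commTerms 0 5 = (1, 1, 1, 1) :: (3, -1, 1, 2) :: [] by decide +kernel) (Or.inl rfl)
    (by
      intro c hc
      simp only [List.mem_cons, List.not_mem_nil, or_false] at hc
      subst hc
      exact L3)
  have L2 : ∀ a : K, X 2 a ∈ Kc := first_term R hK (r := 0) (s := 6) (by decide) (by decide) (by decide)
    (by decide) (show chevB2.commTerms 0 6 = (2, -1, 1, 1) :: (4, 1, 1, 2) :: [] by decide +kernel) (Or.inr rfl)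
    (by
      intro c hc
      simp only [List.mem_cons, List.not_mem_nil, or_false] at hc
      subst hc
      exact L4)
  have L5 : ∀ a : K, X 5 a ∈ Kc := first_term R hK (r := 3) (s := 6) (by decide) (by decide) (by decide)
    (by decide) (show chevB2.commTerms 3 6 = (5, 1, 1, 1) :: (7, 1, 1, 2) :: [] by decide +kernel) (Or.inl rfl)
    (by
      intro c hc
      simp only [List.mem_cons, List.not_mem_nil, or_false] at hc
      subst hc
      exact L7)
  have L6 : ∀ a : K, X 6 a ∈ Kc := first_term R hK (r := 4) (s := 5) (by decide) (by decide) (by decide)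
    (by decide) (show chevB2.commTerms 4 5 = (6, 1, 1, 1) :: (7, -1, 1, 2) :: [] by decide +kernel) (Or.inl rfl)
    (by
      intro c hc
      simp only [List.mem_cons, List.not_mem_nil, or_false] at hc
      subst hc
      exact L7)
  intro k hk
  have hk' : k < 8 := hk
  interval_cases k
  · exact L0
  · exact L1
  · exact L2
  · exact L3
  · exact L4
  · exact L5
  · exact L6
  · exact L7

end

section
variable {K : Type*} [Field K] {P : Type*} [Group P] {X : ℕ → K → P} (R : StR chevG2 K X) {Kc : Subgroup P}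
  (hK : ∀ r s : ℕ, ∀ t u : K, (X s u)⁻¹ * (X r t)⁻¹ * X s u * X r t ∈ Kc) {c0 : K} (h0 : c0 ≠ 0) (h1 : c0 ≠ 1)
include R hK h0 h1

theorem X_mem_G2 : ∀ k < chevG2.nroots, ∀ a : K, X k a ∈ Kc := by
  have L0 : ∀ a : K, X 0 a ∈ Kc := first_term R hK (r := 1) (s := 5) (by decide) (by decide) (by decide)
    (by decide) (show chevG2.commTerms 1 5 = (0, 1, 1, 1) :: [] by decide +kernel) (Or.inl rfl)
    (by intro c hc; simp at hc)
  have L1 : ∀ a : K, X 1 a ∈ Kc := first_term R hK (r := 0) (s := 6) (by decide) (by decide) (by decide)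
    (by decide) (show chevG2.commTerms 0 6 = (1, 1, 1, 1) :: [] by decide +kernel) (Or.inl rfl)
    (by intro c hc; simp at hc)
  have L5 : ∀ a : K, X 5 a ∈ Kc := first_term R hK (r := 0) (s := 10) (by decide) (by decide) (by decide)
    (by decide) (show chevG2.commTerms 0 10 = (5, -1, 1, 1) :: [] by decide +kernel) (Or.inr rfl)
    (by intro c hc; simp at hc)
  have L6 : ∀ a : K, X 6 a ∈ Kc := first_term R hK (r := 1) (s := 11) (by decide) (by decide) (by decide)
    (by decide) (show chevG2.commTerms 1 11 = (6, -1, 1, 1) :: [] by decide +kernel) (Or.inr rfl)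
    (by intro c hc; simp at hc)
  have L10 : ∀ a : K, X 10 a ∈ Kc := first_term R hK (r := 5) (s := 11) (by decide) (by decide) (by decide)
    (by decide) (show chevG2.commTerms 5 11 = (10, 1, 1, 1) :: [] by decide +kernel) (Or.inl rfl)
    (by intro c hc; simp at hc)
  have L11 : ∀ a : K, X 11 a ∈ Kc := first_term R hK (r := 6) (s := 10) (by decide) (by decide) (by decide)
    (by decide) (show chevG2.commTerms 6 10 = (11, 1, 1, 1) :: [] by decide +kernel) (Or.inl rfl)
    (by intro c hc; simp at hc)
  have L4 : ∀ a : K, X 4 a ∈ Kc := second_term R hK (r := 0) (s := 8) (by decide) (by decide) (by decide)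
    (by decide) (by decide) (show chevG2.commTerms 0 8 = (2, 1, 1, 1) :: (4, 1, 1, 2) :: (6, -1, 1, 3) :: (1, -2, 2, 3) :: [] by decide +kernel) (Or.inl rfl)
    (by
      intro c hc
      simp only [List.mem_cons, List.not_mem_nil, or_false] at hc
      rcases hc with rfl | rfl
      · exact L6
      · exact L1) h0 h1
  have L7 : ∀ a : K, X 7 a ∈ Kc := second_term R hK (r := 0) (s := 9) (by decide) (by decide) (by decide)
    (by decide) (by decide) (show chevG2.commTerms 0 9 = (3, -1, 1, 1) :: (7, -1, 1, 2) :: (10, -1, 1, 3) :: (5, 2, 2, 3) :: [] by decide +kernel) (Or.inr rfl)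
    (by
      intro c hc
      simp only [List.mem_cons, List.not_mem_nil, or_false] at hc
      rcases hc with rfl | rfl
      · exact L10
      · exact L5) h0 h1
  have L3 : ∀ a : K, X 3 a ∈ Kc := second_term R hK (r := 1) (s := 7) (by decide) (by decide) (by decide)
    (by decide) (by decide) (show chevG2.commTerms 1 7 = (2, 1, 1, 1) :: (3, -1, 1, 2) :: (5, 1, 1, 3) :: (0, 2, 2, 3) :: [] by decide +kernel) (Or.inr rfl)
    (by
      intro c hc
      simp only [List.mem_cons, List.not_mem_nil, or_false] at hc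
      rcases hc with rfl | rfl
      · exact L5
      · exact L0) h0 h1
  have L8 : ∀ a : K, X 8 a ∈ Kc := second_term R hK (r := 1) (s := 9) (by decide) (by decide) (by decide)
    (by decide) (by decide) (show chevG2.commTerms 1 9 = (4, -1, 1, 1) :: (8, 1, 1, 2) :: (11, 1, 1, 3) :: (6, -2, 2, 3) :: [] by decide +kernel) (Or.inl rfl)
    (by
      intro c hc
      simp only [List.mem_cons, List.not_mem_nil, or_false] at hc
      rcases hc with rfl | rfl
      · exact L11
      · exact L6) h0 h1
  have L2 : ∀ a : K, X 2 a ∈ Kc := second_term R hK (r := 5) (s := 4) (by decide) (by decide) (by decide)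
    (by decide) (by decide) (show chevG2.commTerms 5 4 = (3, -1, 1, 1) :: (2, 1, 1, 2) :: (1, 1, 1, 3) :: (0, -2, 2, 3) :: [] by decide +kernel) (Or.inl rfl)
    (by
      intro c hc
      simp only [List.mem_cons, List.not_mem_nil, or_false] at hc
      rcases hc with rfl | rfl
      · exact L1
      · exact L0) h0 h1
  have L9 : ∀ a : K, X 9 a ∈ Kc := second_term R hK (r := 5) (s := 8) (by decide) (by decide) (by decide)
    (by decide) (by decide) (show chevG2.commTerms 5 8 = (7, 1, 1, 1) :: (9, -1, 1, 2) :: (11, 1, 1, 3) :: (10, 2, 2, 3) :: [] by decide +kernel) (Or.inr rfl)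
    (by
      intro c hc
      simp only [List.mem_cons, List.not_mem_nil, or_false] at hc
      rcases hc with rfl | rfl
      · exact L11
      · exact L10) h0 h1
  intro k hk
  have hk' : k < 12 := hk
  interval_cases k
  · exact L0
  · exact L1
  · exact L2
  · exact L3
  · exact L4
  · exact L5
  · exact L6
  · exact L7
  · exact L8
  · exact L9
  · exact L10
  · exact L11

end

theorem scGen_StR (D : ChevalleyDatum) (K : Type*) [Field K] : StR D K (D.scGen K) := by
  constructor
  · intro r hr t u
    have h : PresentedGroup.mk (D.steinbergRelsAB K) (D.stX r t * D.stX r u * (D.stX r (t + u))⁻¹) = 1 :=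
      PresentedGroup.one_of_mem (Or.inl ⟨r, t, u, hr, rfl⟩)
    rw [map_mul, map_inv, mul_inv_eq_one, map_mul] at h
    exact h
  · intro r hr s hs hsr hsn t u
    have h : PresentedGroup.mk (D.steinbergRelsAB K) ((D.stX s u)⁻¹ * (D.stX r t)⁻¹ * D.stX s u * D.stX r t *
        (D.stWord (D.commWord K r s t u))⁻¹) = 1 :=
      PresentedGroup.one_of_mem (Or.inr ⟨r, s, t, u, hr, hs, hsr, hsn, rfl⟩)
    rw [map_mul, map_inv, mul_inv_eq_one, map_mul, map_mul, map_mul, map_inv, map_inv] at h
    show (PresentedGroup.mk _ (D.stX s u))⁻¹ * (PresentedGroup.mk _ (D.stX r t))⁻¹ *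
      PresentedGroup.mk _ (D.stX s u) * PresentedGroup.mk _ (D.stX r t) = _
    rw [h, ChevalleyDatum.stWord, map_list_prod, List.map_map]
    rfl

theorem cover_perfect {D : ChevalleyDatum} (hD : D ∈ allData) {K : Type*} [Field K]
    (hK : D = chevB2 ∨ D = chevG2 → ∃ x : K, x ≠ 0 ∧ x ≠ 1) : commutator (D.SteinbergCover K) = ⊤ := by
  have hc : ∀ r s : ℕ, ∀ t u : K, (D.scGen K s u)⁻¹ * (D.scGen K r t)⁻¹ * D.scGen K s u * D.scGen K r t ∈
      commutator (D.SteinbergCover K) := by
    intro r s t u
    have h := Subgroup.commutator_mem_commutator (Subgroup.mem_top (D.scGen K s u)⁻¹)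
      (Subgroup.mem_top (D.scGen K r t)⁻¹)
    rw [commutatorElement_def, inv_inv, inv_inv] at h
    exact h
  have hall : ∀ k < D.nroots, ∀ a : K, D.scGen K k a ∈ commutator (D.SteinbergCover K) := by
    by_cases hbig : 12 < D.nroots
    · exact X_mem_big hD (scGen_StR D K) hc hbig
    · rcases small_cases hD (Nat.le_of_not_lt hbig) with rfl | rfl
      · obtain ⟨c0, h0, h1⟩ := hK (Or.inr rfl)
        exact X_mem_G2 (scGen_StR _ K) hc h0 h1
      · obtain ⟨c0, h0, h1⟩ := hK (Or.inl rfl)
        exact X_mem_B2 (scGen_StR _ K) hc h0 h1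
  rw [eq_top_iff, ← PresentedGroup.closure_range_of, Subgroup.closure_le]
  rintro _ ⟨⟨r, t⟩, rfl⟩
  have h := hall r.val r.isLt t
  have e : D.scGen K r.val t = PresentedGroup.of (r, t) := by
    unfold ChevalleyDatum.scGen ChevalleyDatum.stX
    rw [dif_pos r.isLt]
    rfl
  rw [e] at h
  exact h

end Cfsg.Agent.Lib.Helper8
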