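import Cfsg.Agent.Lib.Helper8.TopPair
import Cfsg.Agent.Lib.Helper8.WeylLev2

set_option autoImplicit false
namespace Cfsg.Agent.Lib.Helper8
open Cfsg Cfsg.Lie

theorem posU_index_not_dvd {D : ChevalleyDatum} (hD : D ∈ allData) {F : Type*} [Field F] [Fintype F]
    (p : ℕ) [Fact p.Prime] [CharP F p] : ¬ p ∣ ((D.posUnipotent F).subgroupOf (D.group F)).index := by
  classical
  intro hdvd
  have hp : p.Prime := Fact.out
  obtain ⟨k, -, hk⟩ := FiniteField.card F p
  have hpq : p ∣ Fintype.card F := by rw [hk]; exact dvd_pow_self p k.ne_zero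
  have hq1 := Fintype.one_lt_card (α := F)
  have h1 := Subgroup.card_mul_index ((D.posUnipotent F).subgroupOf (D.group F))
  have h2 : Nat.card ↥((D.posUnipotent F).subgroupOf (D.group F)) = Fintype.card F ^ (D.nroots / 2) := by
    rw [← card_posU hD]
    exact Nat.card_congr (Subgroup.subgroupOfEquivOfLe (posU_le_group hD)).toEquiv
  have h3 := card_group_mul (F := F) hD
  rw [← h1, h2, mul_assoc, mul_assoc] at h3
  have h4 := Nat.eq_of_mul_eq_mul_left (Nat.pow_pos (by omega)) h3
  have hnd : ∀ d : ℕ, 1 ≤ d → ¬ p ∣ Fintype.card F ^ d - 1 := by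
    intro d hd h
    have h5 : p ∣ Fintype.card F ^ d := dvd_trans hpq (dvd_pow_self _ (by omega))
    have h6 : 1 ≤ Fintype.card F ^ d := Nat.one_le_pow _ _ (by omega)
    have h7 : p ∣ 1 := by
      have := (Nat.dvd_sub h5 h)
      rwa [Nat.sub_sub_self h6] at this
    exact hp.one_lt.ne' (Nat.dvd_one.mp h7)
  have h8 : p ∣ Nat.card ↥(D.diagonalSubgroup F) * ((degsOf D).map (fun d => Fintype.card F ^ d - 1)).prod := by
    rw [← h4]; exact Dvd.dvd.mul_right hdvd _
  rcases (Nat.Prime.dvd_mul hp).mp h8 with h9 | h9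
  · have hc : Nat.card Fˣ = Fintype.card F - 1 := by
      rw [Nat.card_eq_fintype_card, Fintype.card_units]
    have h10 : Nat.card ↥(D.diagonalSubgroup F) ∣ (Fintype.card F - 1) ^ D.rank := by
      rw [← tauHom_range hD]
      have := Subgroup.card_range_dvd (tauHom D F)
      rwa [Nat.card_fun, hc, Nat.card_eq_fintype_card (α := Fin D.rank), Fintype.card_fin] at this
    have h11 := hp.dvd_of_dvd_pow (dvd_trans h9 h10)
    have := hnd 1 le_rfl
    rw [pow_one] at this
    exact this h11
  · rw [Prime.dvd_prod_iff (Nat.Prime.prime hp)] at h9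
    obtain ⟨a, ha, hpa⟩ := h9
    simp only [List.mem_map] at ha
    obtain ⟨d, hd, rfl⟩ := ha
    have hd1 : 1 ≤ d := by
      have : ∀ D ∈ allData, ∀ d ∈ degsOf D, 1 ≤ d := by
        apply all_of <;> decide
      exact this D hD d hd
    exact hnd d hd1 hpa

end Cfsg.Agent.Lib.Helper8
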