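import Cfsg.Agent.Lib.Helper8.Tw9
import Cfsg.Agent.Lib.Helper8.DiagCard

set_option autoImplicit false
set_option linter.unusedSectionVars false
set_option linter.unusedVariables false

namespace Cfsg.Agent.Lib.Helper8

open Cfsg Cfsg.Lie

section
variable {D : ChevalleyDatum} (hD : D ∈ allData) {tab tab' : List (ℕ × ℤ)} {r0 : List ℕ}
  (T : TwOK D tab tab' r0) {K : Type*} [Field K] (φ : K →+* K)

/-- the action of `σ` on the parameters of the torus -/
noncomputable def twc (c : ℕ → Kˣ) : ℕ → Kˣ := fun i => Units.map (φ : K →* K) (c (T.p^[5] i))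

omit T in
theorem tG_congr {c c' : ℕ → Kˣ} (h : ∀ i < D.rank, c i = c' i) : tG D c = tG D c' := Units.ext (tMat_congr h)

omit T in
theorem prod_tG (g : ℕ → ℕ → Kˣ) (L : List ℕ) : (L.map (fun i => tG D (g i))).prod = tG D (L.map g).prod := by
  induction L with
  | nil => exact (tG_one D).symm
  | cons a L ih => rw [List.map_cons, List.prod_cons, ih, tG_mul, List.map_cons, List.prod_cons]

theorem TwOK.iter_lt {i : ℕ} (hi : i < D.rank) (k : ℕ) : T.p^[k] i < D.rank := by
  induction k with
  | zero => exact hi
  | succ k ih => rw [Function.iterate_succ_apply']; exact T.p_lt ih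

theorem TwOK.p_five {j : ℕ} (hj : j < D.rank) : T.p (T.p^[5] j) = j := by
  have h := T.six j hj
  rw [← Function.iterate_succ_apply, Function.iterate_succ_apply'] at h
  exact h

include hD

theorem sig_tG (c : ℕ → Kˣ) : sig T φ (tG D c) = tG D (twc T φ c) := by
  rw [tG_eq_prod hD, map_list_prod, List.map_map]
  have h1 : (List.range D.rank).map (⇑(sig T φ) ∘ fun i => hG hD K (D.simple i) (c i : K)) =
      (List.range D.rank).map (fun i => tG D (Function.update (1 : ℕ → Kˣ) (T.p i) (Units.map (φ : K →* K) (c i)))) := by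
    apply List.map_congr_left
    intro i hi
    rw [Function.comp, sig_hG hD T φ (List.mem_range.mp hi), ← hG_simple_eq_tG hD (T.p_lt (List.mem_range.mp hi))]
    rfl
  rw [h1, prod_tG]
  apply tG_congr
  intro j hj
  rw [Pi.list_prod_apply, List.map_map, ← List.prod_toFinset _ List.nodup_range, List.toFinset_range,
    Finset.prod_eq_single (T.p^[5] j)]
  · simp only [Function.comp]
    rw [T.p_five hj, Function.update_self]
    rfl
  · intro i hi hne
    simp only [Function.comp]
    rw [Function.update_of_ne]
    · rfl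
    · rintro rfl
      exact hne (T.six i (Finset.mem_range.mp hi)).symm
  · intro h
    exact absurd (Finset.mem_range.mpr (T.iter_lt hj 5)) h

theorem chi_neg_simple (c : ℕ → Kˣ) {i : ℕ} (hi : i < D.rank) :
    chi D c (D.neg (D.simple i)) = (chi D c (D.simple i))⁻¹ := by
  rw [← reflect_simple, chi_reflect hD c hi (simple_lt hD hi), cartan_self hD hi]
  rw [zpow_neg, show (2 : ℤ) = 1 + 1 from rfl, zpow_add, zpow_one, mul_inv, mul_inv_cancel_left]

end

end Cfsg.Agent.Lib.Helper8
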