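import Cfsg.Agent.Lib.Helper8.Tw10
import Cfsg.Agent.Lib.Helper8.FieldAut

set_option autoImplicit false
set_option linter.unusedSectionVars false
set_option linter.unusedVariables false

namespace Cfsg.Agent.Lib.Helper8

open Cfsg Cfsg.Lie

/-! ### conjugating the block elements by fixed elements of the torus -/

section
variable {G : Type*} [Group G] {K : Type*} [Mul K] (φ : K → K) (hφ : ∀ a b, φ (a * b) = φ a * φ b)
include hφ

theorem PB_conj_chain (p : ℕ → ℕ) (f : ℕ → K → G) (χ : ℕ → K) (g : G) :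
    ∀ (J' : List ℕ) (j e : ℕ), (∀ a ∈ j :: J', ∀ t, g * f a t * g⁻¹ = f a (χ a * t)) →
      (∀ a ∈ j :: J', χ (p a) = φ (χ a)) → (p j :: J'.map p = J' ++ [e]) →
      ∀ t, g * PB φ f (j :: J') t * g⁻¹ = PB φ f (j :: J') (χ j * t)
  | [], j, e, h1, h2, h3, t => by
    show g * (f j t * 1) * g⁻¹ = f j (χ j * t) * 1
    rw [mul_one, mul_one, h1 j List.mem_cons_self]
  | j1 :: J'', j, e, h1, h2, h3, t => by
    simp only [List.map_cons, List.cons_append, List.cons.injEq] at h3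
    obtain ⟨e1, e2⟩ := h3
    have ih := PB_conj_chain p f χ g J'' j1 e (fun a ha => h1 a (List.mem_cons_of_mem _ ha))
      (fun a ha => h2 a (List.mem_cons_of_mem _ ha)) e2 (φ t)
    show g * (f j t * PB φ f (j1 :: J'') (φ t)) * g⁻¹ = f j (χ j * t) * PB φ f (j1 :: J'') (φ (χ j * t))
    rw [hφ, ← h2 j List.mem_cons_self, e1, ← ih, ← h1 j List.mem_cons_self]
    group

end

section
variable {D : ChevalleyDatum} (hD : D ∈ allData) {tab tab' : List (ℕ × ℤ)} {r0 : List ℕ}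
  (T : TwOK D tab tab' r0) {K : Type*} [Field K] (φ : K →+* K)
include hD

theorem chi_p {c : ℕ → Kˣ} (hfix : sig T φ (tG D c) = tG D c) {j : ℕ} (hj : j < D.rank) :
    ((chi D c (D.simple (T.p j)) : Kˣ) : K) = φ (chi D c (D.simple j) : Kˣ) := by
  have h1 := congrArg (sig T φ) (conj_tG_x hD c (simple_lt hD hj) (1 : K))
  rw [map_mul, map_mul, map_inv, hfix, sig_x_simple hD T φ hj, sig_x_simple hD T φ hj,
    conj_tG_x hD c (simple_lt hD (T.p_lt hj)), map_one, mul_one, mul_one] at h1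
  exact xG_inj hD (simple_lt hD (T.p_lt hj)) h1

variable {J : List ℕ} (hJ : BlockOK D r0 J)
include hJ

/-- the value of a fixed character on a block -/
noncomputable def chiB (D : ChevalleyDatum) {K : Type*} [Field K] (c : ℕ → Kˣ) (J : List ℕ) : Kˣ :=
  chi D c (D.simple (J.headD 0))

theorem chiB_fixed {c : ℕ → Kˣ} (hfix : sig T φ (tG D c) = tG D c) :
    φ^[J.length] (chiB D c J : K) = (chiB D c J : K) := by
  obtain ⟨j, J', rfl⟩ := List.exists_cons_of_ne_nil hJ.ne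
  have hrot := hJ.rot
  rw [List.rotate_cons_succ, List.rotate_zero, List.map_cons] at hrot
  exact (chain_aux hD T φ (fun a => ((chi D c (D.simple a) : Kˣ) : K)) J' j j hrot
    (fun a ha => chi_p hD T φ hfix (hJ.lt a ha))).2.symm

theorem conj_tG_xB {c : ℕ → Kˣ} (hfix : sig T φ (tG D c) = tG D c) (t : K) :
    tG D c * xB hD φ J t * (tG D c)⁻¹ = xB hD φ J ((chiB D c J : K) * t) := by
  obtain ⟨j, J', rfl⟩ := List.exists_cons_of_ne_nil hJ.ne
  have hrot := hJ.rot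
  rw [List.rotate_cons_succ, List.rotate_zero, List.map_cons] at hrot
  exact PB_conj_chain φ (map_mul φ) T.p _ (fun a => ((chi D c (D.simple a) : Kˣ) : K)) _ J' j j
    (fun a ha t => conj_tG_x hD c (simple_lt hD (hJ.lt a ha)) t)
    (fun a ha => chi_p hD T φ hfix (hJ.lt a ha)) hrot t

theorem conj_tG_yB {c : ℕ → Kˣ} (hfix : sig T φ (tG D c) = tG D c) (t : K) :
    tG D c * yB hD φ J t * (tG D c)⁻¹ = yB hD φ J ((chiB D c J : K)⁻¹ * t) := by
  obtain ⟨j, J', rfl⟩ := List.exists_cons_of_ne_nil hJ.ne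
  have hrot := hJ.rot
  rw [List.rotate_cons_succ, List.rotate_zero, List.map_cons] at hrot
  exact PB_conj_chain φ (map_mul φ) T.p _ (fun a => ((chi D c (D.simple a) : Kˣ) : K)⁻¹) _ J' j j
    (fun a ha t => by
      rw [conj_tG_x hD c (neg_lt' hD _ (simple_lt hD (hJ.lt a ha))), chi_neg_simple hD c (hJ.lt a ha),
        Units.val_inv_eq_inv_val])
    (fun a ha => by rw [chi_p hD T φ hfix (hJ.lt a ha), map_inv₀]) hrot t

theorem conj_tG_nB {c : ℕ → Kˣ} (hfix : sig T φ (tG D c) = tG D c) (t : K) :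
    tG D c * nB hD φ J t * (tG D c)⁻¹ = nB hD φ J ((chiB D c J : K) * t) := by
  rw [nB_eq hD φ hJ.toOrthL, nB_eq hD φ hJ.toOrthL, ← conj_tG_xB hD T φ hJ hfix]
  have : -((chiB D c J : K) * t)⁻¹ = (chiB D c J : K)⁻¹ * (-t⁻¹) := by
    rw [mul_inv, mul_neg]
  rw [this, ← conj_tG_yB hD T φ hJ hfix]
  group

omit T hJ in
theorem nB_mul_neg {J : List ℕ} (hJ : OrthL D J) (t : K) : nB hD φ J t * nB hD φ J (-t) = 1 := by
  have h1 : PB φ (fun j t => nG hD K (D.simple j) t * nG hD K (D.simple j) (-t)) J t =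
      nB hD φ J t * nB hD φ J (-t) := by
    rw [PB_mul φ hJ.nodup (hJ.comm hD (fun j t => nG_mem_rk1 hD j _) (fun j t => nG_mem_rk1 hD j t)),
      PB_comp φ (fun j t => nG hD K (D.simple j) t) (fun t => -t) (fun t => by simp)]
    rfl
  rw [← h1]
  have h2 : (fun (j : ℕ) (t : K) => nG hD K (D.simple j) t * nG hD K (D.simple j) (-t)) = fun _ _ => 1 := by
    funext j t
    rw [← nG_inv, mul_inv_cancel]
  rw [h2]
  exact Subgroup.mem_bot.mp (PB_mem φ (S := ⊥) (fun _ _ _ => Subgroup.mem_bot.mpr rfl) t)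

omit T hJ in
theorem nB_inv {J : List ℕ} (hJ : OrthL D J) (t : K) : (nB hD φ J t)⁻¹ = nB hD φ J (-t) :=
  inv_eq_of_mul_eq_one_right (nB_mul_neg hD φ hJ t)

/-- `n_J h n_J⁻¹ = h_J(χ)⁻¹ h` -/
theorem conj_nB_tG {c : ℕ → Kˣ} (hfix : sig T φ (tG D c) = tG D c) :
    nB hD φ J 1 * tG D c * (nB hD φ J 1)⁻¹ = (hB hD φ J (chiB D c J : K))⁻¹ * tG D c := by
  have h1 := conj_tG_nB hD T φ hJ hfix 1
  rw [mul_one] at h1
  rw [hB_eq hD φ hJ.toOrthL, ← h1, ← nB_inv hD φ hJ.toOrthL]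
  group

end

end Cfsg.Agent.Lib.Helper8
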