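import Cfsg.Agent.Lib.Helper8.Tw11

set_option autoImplicit false
set_option linter.unusedSectionVars false
set_option linter.unusedVariables false

namespace Cfsg.Agent.Lib.Helper8

open Cfsg Cfsg.Lie

section
variable {D : ChevalleyDatum} (hD : D ∈ allData) {tab tab' : List (ℕ × ℤ)} {r0 : List ℕ}
  (T : TwOK D tab tab' r0) {K : Type*} [Field K] (φ : K →+* K)
include hD

/-- `U¹ = (U¹ ∩ n_J⁻¹ U¹ n_J) X_J¹` -/
theorem U1_split {J : List ℕ} (hJ : BlockOK D r0 J) {u : GL D.Idx K} (hu : u ∈ D.posUnipotent K ⊓ fixS T φ) :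
    ∃ a ∈ D.posUnipotent K ⊓ fixS T φ, ∃ t : K, φ^[J.length] t = t ∧
      nR hD K J * a * (nR hD K J)⁻¹ ∈ D.posUnipotent K ⊓ fixS T φ ∧ u = a * xB hD φ J t := by
  obtain ⟨a, ha, c, hc, hna, e⟩ := Uw_factor (F := K) hD (hJ.red hD) hu.1
  have hsn := sig_nR_block hD T φ hJ
  have hu2 : sig T φ u = u := hu.2
  have hsc := sig_mem_Uw hD T φ (hJ.red hD) hsn hc
  have e1 : a⁻¹ * sig T φ a = c * (sig T φ c)⁻¹ := by
    have h1 : sig T φ a * sig T φ c = a * c := by rw [← map_mul, ← e, hu2]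
    have h2 : sig T φ a = a * c * (sig T φ c)⁻¹ := by rw [← h1]; group
    rw [h2]; group
  have e2 : nR hD K J * (a⁻¹ * sig T φ a) * (nR hD K J)⁻¹ = 1 := by
    apply eq_one_of_posU_negU hD
    · have h3 : nR hD K J * (a⁻¹ * sig T φ a) * (nR hD K J)⁻¹ =
          (nR hD K J * a * (nR hD K J)⁻¹)⁻¹ * sig T φ (nR hD K J * a * (nR hD K J)⁻¹) := by
        rw [map_mul, map_mul, map_inv, hsn]; group
      rw [h3]
      exact mul_mem (inv_mem hna) (sig_mem_posU hD T φ hna)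
    · rw [e1]
      exact conj_Uw_mem_negU (mul_mem hc (inv_mem hsc))
  have e3 : a⁻¹ * sig T φ a = 1 := by
    have := congrArg (fun z => (nR hD K J)⁻¹ * z * nR hD K J) e2
    simpa [mul_assoc] using this
  have e4 : sig T φ a = a := by
    have := congrArg (fun z => a * z) e3
    simpa using this
  have e5 : sig T φ c = c := by
    rw [e3] at e1
    have := congrArg (fun z => z * sig T φ c) e1
    simpa using this
  obtain ⟨t, ht, rfl⟩ := block_fixed hD T φ hJ hc e5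
  refine ⟨a, ⟨ha, e4⟩, t, ht, ⟨hna, ?_⟩, e⟩
  show sig T φ _ = _
  rw [map_mul, map_mul, map_inv, hsn, e4]
  rfl

theorem act_pos_step {n : GL D.Idx K} (hfix : sig T φ n = n) {π : ℕ → ℕ} (hπ : Act hD n⁻¹ π) {j : ℕ}
    (hj : j < D.rank) (hp : D.IsPosRoot (π (D.simple j))) : D.IsPosRoot (π (D.simple (T.p j))) := by
  obtain ⟨κ, hκ⟩ := hπ.conj _ (simple_lt hD hj)
  obtain ⟨κ', hκ'⟩ := hπ.conj _ (simple_lt hD (T.p_lt hj))
  have h1 : n⁻¹ * xG hD K (D.simple j) 1 * n⁻¹⁻¹ ∈ D.posUnipotent K := by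
    rw [hκ]; exact xG_mem_posU hD hp _
  have h2 := sig_mem_posU hD T φ h1
  rw [map_mul, map_mul, map_inv, map_inv, map_inv, hfix, sig_x_simple hD T φ hj, map_one, hκ'] at h2
  rcases pos_or_neg hD (hπ.lt _ (simple_lt hD (T.p_lt hj))) with h | h
  · exact h
  · exfalso
    have h3 := eq_one_of_posU_negU hD h2 (xG_mem_negU hD h _)
    rw [xG_eq_one_iff hD (hπ.lt _ (simple_lt hD (T.p_lt hj))), mul_one] at h3
    exact κ'.ne_zero h3

end

section
variable {D : ChevalleyDatum} (hD : D ∈ allData) {tab tab' : List (ℕ × ℤ)} {r0 : List ℕ} {Bl M0 : List (List ℕ)}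
  (S : TwS D tab tab' r0 Bl M0) {K : Type*} [Field K] (φ : K →+* K)
include hD S

/-- a fixed element of `N` sends a block to positive roots or to negative roots -/
theorem block_sign {n : GL D.Idx K} (hn : n ∈ D.monomialSubgroup K) (hfix : sig S.T φ n = n) {J : List ℕ}
    (hJ : J ∈ Bl) :
    (∀ t, n⁻¹ * xB hD φ J t * n ∈ D.posUnipotent K) ∨ (∀ t, n⁻¹ * yB hD φ J t * n ∈ D.posUnipotent K) := by
  obtain ⟨π, hπ⟩ := exists_act hD (inv_mem hn)
  have hlt := (S.bl J hJ).lt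
  have key : ∀ (f : ℕ → K → GL D.Idx K), (∀ j ∈ J, ∀ t, n⁻¹ * f j t * n⁻¹⁻¹ ∈ D.posUnipotent K) →
      ∀ t, n⁻¹ * PB φ f J t * n ∈ D.posUnipotent K := by
    intro f hf t
    have := PB_mem φ (S := (D.posUnipotent K).comap (MulAut.conj n⁻¹).toMonoidHom) (f := f) (J := J)
      (fun j hj t => hf j hj t) t
    have h2 : n⁻¹ * PB φ f J t * n⁻¹⁻¹ ∈ D.posUnipotent K := this
    rwa [inv_inv] at h2
  by_cases h : ∃ j ∈ J, D.IsPosRoot (π (D.simple j))
  · obtain ⟨j, hj, hp⟩ := h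
    left
    apply key
    intro j' hj' t
    obtain ⟨κ, hκ⟩ := hπ.conj _ (simple_lt hD (hlt j' hj'))
    rw [hκ]
    apply xG_mem_posU hD
    have s1 := act_pos_step hD S.T φ hfix hπ (hlt j hj) hp
    have s2 := act_pos_step hD S.T φ hfix hπ (S.T.p_lt (hlt j hj)) s1
    rcases S.orb J hJ j hj j' hj' with rfl | rfl | rfl
    · exact hp
    · exact s1
    · exact s2
  · right
    apply key
    intro j hj t
    obtain ⟨κ, hκ⟩ := hπ.conj _ (neg_lt' hD _ (simple_lt hD (hlt j hj)))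
    rw [hκ, hπ.neg _ (simple_lt hD (hlt j hj))]
    apply xG_mem_posU hD
    rw [isPos_neg_iff hD (hπ.lt _ (simple_lt hD (hlt j hj)))]
    rcases pos_or_neg hD (hπ.lt _ (simple_lt hD (hlt j hj))) with h1 | h1
    · exact absurd ⟨j, hj, h1⟩ h
    · exact h1

end

end Cfsg.Agent.Lib.Helper8
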