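import Cfsg.Agent.Lib.Helper8.Tw12

set_option autoImplicit false
set_option linter.unusedSectionVars false
set_option linter.unusedVariables false

namespace Cfsg.Agent.Lib.Helper8

open Cfsg Cfsg.Lie

/-- admissible subgroups of the fixed points on the torus -/
structure HOK {D : ChevalleyDatum} (hD : D ∈ allData) {tab tab' : List (ℕ × ℤ)} {r0 : List ℕ}
    (T : TwOK D tab tab' r0) {K : Type*} [Field K] (φ : K →+* K) (Bl : List (List ℕ))
    (H' : Subgroup (GL D.Idx K)) : Prop where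
  le_diag : H' ≤ D.diagonalSubgroup K
  le_fix : H' ≤ fixS T φ
  hB_mem : ∀ J ∈ Bl, ∀ t : K, t ≠ 0 → φ^[J.length] t = t → hB hD φ J t ∈ H'

/-- `U¹ H'` -/
noncomputable def BT {D : ChevalleyDatum} {tab tab' : List (ℕ × ℤ)} {r0 : List ℕ}
    (T : TwOK D tab tab' r0) {K : Type*} [Field K] (φ : K →+* K) (H' : Subgroup (GL D.Idx K)) :
    Subgroup (GL D.Idx K) := (D.posUnipotent K ⊓ fixS T φ) ⊔ H'

section
variable {D : ChevalleyDatum} (hD : D ∈ allData) {tab tab' : List (ℕ × ℤ)} {r0 : List ℕ} {Bl M0 : List (List ℕ)}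
  (S : TwS D tab tab' r0 Bl M0) {K : Type*} [Field K] (φ : K →+* K) {H' : Subgroup (GL D.Idx K)}
  (hH : HOK hD S.T φ Bl H')
include hD S hH

omit S hH in
theorem HOK.normU {T : TwOK D tab tab' r0} (hH : HOK hD T φ Bl H') :
    H' ≤ Subgroup.normalizer ((D.posUnipotent K ⊓ fixS T φ : Subgroup (GL D.Idx K)) : Set (GL D.Idx K)) := by
  rw [Subgroup.le_normalizer_iff]
  intro h hh u hu
  have h1 := diag_le_normalizer_posU (F := K) hD
  rw [Subgroup.le_normalizer_iff] at h1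
  exact ⟨h1 h (hH.le_diag hh) u hu.1,
    (fixS T φ).mul_mem ((fixS T φ).mul_mem (hH.le_fix hh) hu.2) ((fixS T φ).inv_mem (hH.le_fix hh))⟩

omit S hH in
theorem mem_BT {T : TwOK D tab tab' r0} (hH : HOK hD T φ Bl H') {g : GL D.Idx K} (hg : g ∈ BT T φ H') :
    ∃ u ∈ D.posUnipotent K ⊓ fixS T φ, ∃ h ∈ H', g = u * h :=
  mem_sup_of_normalizes (hH.normU hD φ) hg

omit hD S hH in
theorem U1_le_BT {T : TwOK D tab tab' r0} : D.posUnipotent K ⊓ fixS T φ ≤ BT T φ H' := le_sup_left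

omit hD S hH in
theorem H_le_BT {T : TwOK D tab tab' r0} : H' ≤ BT T φ H' := le_sup_right

theorem HOK.conj_nR {J : List ℕ} (hJ : J ∈ Bl) {h : GL D.Idx K} (hh : h ∈ H') :
    nR hD K J * h * (nR hD K J)⁻¹ ∈ H' := by
  have h1 := hH.le_diag hh
  have h2 : sig S.T φ h = h := hH.le_fix hh
  rw [diag_eq_torus hD] at h1
  obtain ⟨c, rfl⟩ := h1
  rw [nR_eq_nB hD φ (S.bl J hJ).toOrthL, conj_nB_tG hD S.T φ (S.bl J hJ) h2]
  exact mul_mem (inv_mem (hH.hB_mem J hJ _ (Units.ne_zero _) (chiB_fixed hD S.T φ (S.bl J hJ) h2))) hh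

theorem HOK.nR_sq {J : List ℕ} (hJ : J ∈ Bl) : nR hD K J * nR hD K J ∈ H' := by
  have h1 := hH.hB_mem J hJ (-1) (by simp) (iter_neg_one φ _)
  rw [hB_eq hD φ (S.bl J hJ).toOrthL, ← nB_inv hD φ (S.bl J hJ).toOrthL, ← nR_eq_nB hD φ (S.bl J hJ).toOrthL] at h1
  have h2 := inv_mem h1
  rwa [mul_inv_rev, inv_inv] at h2

theorem nB_eq_hB_mul {J : List ℕ} (hJ : J ∈ Bl) (t : K) : nB hD φ J t = hB hD φ J t * nR hD K J := by
  rw [hB_eq hD φ (S.bl J hJ).toOrthL, ← nB_inv hD φ (S.bl J hJ).toOrthL, ← nR_eq_nB hD φ (S.bl J hJ).toOrthL,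
    inv_mul_cancel_right]

theorem HOK.nR_mul_nB {J : List ℕ} (hJ : J ∈ Bl) {t : K} (h0 : t ≠ 0) (ht : φ^[J.length] t = t) :
    nR hD K J * nB hD φ J t ∈ H' := by
  have h1 := hH.conj_nR hD S φ hJ (hH.hB_mem J hJ t h0 ht)
  have h2 := mul_mem h1 (hH.nR_sq hD S φ hJ)
  have h3 : nR hD K J * hB hD φ J t * (nR hD K J)⁻¹ * (nR hD K J * nR hD K J) =
      nR hD K J * (hB hD φ J t * nR hD K J) := by group
  rw [h3, ← nB_eq_hB_mul hD S φ hH hJ] at h2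
  exact h2

omit S hH in
theorem xB_zero (J : List ℕ) : xB hD φ J 0 = 1 := by
  induction J with
  | nil => rfl
  | cons j J ih =>
    show xG hD K (D.simple j) 0 * xB hD φ J (φ 0) = 1
    rw [map_zero, ih, xG_zero, mul_one]

omit S hH in
theorem yB_zero (J : List ℕ) : yB hD φ J 0 = 1 := by
  induction J with
  | nil => rfl
  | cons j J ih =>
    show xG hD K (D.neg (D.simple j)) 0 * yB hD φ J (φ 0) = 1
    rw [map_zero, ih, xG_zero, mul_one]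

/-- the double coset axiom for `U¹ H'` -/
theorem tw_axiom {J : List ℕ} (hJ : J ∈ Bl) {n b : GL D.Idx K} (hn : n ∈ D.monomialSubgroup K)
    (hnf : sig S.T φ n = n) (hnH : ∀ h ∈ H', n⁻¹ * h * n ∈ H') (hb : b ∈ BT S.T φ H') :
    (∃ b1 ∈ BT S.T φ H', ∃ b2 ∈ BT S.T φ H', nR hD K J * b * n = b1 * (nR hD K J * n) * b2) ∨
    (∃ b1 ∈ BT S.T φ H', ∃ b2 ∈ BT S.T φ H', nR hD K J * b * n = b1 * n * b2) := by
  obtain ⟨u, hu, h, hh, rfl⟩ := mem_BT hD φ hH hb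
  obtain ⟨a, ha, t, ht, hna, rfl⟩ := U1_split hD S.T φ (S.bl J hJ) hu
  have hfx : ∀ {g : GL D.Idx K}, sig S.T φ g = g → sig S.T φ (n⁻¹ * g * n) = n⁻¹ * g * n := by
    intro g hg
    rw [map_mul, map_mul, map_inv, hnf, hg]
  have hx0 : nR hD K J * (a * 1 * h) * n = (nR hD K J * a * (nR hD K J)⁻¹) * (nR hD K J * n) * (n⁻¹ * h * n) := by
    group
  rcases block_sign hD S φ hn hnf hJ with hs | hs
  · left
    refine ⟨_, U1_le_BT φ hna, (n⁻¹ * xB hD φ J t * n) * (n⁻¹ * h * n),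
      mul_mem (U1_le_BT φ ⟨hs t, hfx (sig_xB hD S.T φ (S.bl J hJ) ht)⟩) (H_le_BT φ (hnH h hh)), ?_⟩
    group
  · by_cases h0 : t = 0
    · left
      subst h0
      rw [xB_zero]
      exact ⟨_, U1_le_BT φ hna, _, H_le_BT φ (hnH h hh), hx0⟩
    · right
      have ht' := iter_neg_inv φ _ ht
      have e1 : xB hD φ J t = nB hD φ J t * (xB hD φ J t)⁻¹ * (yB hD φ J (-t⁻¹))⁻¹ := by
        rw [nB_eq hD φ (S.bl J hJ).toOrthL]; group
      have hxm : xB hD φ J t ∈ D.posUnipotent K ⊓ fixS S.T φ :=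
        ⟨Uw_le_posU _ (xB_mem_Uw hD φ (S.bl J hJ).toOrthL t), sig_xB hD S.T φ (S.bl J hJ) ht⟩
      refine ⟨(nR hD K J * a * (nR hD K J)⁻¹) * (nR hD K J * nB hD φ J t) * (xB hD φ J t)⁻¹,
        mul_mem (mul_mem (U1_le_BT φ hna) (H_le_BT φ (hH.nR_mul_nB hD S φ hJ h0 ht))) (U1_le_BT φ (inv_mem hxm)),
        (n⁻¹ * yB hD φ J (-t⁻¹) * n)⁻¹ * (n⁻¹ * h * n),
        mul_mem (U1_le_BT φ (inv_mem ⟨hs _, hfx (sig_yB hD S.T φ (S.bl J hJ) ht')⟩)) (H_le_BT φ (hnH h hh)), ?_⟩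
      conv_lhs => rw [e1]
      group

end

end Cfsg.Agent.Lib.Helper8
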