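import Cfsg.Agent.Lib.Helper8.Tw13

set_option autoImplicit false
set_option linter.unusedSectionVars false
set_option linter.unusedVariables false

namespace Cfsg.Agent.Lib.Helper8

open Cfsg Cfsg.Lie

section
variable {D : ChevalleyDatum} (hD : D ∈ allData) {tab tab' : List (ℕ × ℤ)} {r0 : List ℕ} {Bl M0 : List (List ℕ)}
  (S : TwS D tab tab' r0 Bl M0) {K : Type*} [Field K] (φ : K →+* K)
include hD

theorem hB_mem_diag : ∀ {J : List ℕ}, (∀ j ∈ J, j < D.rank) → ∀ {t : K}, t ≠ 0 →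
    hB hD φ J t ∈ D.diagonalSubgroup K
  | [], _, _, _ => one_mem _
  | j :: J, h, t, ht => mul_mem (hG_mem_diag hD (simple_lt hD (h j List.mem_cons_self)) ht)
      (hB_mem_diag (fun a ha => h a (List.mem_cons_of_mem _ ha)) ((map_ne_zero φ).mpr ht))

include S

theorem H1_ok : HOK hD S.T φ Bl (D.diagonalSubgroup K ⊓ twG hD φ Bl) :=
  ⟨inf_le_left, inf_le_right.trans (twG_le_fixS hD S.T φ Bl S.bl),
    fun J hJ t h0 ht => ⟨hB_mem_diag hD φ (S.bl J hJ).lt h0, hB_mem_twG hD φ Bl S.bl hJ ht⟩⟩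

theorem borel_fix_split {b : GL D.Idx K} (hb : b ∈ D.borelSubgroup K) (hfix : sig S.T φ b = b) :
    ∃ u ∈ D.posUnipotent K ⊓ fixS S.T φ, ∃ h ∈ D.diagonalSubgroup K ⊓ fixS S.T φ, b = u * h := by
  obtain ⟨u, hu, h, hh, rfl⟩ := mem_borel hD hb
  rw [map_mul] at hfix
  have e6 : u⁻¹ * sig S.T φ u = h * (sig S.T φ h)⁻¹ := by
    have : sig S.T φ u = u * h * (sig S.T φ h)⁻¹ := by rw [← hfix]; group
    rw [this]; group
  have e7 : u⁻¹ * sig S.T φ u ∈ D.posUnipotent K ⊓ D.diagonalSubgroup K :=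
    Subgroup.mem_inf.mpr ⟨mul_mem (inv_mem hu) (sig_mem_posU hD S.T φ hu), by
      rw [e6]; exact mul_mem hh (inv_mem (sig_mem_diag hD S.T φ hh))⟩
  rw [posU_inf_diag hD, Subgroup.mem_bot] at e7
  have e8 : sig S.T φ u = u := by
    have := congrArg (fun z => u * z) e7
    simpa using this
  have e9 : sig S.T φ h = h := by
    rw [e8] at hfix
    exact mul_left_cancel hfix
  exact ⟨u, ⟨hu, e8⟩, h, ⟨hh, e9⟩, rfl⟩

theorem borel_inf_twG : D.borelSubgroup K ⊓ twG hD φ Bl = BT S.T φ (D.diagonalSubgroup K ⊓ twG hD φ Bl) := by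
  apply le_antisymm
  · rintro b ⟨hb1, hb2⟩
    obtain ⟨u, hu, h, hh, rfl⟩ := borel_fix_split hD S φ hb1 (twG_le_fixS hD S.T φ Bl S.bl hb2)
    have h1 := posU_fix_le_twG hD S φ hu
    refine mul_mem (U1_le_BT φ hu) (H_le_BT φ ⟨hh.1, ?_⟩)
    have : h = u⁻¹ * (u * h) := by group
    rw [this]
    exact (twG hD φ Bl).mul_mem ((twG hD φ Bl).inv_mem h1) hb2
  · apply sup_le
    · exact le_inf (inf_le_left.trans (posU_le_borel hD)) (posU_fix_le_twG hD S φ)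
    · exact le_inf (inf_le_left.trans (diag_le_borel hD)) inf_le_right

theorem nR_block_mem_N {J : List ℕ} (hJ : J ∈ Bl) : nR hD K J ∈ D.monomialSubgroup K ⊓ twG hD φ Bl :=
  ⟨nR_mem_mono hD J (S.bl J hJ).lt, nR_block_mem hD φ Bl S.bl hJ⟩

/-- `y_J(t) ∈ B¹ n_J B¹` -/
theorem yB_eq {J : List ℕ} (hJ : J ∈ Bl) {t : K} (h0 : t ≠ 0) :
    yB hD φ J t = (xB hD φ J (-t⁻¹))⁻¹ * hB hD φ J (-t⁻¹) * nR hD K J * (xB hD φ J (-t⁻¹))⁻¹ := by
  have h1 := nB_eq hD φ (S.bl J hJ).toOrthL (-t⁻¹)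
  rw [inv_neg, inv_inv, neg_neg, nB_eq_hB_mul hD S φ (H1_ok hD S φ) hJ] at h1
  rw [mul_assoc (xB hD φ J (-t⁻¹))⁻¹, h1]
  group

theorem borel_sup_mono_tw :
    (D.borelSubgroup K ⊓ twG hD φ Bl) ⊔ (D.monomialSubgroup K ⊓ twG hD φ Bl) = twG hD φ Bl := by
  apply le_antisymm (sup_le inf_le_right inf_le_right)
  conv_lhs => rw [twG]
  rw [Subgroup.closure_le]
  have hx : ∀ J ∈ Bl, ∀ t : K, φ^[J.length] t = t → xB hD φ J t ∈
      (D.borelSubgroup K ⊓ twG hD φ Bl) ⊔ (D.monomialSubgroup K ⊓ twG hD φ Bl) := fun J hJ t ht =>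
    (le_sup_left : D.borelSubgroup K ⊓ twG hD φ Bl ≤ _)
      ⟨posU_le_borel hD (Uw_le_posU _ (xB_mem_Uw hD φ (S.bl J hJ).toOrthL t)), xB_mem_twG hD φ Bl hJ ht⟩
  rintro g ⟨J, hJ, t, ht, rfl | rfl⟩
  · exact hx J hJ t ht
  · by_cases h0 : t = 0
    · rw [h0, yB_zero]; exact one_mem _
    · have ht' := iter_neg_inv φ _ ht
      have h0' : -t⁻¹ ≠ 0 := by simpa using h0
      rw [yB_eq hD S φ hJ h0]
      refine mul_mem (mul_mem (mul_mem (inv_mem (hx J hJ _ ht')) ?_) ?_) (inv_mem (hx J hJ _ ht'))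
      · exact (le_sup_left : D.borelSubgroup K ⊓ twG hD φ Bl ≤ _)
          ⟨diag_le_borel hD (hB_mem_diag hD φ (S.bl J hJ).lt h0'), hB_mem_twG hD φ Bl S.bl hJ ht'⟩
      · exact (le_sup_right : D.monomialSubgroup K ⊓ twG hD φ Bl ≤ _) (nR_block_mem_N hD S φ hJ)

theorem nR_flatten_mem_closure : ∀ {M : List (List ℕ)}, (∀ J ∈ M, J ∈ Bl) →
    nR hD K M.flatten ∈ Subgroup.closure {g | ∃ J ∈ Bl, g = nR hD K J}
  | [], _ => one_mem _
  | J :: M, h => by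
    rw [List.flatten_cons, nR_append]
    exact mul_mem (nR_flatten_mem_closure (fun A hA => h A (List.mem_cons_of_mem _ hA)))
      (Subgroup.subset_closure ⟨J, h J List.mem_cons_self, rfl⟩)

theorem mono_inf_twG : D.monomialSubgroup K ⊓ twG hD φ Bl =
    Subgroup.closure {g | ∃ J ∈ Bl, g = nR hD K J} ⊔ (D.diagonalSubgroup K ⊓ twG hD φ Bl) := by
  apply le_antisymm
  · rintro n ⟨hn1, hn2⟩
    obtain ⟨u, hu, h, hh, M, hM1, hM2, u', hu', e⟩ := twG_normal_form hD S φ hn2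
    have hm := nR_mem_mono (F := K) hD M.flatten hM2.lt
    have h1 := bruhat_unique hD hm hn1 (mul_mem (posU_le_borel hD hu.1) (diag_le_borel hD hh.1))
      (one_mem _) (posU_le_borel hD (Uw_le_posU _ hu'.1)) (one_mem _)
      (by rw [← e, one_mul, mul_one])
    have h2 : n = nR hD K M.flatten * ((nR hD K M.flatten)⁻¹ * n) := by group
    rw [h2]
    exact mul_mem ((le_sup_left : Subgroup.closure {g | ∃ J ∈ Bl, g = nR hD K J} ≤ _)
      (nR_flatten_mem_closure hD S hM1)) ((le_sup_right : D.diagonalSubgroup K ⊓ twG hD φ Bl ≤ _)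
      ⟨h1, (twG hD φ Bl).mul_mem ((twG hD φ Bl).inv_mem (nR_flatten_mem hD φ Bl S.bl hM1)) hn2⟩)
  · apply sup_le
    · rw [Subgroup.closure_le]
      rintro g ⟨J, hJ, rfl⟩
      exact nR_block_mem_N hD S φ hJ
    · exact le_inf (inf_le_left.trans (diag_le_mono hD)) inf_le_right

theorem nR_block_conj_ne {J : List ℕ} (hJ : J ∈ Bl) :
    nR hD K J * xB hD φ J 1 * nR hD K J ∉ D.borelSubgroup K := by
  intro h
  have h1 : nR hD K J * xB hD φ J 1 * (nR hD K J)⁻¹ ∈ D.borelSubgroup K := by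
    have h2 := mul_mem h (inv_mem (diag_le_borel hD ((H1_ok hD S φ).nR_sq hD S φ hJ).1))
    have h3 : nR hD K J * xB hD φ J 1 * nR hD K J * (nR hD K J * nR hD K J)⁻¹ =
        nR hD K J * xB hD φ J 1 * (nR hD K J)⁻¹ := by group
    rwa [h3] at h2
  have h4 : nR hD K J * xB hD φ J 1 * (nR hD K J)⁻¹ ∈ D.borelSubgroup K ⊓ D.negUnipotent K :=
    ⟨h1, conj_Uw_mem_negU (xB_mem_Uw hD φ (S.bl J hJ).toOrthL 1)⟩
  rw [borel_inf_negU hD, Subgroup.mem_bot] at h4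
  have h5 : xB hD φ J 1 = xB hD φ J 0 := by
    rw [xB_zero]
    have := congrArg (fun z => (nR hD K J)⁻¹ * z * nR hD K J) h4
    simpa [mul_assoc] using this
  exact one_ne_zero (xB_inj hD φ (S.bl J hJ).toOrthL (S.bl J hJ).ne h5)

theorem nR_block_inj (hinj : ∀ J ∈ Bl, ∀ J' ∈ Bl,
      wR D J (D.simple (J.headD 0)) = wR D J' (D.simple (J.headD 0)) → J = J')
    {J J' : List ℕ} (hJ : J ∈ Bl) (hJ' : J' ∈ Bl)
    (h : (nR hD K J)⁻¹ * nR hD K J' ∈ D.borelSubgroup K) : J = J' := by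
  have m1 := nR_mem_mono (F := K) hD J (S.bl J hJ).lt
  have m2 := nR_mem_mono (F := K) hD J' (S.bl J' hJ').lt
  have h1 : (nR hD K J)⁻¹ * nR hD K J' ∈ D.borelSubgroup K ⊓ D.monomialSubgroup K := ⟨h, (D.monomialSubgroup K).mul_mem ((D.monomialSubgroup K).inv_mem m1) m2⟩
  rw [borel_inf_mono hD, diag_eq_torus hD] at h1
  obtain ⟨c, hc⟩ := h1
  have a1 := (act_nR (F := K) hD J (S.bl J hJ).lt).mul (act_tG hD c)
  rw [hc, mul_inv_cancel_left] at a1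
  apply hinj J hJ J' hJ'
  obtain ⟨j, J0, rfl⟩ := List.exists_cons_of_ne_nil (S.bl J hJ).ne
  exact a1.unique (act_nR hD J' (S.bl J' hJ').lt) _ (simple_lt hD ((S.bl _ hJ).lt j List.mem_cons_self))

/-- the (B,N)-pair of a twisted group -/
noncomputable def bnPairTw (hinj : ∀ J ∈ Bl, ∀ J' ∈ Bl,
      wR D J (D.simple (J.headD 0)) = wR D J' (D.simple (J.headD 0)) → J = J') :
    Cfsg.BNPair ↥(twG hD φ Bl) where
  B := (D.borelSubgroup K ⊓ twG hD φ Bl).subgroupOf (twG hD φ Bl)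
  N := (D.monomialSubgroup K ⊓ twG hD φ Bl).subgroupOf (twG hD φ Bl)
  S := {n : ↥(twG hD φ Bl) | ∃ J ∈ Bl, (n : GL D.Idx K) = nR hD K J}
  sup_eq_top := by
    rw [← Subgroup.subgroupOf_sup inf_le_right inf_le_right, borel_sup_mono_tw hD S φ, Subgroup.subgroupOf_self]
  conj_mem := by
    rintro n hn t ⟨ht1, ht2⟩
    rw [Subgroup.mem_subgroupOf] at hn ⊢
    have h1 : (t : GL D.Idx K) ∈ D.borelSubgroup K ⊓ D.monomialSubgroup K := ⟨ht1.1, ht2.1⟩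
    rw [borel_inf_mono hD] at h1
    exact ⟨diag_le_borel hD (mono_conj_diag hD hn.1 h1), (n * t * n⁻¹).2⟩
  subset := by
    rintro s ⟨J, hJ, hs⟩
    show (s : GL D.Idx K) ∈ D.monomialSubgroup K ⊓ twG hD φ Bl
    rw [hs]
    exact nR_block_mem_N hD S φ hJ
  sq_mem := by
    rintro s ⟨J, hJ, hs⟩
    show (s : GL D.Idx K) * (s : GL D.Idx K) ∈ D.borelSubgroup K ⊓ twG hD φ Bl
    rw [hs]
    have := (H1_ok hD S φ).nR_sq hD S φ hJ
    exact ⟨diag_le_borel hD this.1, this.2⟩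
  inj := by
    rintro s ⟨J, hJ, hs⟩ s' ⟨J', hJ', hs'⟩ h
    have h' : (s : GL D.Idx K)⁻¹ * (s' : GL D.Idx K) ∈ D.borelSubgroup K := h.1
    rw [hs, hs'] at h'
    apply Subtype.ext
    rw [hs, hs', nR_block_inj hD S hinj hJ hJ' h']
  closure_sup := by
    apply Subgroup.map_injective (Subgroup.subtype_injective (twG hD φ Bl))
    rw [Subgroup.map_sup, MonoidHom.map_closure, Subgroup.map_subgroupOf_eq_of_le inf_le_right]
    have h1 : ((D.borelSubgroup K ⊓ twG hD φ Bl).subgroupOf (twG hD φ Bl) ⊓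
        (D.monomialSubgroup K ⊓ twG hD φ Bl).subgroupOf (twG hD φ Bl))
        = (D.diagonalSubgroup K ⊓ twG hD φ Bl).subgroupOf (twG hD φ Bl) := by
      rw [← borel_inf_mono hD]
      ext x
      simp only [Subgroup.mem_inf, Subgroup.mem_subgroupOf]
      tauto
    rw [h1, Subgroup.map_subgroupOf_eq_of_le inf_le_right, mono_inf_twG hD S φ]
    congr 2
    ext g
    constructor
    · rintro ⟨s, ⟨J, hJ, hs⟩, rfl⟩
      exact ⟨J, hJ, hs⟩
    · rintro ⟨J, hJ, rfl⟩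
      exact ⟨⟨nR hD K J, nR_block_mem hD φ Bl S.bl hJ⟩, ⟨J, hJ, rfl⟩, rfl⟩
  mul_mem_union := by
    rintro s ⟨J, hJ, hs⟩ n hn b hb
    rw [Set.mem_union, DoubleCoset.mem_doubleCoset, DoubleCoset.mem_doubleCoset]
    have hn' : (n : GL D.Idx K) ∈ D.monomialSubgroup K ⊓ twG hD φ Bl := hn
    have hb' : (b : GL D.Idx K) ∈ D.borelSubgroup K ⊓ twG hD φ Bl := hb
    rw [borel_inf_twG hD S φ] at hb'
    have hnH : ∀ h ∈ D.diagonalSubgroup K ⊓ twG hD φ Bl,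
        (n : GL D.Idx K)⁻¹ * h * n ∈ D.diagonalSubgroup K ⊓ twG hD φ Bl := by
      intro h hh
      refine ⟨?_, (twG hD φ Bl).mul_mem ((twG hD φ Bl).mul_mem ((twG hD φ Bl).inv_mem hn'.2) hh.2) hn'.2⟩
      have := mono_conj_diag hD (inv_mem hn'.1) hh.1
      rwa [inv_inv] at this
    rcases tw_axiom hD S φ (H1_ok hD S φ) hJ hn'.1 (twG_le_fixS hD S.T φ Bl S.bl hn'.2) hnH hb' with
      ⟨x, hx, y, hy, e⟩ | ⟨x, hx, y, hy, e⟩
    · rw [← borel_inf_twG hD S φ] at hx hy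
      left
      refine ⟨⟨x, hx.2⟩, hx, ⟨y, hy.2⟩, hy, ?_⟩
      apply Subtype.ext
      simp only [Subgroup.coe_mul]
      rw [hs, e]
    · rw [← borel_inf_twG hD S φ] at hx hy
      right
      refine ⟨⟨x, hx.2⟩, hx, ⟨y, hy.2⟩, hy, ?_⟩
      apply Subtype.ext
      simp only [Subgroup.coe_mul]
      rw [hs, e]
  conj_ne := by
    rintro s ⟨J, hJ, hs⟩ h
    have hx : (⟨xB hD φ J 1, xB_mem_twG hD φ Bl hJ (iter_one φ _)⟩ : ↥(twG hD φ Bl)) ∈
        ((D.borelSubgroup K ⊓ twG hD φ Bl).subgroupOf (twG hD φ Bl) : Set ↥(twG hD φ Bl)) :=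
      ⟨posU_le_borel hD (Uw_le_posU _ (xB_mem_Uw hD φ (S.bl J hJ).toOrthL 1)),
        xB_mem_twG hD φ Bl hJ (iter_one φ _)⟩
    have h1 := Set.mem_image_of_mem (fun b : ↥(twG hD φ Bl) => s * b * s) hx
    rw [h] at h1
    have h2 : (s : GL D.Idx K) * xB hD φ J 1 * (s : GL D.Idx K) ∈ D.borelSubgroup K := h1.1
    rw [hs] at h2
    exact nR_block_conj_ne hD S φ hJ h2

end

end Cfsg.Agent.Lib.Helper8
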