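import Cfsg.Agent.Lib.Helper8.Tw14

set_option autoImplicit false
set_option linter.unusedSectionVars false
set_option linter.unusedVariables false

namespace Cfsg.Agent.Lib.Helper8

open Cfsg Cfsg.Lie

section
variable {D : ChevalleyDatum} (hD : D ∈ allData) {tab tab' : List (ℕ × ℤ)} {r0 : List ℕ} {Bl M0 : List (List ℕ)}
  (S : TwS D tab tab' r0 Bl M0) {K : Type*} [Field K] (φ : K →+* K)
include hD S

theorem conj_m0_borel {b : GL D.Idx K} (hb : b ∈ D.borelSubgroup K) :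
    nR hD K M0.flatten * b * (nR hD K M0.flatten)⁻¹ ∈ D.negUnipotent K ⊔ D.diagonalSubgroup K := by
  obtain ⟨u, hu, h, hh, rfl⟩ := mem_borel hD hb
  have e : nR hD K M0.flatten * (u * h) * (nR hD K M0.flatten)⁻¹ =
      (nR hD K M0.flatten * u * (nR hD K M0.flatten)⁻¹) * (nR hD K M0.flatten * h * (nR hD K M0.flatten)⁻¹) := by
    group
  rw [e]
  refine Subgroup.mul_mem _ ((le_sup_left : D.negUnipotent K ≤ _) ?_)
    ((le_sup_right : D.diagonalSubgroup K ≤ _) (mono_conj_diag hD (nR_mem_mono hD _ S.m0_red.lt) hh))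
  rw [← Uw_eq_posU (K := K) hD S.m0_chk] at hu
  exact conj_Uw_mem_negU hu

/-- an element all of whose conjugates lie in `B` lies in `H` -/
theorem mem_diag_of_conj {k : GL D.Idx K} (hk : ∀ g ∈ twG hD φ Bl, g * k * g⁻¹ ∈ D.borelSubgroup K) :
    k ∈ D.diagonalSubgroup K := by
  rw [← borel_inf_negBorel hD]
  constructor
  · have := hk 1 (one_mem _)
    rwa [one_mul, inv_one, mul_one] at this
  · have h1 := hk _ (inv_mem (nR_flatten_mem hD φ Bl S.bl S.m0_mem))
    have h2 := conj_m0_borel hD S h1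
    have e : nR hD K M0.flatten * ((nR hD K M0.flatten)⁻¹ * k * (nR hD K M0.flatten)⁻¹⁻¹) *
        (nR hD K M0.flatten)⁻¹ = k := by group
    rwa [e] at h2

theorem eq_one_of_conj {k : GL D.Idx K} (hkf : sig S.T φ k = k)
    (hk : ∀ g ∈ twG hD φ Bl, g * k * g⁻¹ ∈ D.borelSubgroup K) : k = 1 := by
  have hkH := mem_diag_of_conj hD S φ hk
  have hkH' := hkH
  rw [diag_eq_torus hD] at hkH'
  obtain ⟨c, rfl⟩ := hkH'
  have key : ∀ J ∈ Bl, (chiB D c J : K) = 1 := by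
    intro J hJ
    have hx := xB_mem_twG hD φ Bl hJ (iter_one φ J.length)
    have h1 : xB hD φ J 1 * tG D c * (xB hD φ J 1)⁻¹ ∈ D.diagonalSubgroup K := by
      apply mem_diag_of_conj hD S φ
      intro g hg
      have := hk (g * xB hD φ J 1) (mul_mem hg hx)
      have e : g * xB hD φ J 1 * tG D c * (g * xB hD φ J 1)⁻¹ =
          g * (xB hD φ J 1 * tG D c * (xB hD φ J 1)⁻¹) * g⁻¹ := by group
      rwa [e] at this
    have hxU : ∀ t : K, xB hD φ J t ∈ D.posUnipotent K := fun t =>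
      Uw_le_posU _ (xB_mem_Uw hD φ (S.bl J hJ).toOrthL t)
    have h2 : xB hD φ J 1 * (xB hD φ J ((chiB D c J : K) * 1))⁻¹ ∈ D.posUnipotent K ⊓ D.diagonalSubgroup K := by
      refine ⟨(D.posUnipotent K).mul_mem (hxU _) ((D.posUnipotent K).inv_mem (hxU _)), ?_⟩
      rw [← conj_tG_xB hD S.T φ (S.bl J hJ) hkf]
      have e : xB hD φ J 1 * (tG D c * xB hD φ J 1 * (tG D c)⁻¹)⁻¹ =
          (xB hD φ J 1 * tG D c * (xB hD φ J 1)⁻¹) * (tG D c)⁻¹ := by group
      rw [e]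
      exact (D.diagonalSubgroup K).mul_mem h1 ((D.diagonalSubgroup K).inv_mem hkH)
    rw [posU_inf_diag hD, Subgroup.mem_bot, mul_inv_eq_one, mul_one] at h2
    exact (xB_inj hD φ (S.bl J hJ).toOrthL (S.bl J hJ).ne h2).symm
  apply tG_eq_one_of_chi hD
  apply chi_eq_one_of_simple hD
  intro i hi
  obtain ⟨J, hJ, hiJ⟩ := S.cov i hi
  obtain ⟨j, J', rfl⟩ := List.exists_cons_of_ne_nil (S.bl J hJ).ne
  have hj := (S.bl _ hJ).lt j List.mem_cons_self
  have k0 : ((chi D c (D.simple j) : Kˣ) : K) = 1 := key _ hJ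
  have k1 : ((chi D c (D.simple (S.T.p j)) : Kˣ) : K) = 1 := by
    rw [chi_p hD S.T φ hkf hj, k0, map_one]
  have k2 : ((chi D c (D.simple (S.T.p (S.T.p j))) : Kˣ) : K) = 1 := by
    rw [chi_p hD S.T φ hkf (S.T.p_lt hj), k1, map_one]
  apply Units.ext
  rcases S.orb _ hJ j List.mem_cons_self i hiJ with rfl | rfl | rfl
  · exact k0
  · exact k1
  · exact k2

/-- the normal core of `B¹` is trivial -/
theorem borel_core_tw :
    ((D.borelSubgroup K ⊓ twG hD φ Bl).subgroupOf (twG hD φ Bl)).normalCore = ⊥ := by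
  rw [eq_bot_iff]
  intro k hk
  rw [Subgroup.mem_bot]
  have hcore : ∀ g : ↥(twG hD φ Bl), g * k * g⁻¹ ∈ (D.borelSubgroup K ⊓ twG hD φ Bl).subgroupOf (twG hD φ Bl) := hk
  apply Subtype.ext
  apply eq_one_of_conj hD S φ (twG_le_fixS hD S.T φ Bl S.bl k.2)
  intro g hg
  exact (hcore ⟨g, hg⟩).1

end

end Cfsg.Agent.Lib.Helper8
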