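import Cfsg.Agent.Lib.Helper8.Tw15

set_option autoImplicit false
set_option linter.unusedSectionVars false
set_option linter.unusedVariables false

namespace Cfsg.Agent.Lib.Helper8

open Cfsg Cfsg.Lie

/-- the group generated by the `n_J` -/
def T0 {D : ChevalleyDatum} (hD : D ∈ allData) (K : Type*) [Field K] (Bl : List (List ℕ)) :
    Subgroup (GL D.Idx K) := Subgroup.closure {g | ∃ J ∈ Bl, g = nR hD K J}

section
variable {D : ChevalleyDatum} (hD : D ∈ allData) {tab tab' : List (ℕ × ℤ)} {r0 : List ℕ} {Bl M0 : List (List ℕ)}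
  (S : TwS D tab tab' r0 Bl M0) {K : Type*} [Field K] (φ : K →+* K) {H' : Subgroup (GL D.Idx K)}
  (hH : HOK hD S.T φ Bl H')
include hD S hH

theorem T0_props {n : GL D.Idx K} (hn : n ∈ T0 hD K Bl) :
    n ∈ D.monomialSubgroup K ∧ sig S.T φ n = n ∧ (∀ h ∈ H', n * h * n⁻¹ ∈ H') ∧ (∀ h ∈ H', n⁻¹ * h * n ∈ H') := by
  induction hn using Subgroup.closure_induction with
  | mem x hx =>
    obtain ⟨J, hJ, rfl⟩ := hx
    refine ⟨nR_mem_mono hD J (S.bl J hJ).lt, sig_nR_block hD S.T φ (S.bl J hJ),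
      fun h hh => hH.conj_nR hD S φ hJ hh, fun h hh => ?_⟩
    have h1 := hH.nR_sq hD S φ hJ
    have h2 := hH.conj_nR hD S φ hJ (mul_mem (mul_mem (inv_mem h1) hh) h1)
    have e : nR hD K J * ((nR hD K J * nR hD K J)⁻¹ * h * (nR hD K J * nR hD K J)) * (nR hD K J)⁻¹ =
        (nR hD K J)⁻¹ * h * nR hD K J := by group
    rwa [e] at h2
  | one => exact ⟨one_mem _, map_one _, fun h hh => by simpa using hh, fun h hh => by simpa using hh⟩
  | mul x y _ _ hx hy =>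
    obtain ⟨x1, x2, x3, x4⟩ := hx
    obtain ⟨y1, y2, y3, y4⟩ := hy
    refine ⟨mul_mem x1 y1, by rw [map_mul, x2, y2], fun h hh => ?_, fun h hh => ?_⟩
    · have := x3 _ (y3 h hh)
      have e : x * (y * h * y⁻¹) * x⁻¹ = x * y * h * (x * y)⁻¹ := by group
      rwa [e] at this
    · have := y4 _ (x4 h hh)
      have e : y⁻¹ * (x⁻¹ * h * x) * y = (x * y)⁻¹ * h * (x * y) := by group
      rwa [e] at this
  | inv x _ hx =>
    obtain ⟨x1, x2, x3, x4⟩ := hx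
    refine ⟨inv_mem x1, by rw [map_inv, x2], fun h hh => ?_, fun h hh => ?_⟩
    · rw [inv_inv]; exact x4 h hh
    · rw [inv_inv]; exact x3 h hh

/-- `U¹ H' T₀ U¹ H'` -/
def XT (T : TwOK D tab tab' r0) (φ : K →+* K) (Bl : List (List ℕ)) (H' : Subgroup (GL D.Idx K))
    (g : GL D.Idx K) : Prop :=
  ∃ b1 ∈ BT T φ H', ∃ t ∈ T0 hD K Bl, ∃ b2 ∈ BT T φ H', g = b1 * t * b2

omit S hH in
theorem XT_mul_B {T : TwOK D tab tab' r0} {b g : GL D.Idx K} (hb : b ∈ BT T φ H') (hg : XT hD T φ Bl H' g) :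
    XT hD T φ Bl H' (b * g) := by
  obtain ⟨b1, h1, t, ht, b2, h2, rfl⟩ := hg
  exact ⟨b * b1, mul_mem hb h1, t, ht, b2, h2, by group⟩

theorem XT_mul_n {J : List ℕ} (hJ : J ∈ Bl) {g : GL D.Idx K} (hg : XT hD S.T φ Bl H' g) :
    XT hD S.T φ Bl H' (nR hD K J * g) := by
  obtain ⟨b1, h1, t, ht, b2, h2, rfl⟩ := hg
  obtain ⟨t1, t2, -, t4⟩ := T0_props hD S φ hH ht
  rcases tw_axiom hD S φ hH hJ t1 t2 t4 h1 with ⟨x, hx, y, hy, e⟩ | ⟨x, hx, y, hy, e⟩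
  · refine ⟨x, hx, nR hD K J * t, mul_mem (Subgroup.subset_closure ⟨J, hJ, rfl⟩) ht, y * b2, mul_mem hy h2, ?_⟩
    have : nR hD K J * (b1 * t * b2) = nR hD K J * b1 * t * b2 := by group
    rw [this, e]; group
  · refine ⟨x, hx, t, ht, y * b2, mul_mem hy h2, ?_⟩
    have : nR hD K J * (b1 * t * b2) = nR hD K J * b1 * t * b2 := by group
    rw [this, e]; group

theorem XT_mul_n_inv {J : List ℕ} (hJ : J ∈ Bl) {g : GL D.Idx K} (hg : XT hD S.T φ Bl H' g) :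
    XT hD S.T φ Bl H' ((nR hD K J)⁻¹ * g) := by
  have h1 := XT_mul_B hD φ (H_le_BT φ (inv_mem (hH.nR_sq hD S φ hJ))) (XT_mul_n hD S φ hH hJ hg)
  have e : (nR hD K J * nR hD K J)⁻¹ * (nR hD K J * g) = (nR hD K J)⁻¹ * g := by group
  rwa [e] at h1

theorem twG_XT {g : GL D.Idx K} (hg : g ∈ twG hD φ Bl) : XT hD S.T φ Bl H' g := by
  have hx : ∀ J ∈ Bl, ∀ t : K, φ^[J.length] t = t → xB hD φ J t ∈ BT S.T φ H' := fun J hJ t ht =>
    U1_le_BT φ ⟨Uw_le_posU _ (xB_mem_Uw hD φ (S.bl J hJ).toOrthL t), sig_xB hD S.T φ (S.bl J hJ) ht⟩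
  unfold twG at hg
  induction hg using Subgroup.closure_induction_left with
  | one => exact ⟨1, one_mem _, 1, one_mem _, 1, one_mem _, by simp⟩
  | mul_left x hx' y _ ih =>
    obtain ⟨J, hJ, t, ht, rfl | rfl⟩ := hx'
    · exact XT_mul_B hD φ (hx J hJ t ht) ih
    · by_cases h0 : t = 0
      · rw [h0, yB_zero, one_mul]; exact ih
      · have ht' := iter_neg_inv φ _ ht
        have h0' : -t⁻¹ ≠ 0 := by simpa using h0
        rw [yB_eq hD S φ hJ h0, mul_assoc, mul_assoc, mul_assoc]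
        exact XT_mul_B hD φ (inv_mem (hx J hJ _ ht')) (XT_mul_B hD φ (H_le_BT φ (hH.hB_mem J hJ _ h0' ht'))
          (XT_mul_n hD S φ hH hJ (XT_mul_B hD φ (inv_mem (hx J hJ _ ht')) ih)))
  | inv_mul_cancel x hx' y _ ih =>
    obtain ⟨J, hJ, t, ht, rfl | rfl⟩ := hx'
    · exact XT_mul_B hD φ (inv_mem (hx J hJ t ht)) ih
    · by_cases h0 : t = 0
      · rw [h0, yB_zero, inv_one, one_mul]; exact ih
      · have ht' := iter_neg_inv φ _ ht
        have h0' : -t⁻¹ ≠ 0 := by simpa using h0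
        have e : (yB hD φ J t)⁻¹ * y = xB hD φ J (-t⁻¹) * ((nR hD K J)⁻¹ * ((hB hD φ J (-t⁻¹))⁻¹ *
            (xB hD φ J (-t⁻¹) * y))) := by
          rw [yB_eq hD S φ hJ h0]; group
        rw [e]
        exact XT_mul_B hD φ (hx J hJ _ ht') (XT_mul_n_inv hD S φ hH hJ
          (XT_mul_B hD φ (H_le_BT φ (inv_mem (hH.hB_mem J hJ _ h0' ht'))) (XT_mul_B hD φ (hx J hJ _ ht') ih)))

omit S hH in
theorem BT_le_borel {T : TwOK D tab tab' r0} (hH : HOK hD T φ Bl H') : BT T φ H' ≤ D.borelSubgroup K :=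
  sup_le (inf_le_left.trans (posU_le_borel hD)) (hH.le_diag.trans (diag_le_borel hD))

/-- `H¹` is generated by `H'` and `T₀ ∩ H` -/
theorem diag_inf_twG_le {h : GL D.Idx K} (hh : h ∈ D.diagonalSubgroup K) (hh2 : h ∈ twG hD φ Bl) :
    ∃ h1 ∈ H', ∃ t ∈ T0 hD K Bl ⊓ D.diagonalSubgroup K, ∃ h2 ∈ H', h = h1 * t * h2 := by
  obtain ⟨b1, hb1, t, ht, b2, hb2, e⟩ := twG_XT hD S φ hH hh2
  obtain ⟨t1, -, -, -⟩ := T0_props hD S φ hH ht
  have hle := BT_le_borel hD φ hH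
  have h3 := bruhat_unique hD t1 (one_mem _) (hle hb1) (diag_le_borel hD hh) (hle hb2) (one_mem _)
    (by rw [← e, mul_one, mul_one])
  rw [mul_one] at h3
  have htH : t ∈ D.diagonalSubgroup K := by
    have := inv_mem h3
    rwa [inv_inv] at this
  obtain ⟨u1, hu1, h1, hh1, rfl⟩ := mem_BT hD φ hH hb1
  obtain ⟨u2, hu2, h2, hh2', rfl⟩ := mem_BT hD φ hH hb2
  refine ⟨h1, hh1, t, ⟨ht, htH⟩, h2, hh2', ?_⟩
  have hn := diag_le_normalizer_posU (F := K) hD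
  rw [Subgroup.le_normalizer_iff] at hn
  have hd : h1 * t ∈ D.diagonalSubgroup K := mul_mem (hH.le_diag hh1) htH
  have e2 : h * (h1 * t * h2)⁻¹ = u1 * ((h1 * t) * u2 * (h1 * t)⁻¹) := by
    rw [e]; group
  have e3 : h * (h1 * t * h2)⁻¹ ∈ D.posUnipotent K ⊓ D.diagonalSubgroup K := by
    refine ⟨?_, (D.diagonalSubgroup K).mul_mem hh ((D.diagonalSubgroup K).inv_mem
      ((D.diagonalSubgroup K).mul_mem hd (hH.le_diag hh2')))⟩
    rw [e2]
    exact (D.posUnipotent K).mul_mem hu1.1 (hn _ hd _ hu2.1)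
  rw [posU_inf_diag hD, Subgroup.mem_bot, mul_inv_eq_one] at e3
  exact e3

end

/-! ### the elements of `T₀ ∩ H` are involutions -/

section
variable {D : ChevalleyDatum} (hD : D ∈ allData) {K : Type*} [Field K]

/-- conjugation permutes the root elements up to sign -/
def SgnAct (g : GL D.Idx K) : Prop :=
  ∀ s < D.nroots, ∃ s' < D.nroots, ∃ ε : K, ε * ε = 1 ∧ ∀ t, g * xG hD K s t * g⁻¹ = xG hD K s' (ε * t)

variable {hD}

theorem SgnAct.mul {g g' : GL D.Idx K} (h : SgnAct hD g) (h' : SgnAct hD g') : SgnAct hD (g * g') := by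
  intro s hs
  obtain ⟨s1, hs1, ε1, e1, c1⟩ := h' s hs
  obtain ⟨s2, hs2, ε2, e2, c2⟩ := h s1 hs1
  refine ⟨s2, hs2, ε2 * ε1, by rw [mul_mul_mul_comm, e2, e1, one_mul], fun t => ?_⟩
  have : g * g' * xG hD K s t * (g * g')⁻¹ = g * (g' * xG hD K s t * g'⁻¹) * g⁻¹ := by group
  rw [this, c1, c2, mul_assoc]

variable (hD)

theorem sgnAct_one : SgnAct hD (1 : GL D.Idx K) :=
  fun s hs => ⟨s, hs, 1, one_mul 1, fun t => by simp⟩

theorem sgnAct_nS {i : ℕ} (hi : i < D.rank) : SgnAct hD (nS hD K i) ∧ SgnAct hD (nS hD K i)⁻¹ := by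
  constructor
  · intro s hs
    exact ⟨_, reflect_lt hD hi hs, _, etaF_sq (D := D) i s, fun t => conj_nS_x hD hi hs t⟩
  · intro s hs
    refine ⟨_, reflect_lt hD hi hs, _, etaF_sq (D := D) i (D.reflectRoot i s), fun t => ?_⟩
    rw [inv_inv]
    exact conj_inv_nS_x hD hi hs t

theorem sgnAct_nR : ∀ (L : List ℕ), (∀ i ∈ L, i < D.rank) → SgnAct hD (nR hD K L) ∧ SgnAct hD (nR hD K L)⁻¹
  | [], _ => ⟨sgnAct_one hD, by rw [show (nR hD K [])⁻¹ = 1 from inv_one]; exact sgnAct_one hD⟩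
  | i :: L, h => by
    obtain ⟨a1, a2⟩ := sgnAct_nR L (fun j hj => h j (List.mem_cons_of_mem _ hj))
    obtain ⟨b1, b2⟩ := sgnAct_nS (K := K) hD (h i List.mem_cons_self)
    refine ⟨a1.mul b1, ?_⟩
    show SgnAct hD (nR hD K L * nS hD K i)⁻¹
    rw [mul_inv_rev]
    exact b2.mul a2

theorem sgnAct_T0 {Bl : List (List ℕ)} (hBl : ∀ J ∈ Bl, ∀ j ∈ J, j < D.rank) {g : GL D.Idx K}
    (hg : g ∈ T0 hD K Bl) : SgnAct hD g ∧ SgnAct hD g⁻¹ := by
  induction hg using Subgroup.closure_induction with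
  | mem x hx =>
    obtain ⟨J, hJ, rfl⟩ := hx
    exact sgnAct_nR hD J (hBl J hJ)
  | one => exact ⟨sgnAct_one hD, by rw [inv_one]; exact sgnAct_one hD⟩
  | mul x y _ _ hx hy => exact ⟨hx.1.mul hy.1, by rw [mul_inv_rev]; exact hy.2.mul hx.2⟩
  | inv x _ hx => exact ⟨hx.2, by rw [inv_inv]; exact hx.1⟩

theorem T0_diag_sq {Bl : List (List ℕ)} (hBl : ∀ J ∈ Bl, ∀ j ∈ J, j < D.rank) {c : ℕ → Kˣ}
    (hg : tG D c ∈ T0 hD K Bl) : tG D (c * c) = 1 := by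
  apply tG_eq_one_of_chi hD
  intro s hs
  obtain ⟨s', hs', ε, e1, e2⟩ := (sgnAct_T0 hD hBl hg).1 s hs
  have h1 := e2 1
  rw [conj_tG_x hD c hs, mul_one, mul_one] at h1
  have h2 : s = s' := xG_root_inj hD hs hs' (Units.ne_zero _) h1
  subst h2
  have h3 := xG_inj hD hs h1
  rw [chi_mul]
  apply Units.ext
  rw [Units.val_mul, h3, e1]
  rfl

end

end Cfsg.Agent.Lib.Helper8
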