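import Cfsg.Agent.Lib.Helper8.Tw16

set_option autoImplicit false
set_option linter.unusedSectionVars false
set_option linter.unusedVariables false

open scoped commutatorElement

namespace Cfsg.Agent.Lib.Helper8

open Cfsg Cfsg.Lie

section
variable {D : ChevalleyDatum} (hD : D ∈ allData) {K : Type*} [Field K] (φ : K →+* K)
include hD

theorem PB_add {f : ℕ → K → GL D.Idx K} (hf : ∀ j t, f j t ∈ rk1 D K j) (hadd : ∀ j s t, f j (s + t) = f j s * f j t) :
    ∀ {J : List ℕ}, OrthL D J → ∀ s t : K, PB φ f J (s + t) = PB φ f J s * PB φ f J t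
  | [], _, _, _ => (one_mul 1).symm
  | j :: J, h, s, t => by
    show f j (s + t) * PB φ f J (φ (s + t)) = f j s * PB φ f J (φ s) * (f j t * PB φ f J (φ t))
    rw [map_add, PB_add hf hadd h.tail, hadd]
    have hc : Commute (f j t) (PB φ f J (φ s)) := PB_commute_head hD φ h (hf j t) hf _
    calc f j s * f j t * (PB φ f J (φ s) * PB φ f J (φ t))
        = f j s * (f j t * PB φ f J (φ s)) * PB φ f J (φ t) := by simp only [mul_assoc]
      _ = f j s * (PB φ f J (φ s) * f j t) * PB φ f J (φ t) := by rw [hc.eq]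
      _ = _ := by simp only [mul_assoc]

theorem xB_add {J : List ℕ} (hJ : OrthL D J) (s t : K) : xB hD φ J (s + t) = xB hD φ J s * xB hD φ J t :=
  PB_add hD φ (fun j t => xG_mem_rk1 hD j t) (fun j s t => (xG_mul hD _ s t).symm) hJ s t

theorem yB_add {J : List ℕ} (hJ : OrthL D J) (s t : K) : yB hD φ J (s + t) = yB hD φ J s * yB hD φ J t :=
  PB_add hD φ (fun j t => yG_mem_rk1 hD j t) (fun j s t => (xG_mul hD _ s t).symm) hJ s t

theorem xB_inv {J : List ℕ} (hJ : OrthL D J) (t : K) : (xB hD φ J t)⁻¹ = xB hD φ J (-t) := by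
  rw [inv_eq_iff_mul_eq_one, ← xB_add hD φ hJ, add_neg_cancel, xB_zero]

theorem yB_inv {J : List ℕ} (hJ : OrthL D J) (t : K) : (yB hD φ J t)⁻¹ = yB hD φ J (-t) := by
  rw [inv_eq_iff_mul_eq_one, ← yB_add hD φ hJ, add_neg_cancel, yB_zero]

/-- the conjugation action of a word in the `n_i`, up to sign -/
theorem conj_nR_x : ∀ (L : List ℕ), (∀ i ∈ L, i < D.rank) → ∀ s < D.nroots,
    ∃ ε : K, (ε = 1 ∨ ε = -1) ∧ ∀ t, nR hD K L * xG hD K s t * (nR hD K L)⁻¹ = xG hD K (wR D L s) (ε * t)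
  | [], _, s, _ => ⟨1, Or.inl rfl, fun t => by simp [nR, wR]⟩
  | i :: L, h, s, hs => by
    have hi := h i List.mem_cons_self
    obtain ⟨ε, h1, h2⟩ := conj_nR_x L (fun j hj => h j (List.mem_cons_of_mem _ hj)) _ (reflect_lt hD hi hs)
    have h3 : ((etaOf D i s : ℤ) : K) = 1 ∨ ((etaOf D i s : ℤ) : K) = -1 :=
      mul_self_eq_one_iff.mp (etaF_sq (D := D) i s)
    refine ⟨ε * ((etaOf D i s : ℤ) : K), ?_, fun t => ?_⟩
    · rcases h1 with rfl | rfl <;> rcases h3 with e | e <;> rw [e] <;> simp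
    · show nR hD K L * nS hD K i * xG hD K s t * (nR hD K L * nS hD K i)⁻¹ = xG hD K (wR D L (D.reflectRoot i s)) _
      have e := conj_nS_x (F := K) hD hi hs t
      rw [MulAut.conj_apply] at e
      have e2 : nR hD K L * nS hD K i * xG hD K s t * (nR hD K L * nS hD K i)⁻¹ =
          nR hD K L * (nS hD K i * xG hD K s t * (nS hD K i)⁻¹) * (nR hD K L)⁻¹ := by group
      rw [e2, e, h2, mul_assoc]

end

/-- subgroups containing the commutators and normalised by the group -/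
structure DerOK {G : Type*} [Group G] (A C : Subgroup G) : Prop where
  conj : ∀ g ∈ A, ∀ k ∈ C, g * k * g⁻¹ ∈ C
  comm : ∀ a ∈ A, ∀ b ∈ A, a * b * a⁻¹ * b⁻¹ ∈ C

theorem derOK_commutator {G : Type*} [Group G] (A : Subgroup G) : DerOK A ((commutator ↥A).map A.subtype) := by
  constructor
  · rintro g hg _ ⟨k, hk, rfl⟩
    refine ⟨⟨g, hg⟩ * k * ⟨g, hg⟩⁻¹, ?_, rfl⟩
    exact (inferInstance : (commutator ↥A).Normal).conj_mem k hk _
  · intro a ha b hb
    refine ⟨⁅(⟨a, ha⟩ : ↥A), ⟨b, hb⟩⁆, ?_, ?_⟩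
    · rw [SetLike.mem_coe, commutator_def]
      exact Subgroup.commutator_mem_commutator (Subgroup.mem_top _) (Subgroup.mem_top _)
    · rw [commutatorElement_def]
      rfl

theorem perfect_of_le {G : Type*} [Group G] (A : Subgroup G) (h : A ≤ (commutator ↥A).map A.subtype) :
    commutator ↥A = ⊤ := by
  rw [eq_top_iff]
  intro g _
  obtain ⟨y, hy, e⟩ := h g.2
  have : y = g := Subtype.ext e
  rw [← this]
  exact hy

section
variable {D : ChevalleyDatum} (hD : D ∈ allData) {tab tab' : List (ℕ × ℤ)} {r0 : List ℕ} {Bl M0 : List (List ℕ)}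
  (S : TwS D tab tab' r0 Bl M0) {K : Type*} [Field K] (φ : K →+* K) {C : Subgroup (GL D.Idx K)}
  (hC : DerOK (twG hD φ Bl) C)
include hD S hC

/-- a torus element acting non-trivially on a block puts the block in the derived group -/
theorem torus_step {J : List ℕ} (hJ : J ∈ Bl) {c : ℕ → Kˣ} (hmem : tG D c ∈ twG hD φ Bl) (hne : chiB D c J ≠ 1)
    {t : K} (ht : φ^[J.length] t = t) : xB hD φ J t ∈ C ∧ yB hD φ J t ∈ C := by
  have hfix : sig S.T φ (tG D c) = tG D c := twG_le_fixS hD S.T φ Bl S.bl hmem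
  have hχ := chiB_fixed hD S.T φ (S.bl J hJ) hfix
  have hO := (S.bl J hJ).toOrthL
  rw [← RingHom.coe_pow] at hχ ht
  constructor
  · have h1 : (chiB D c J : K) - 1 ≠ 0 := sub_ne_zero.mpr (fun e => hne (Units.ext e))
    have hs : φ^[J.length] (t / ((chiB D c J : K) - 1)) = t / ((chiB D c J : K) - 1) := by
      rw [← RingHom.coe_pow, map_div₀, map_sub, map_one, hχ, ht]
    have h2 := hC.comm _ hmem _ (xB_mem_twG hD φ Bl hJ hs)
    rw [conj_tG_xB hD S.T φ (S.bl J hJ) hfix, xB_inv hD φ hO, ← xB_add hD φ hO] at h2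
    have e : (chiB D c J : K) * (t / ((chiB D c J : K) - 1)) + -(t / ((chiB D c J : K) - 1)) = t := by
      field_simp
      ring
    rwa [e] at h2
  · have h1 : (chiB D c J : K)⁻¹ - 1 ≠ 0 := sub_ne_zero.mpr (fun e => hne (Units.ext (inv_eq_one.mp e)))
    have hs : φ^[J.length] (t / ((chiB D c J : K)⁻¹ - 1)) = t / ((chiB D c J : K)⁻¹ - 1) := by
      rw [← RingHom.coe_pow, map_div₀, map_sub, map_one, map_inv₀, hχ, ht]
    have h2 := hC.comm _ hmem _ (yB_mem_twG hD φ Bl hJ hs)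
    rw [conj_tG_yB hD S.T φ (S.bl J hJ) hfix, yB_inv hD φ hO, ← yB_add hD φ hO] at h2
    have e : (chiB D c J : K)⁻¹ * (t / ((chiB D c J : K)⁻¹ - 1)) + -(t / ((chiB D c J : K)⁻¹ - 1)) = t := by
      have : (chiB D c J : K)⁻¹ * (t / ((chiB D c J : K)⁻¹ - 1)) + -(t / ((chiB D c J : K)⁻¹ - 1)) =
          ((chiB D c J : K)⁻¹ - 1) * (t / ((chiB D c J : K)⁻¹ - 1)) := by ring
      rw [this, mul_div_cancel₀ _ h1]
    rwa [e] at h2

/-- transport of root elements with parameters in the fixed field -/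
theorem transport {M : List (List ℕ)} (hM : ∀ J ∈ M, J ∈ Bl) {r : ℕ} (hr : r < D.nroots)
    (h : ∀ t : K, φ t = t → xG hD K r t ∈ C) : ∀ t : K, φ t = t → xG hD K (wR D M.flatten r) t ∈ C := by
  intro t ht
  obtain ⟨ε, h1, h2⟩ := conj_nR_x (K := K) hD M.flatten (flatten_lt hD Bl S.bl hM) r hr
  have h3 : φ (ε * t) = ε * t := by
    rcases h1 with rfl | rfl <;> simp [ht]
  have h4 := hC.conj _ (nR_flatten_mem hD φ Bl S.bl hM) _ (h _ h3)
  rw [h2, ← mul_assoc] at h4
  have h5 : ε * ε = 1 := by rcases h1 with rfl | rfl <;> simp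
  rwa [h5, one_mul] at h4

theorem perfect_of_blocks
    (h : ∀ J ∈ Bl, ∀ t : K, φ^[J.length] t = t → xB hD φ J t ∈ C ∧ yB hD φ J t ∈ C) : twG hD φ Bl ≤ C := by
  conv_lhs => rw [twG]
  rw [Subgroup.closure_le]
  rintro g ⟨J, hJ, t, ht, rfl | rfl⟩
  · exact (h J hJ t ht).1
  · exact (h J hJ t ht).2

end

end Cfsg.Agent.Lib.Helper8
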