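import Cfsg.Agent.Lib.Helper8.Tw17

set_option autoImplicit false
set_option linter.unusedSectionVars false
set_option linter.unusedVariables false

namespace Cfsg.Agent.Lib.Helper8

open Cfsg Cfsg.Lie

/-! ### commutators of words with values in a central root subgroup -/

def Nz (D : ChevalleyDatum) (r s : ℕ) : ℤ := ((D.commTerms r s).headD (0, 0, 0, 0)).2.1

def pairOK (D : ChevalleyDatum) (θ r s : ℕ) : Bool :=
  (s != r) && (s != D.neg r) && ((D.commTerms r s).isEmpty || D.commTerms r s == [(θ, Nz D r s, 1, 1)])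

def cenOK (D : ChevalleyDatum) (θ r : ℕ) : Bool :=
  (r != θ) && (r != D.neg θ) && (D.commTerms θ r).isEmpty

section
variable {D : ChevalleyDatum} (hD : D ∈ allData) {K : Type*} [Field K]
include hD

theorem conj_pair {θ r s : ℕ} (hr : r < D.nroots) (hs : s < D.nroots) (h : pairOK D θ r s = true) (t u : K) :
    xG hD K r t * xG hD K s u * (xG hD K r t)⁻¹ = xG hD K s u * xG hD K θ ((Nz D r s : K) * t * u) := by
  simp only [pairOK, Bool.and_eq_true, Bool.or_eq_true, bne_iff_ne, List.isEmpty_iff, beq_iff_eq] at h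
  obtain ⟨⟨h1, h2⟩, h3⟩ := h
  rw [conj_x_x hD hr hs h1 h2, ChevalleyDatum.commWord]
  rcases h3 with h3 | h3
  · have : Nz D r s = 0 := by rw [Nz, h3]; rfl
    rw [h3, this]
    simp [wG, xG_zero]
  · rw [h3]
    simp [wG]

theorem cen_commute {θ r : ℕ} (hθ : θ < D.nroots) (hr : r < D.nroots) (h : cenOK D θ r = true) (v u : K) :
    Commute (xG hD K θ v) (xG hD K r u) := by
  simp only [cenOK, Bool.and_eq_true, bne_iff_ne, List.isEmpty_iff] at h
  obtain ⟨⟨h1, h2⟩, h3⟩ := h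
  exact commute_of_terms hD hθ hr h1 h2 (by rw [h3]; simp) v u

theorem wG_cons (p : ℕ × K) (L : List (ℕ × K)) : wG hD (p :: L) = xG hD K p.1 p.2 * wG hD L := by
  simp [wG]

theorem cen_commute_word {θ : ℕ} (hθ : θ < D.nroots) (v : K) : ∀ (B : List (ℕ × K)),
    (∀ p ∈ B, p.1 < D.nroots ∧ cenOK D θ p.1 = true) → Commute (xG hD K θ v) (wG hD B)
  | [], _ => Commute.one_right _
  | p :: B, h => by
    rw [wG_cons]
    exact (cen_commute hD hθ (h p List.mem_cons_self).1 (h p List.mem_cons_self).2 v _).mul_right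
      (cen_commute_word hθ v B (fun a ha => h a (List.mem_cons_of_mem _ ha)))

theorem conj_x_word {θ r : ℕ} (hθ : θ < D.nroots) (hr : r < D.nroots) (t : K) : ∀ (B : List (ℕ × K)),
    (∀ p ∈ B, p.1 < D.nroots ∧ cenOK D θ p.1 = true ∧ pairOK D θ r p.1 = true) →
    xG hD K r t * wG hD B * (xG hD K r t)⁻¹ =
      wG hD B * xG hD K θ ((B.map (fun p => (Nz D r p.1 : K) * t * p.2)).sum)
  | [], _ => by simp [wG, xG_zero]
  | p :: B, h => by
    have ih := conj_x_word hθ hr t B (fun a ha => h a (List.mem_cons_of_mem _ ha))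
    obtain ⟨p1, p2, p3⟩ := h p List.mem_cons_self
    have hc := cen_commute_word hD hθ ((Nz D r p.1 : K) * t * p.2) B
      (fun a ha => ⟨(h a (List.mem_cons_of_mem _ ha)).1, (h a (List.mem_cons_of_mem _ ha)).2.1⟩)
    rw [wG_cons, List.map_cons, List.sum_cons, ← xG_mul]
    calc xG hD K r t * (xG hD K p.1 p.2 * wG hD B) * (xG hD K r t)⁻¹
        = (xG hD K r t * xG hD K p.1 p.2 * (xG hD K r t)⁻¹) * (xG hD K r t * wG hD B * (xG hD K r t)⁻¹) := by
          group
      _ = xG hD K p.1 p.2 * (xG hD K θ ((Nz D r p.1 : K) * t * p.2) * wG hD B) *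
          xG hD K θ ((B.map (fun p => (Nz D r p.1 : K) * t * p.2)).sum) := by
          rw [conj_pair hD hr p1 p3, ih]; simp only [mul_assoc]
      _ = _ := by rw [hc.eq]; simp only [mul_assoc]

theorem comm_words {θ : ℕ} (hθ : θ < D.nroots) (B : List (ℕ × K))
    (hB : ∀ p ∈ B, p.1 < D.nroots ∧ cenOK D θ p.1 = true) : ∀ (A : List (ℕ × K)),
    (∀ a ∈ A, a.1 < D.nroots ∧ cenOK D θ a.1 = true ∧ ∀ p ∈ B, pairOK D θ a.1 p.1 = true) →
    wG hD A * wG hD B * (wG hD A)⁻¹ =
      wG hD B * xG hD K θ ((A.map (fun a => (B.map (fun p => (Nz D a.1 p.1 : K) * a.2 * p.2)).sum)).sum)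
  | [], _ => by simp [wG, xG_zero]
  | a :: A, h => by
    have ih := comm_words hθ B hB A (fun x hx => h x (List.mem_cons_of_mem _ hx))
    obtain ⟨a1, a2, a3⟩ := h a List.mem_cons_self
    have hx := conj_x_word hD hθ a1 a.2 B (fun p hp => ⟨(hB p hp).1, (hB p hp).2, a3 p hp⟩)
    have hc := cen_commute hD hθ a1 a2
      ((A.map (fun a => (B.map (fun p => (Nz D a.1 p.1 : K) * a.2 * p.2)).sum)).sum) a.2
    rw [wG_cons, List.map_cons, List.sum_cons, ← xG_mul]
    calc xG hD K a.1 a.2 * wG hD A * wG hD B * (xG hD K a.1 a.2 * wG hD A)⁻¹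
        = xG hD K a.1 a.2 * (wG hD A * wG hD B * (wG hD A)⁻¹) * (xG hD K a.1 a.2)⁻¹ := by group
      _ = (xG hD K a.1 a.2 * wG hD B * (xG hD K a.1 a.2)⁻¹) *
          (xG hD K a.1 a.2 * xG hD K θ ((A.map (fun a => (B.map
            (fun p => (Nz D a.1 p.1 : K) * a.2 * p.2)).sum)).sum) * (xG hD K a.1 a.2)⁻¹) := by
          rw [ih]; group
      _ = _ := by rw [hx, ← hc.eq, mul_inv_cancel_right]; simp only [mul_assoc]

end

end Cfsg.Agent.Lib.Helper8
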