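import Cfsg.Agent.Lib.Helper8.TwE6b

set_option autoImplicit false
set_option linter.unusedSectionVars false
set_option linter.unusedVariables false

namespace Cfsg.Agent.Lib.Helper8

open Cfsg Cfsg.Lie

section
variable {K : Type*} [Field K] [Fintype K] {q : ℕ} (hq : 1 < q) (hK : Fintype.card K = q ^ 2)
  {φ : K →+* K} (hφ : ∀ t, φ t = t ^ q)
include hφ

omit [Fintype K] in
theorem fu_eq_pow (d : Kˣ) : fu φ d = d ^ q := by
  apply Units.ext
  show φ (d : K) = _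
  rw [hφ, Units.val_pow_eq_pow_val]

include hq hK

theorem card_ker_thE6 : Nat.card ↥(thE6 φ).ker = Nat.gcd 3 (q + 1) := by
  have hmem : ∀ x : ↥(thE6 φ).ker, x.1.2.2.2 ∈ (powMonoidHom (Nat.gcd 3 (q + 1)) : Kˣ →* Kˣ).ker := by
    rintro ⟨⟨a, b, c, d⟩, hx⟩
    have hx' : tG chevE6 (cE6 φ a b c d) = 1 := hx
    obtain ⟨-, -, h0, -, -, h5⟩ := ker_E6 hx'
    have h0' : d ^ 3 = 1 := h0
    have h5' : fu φ d = d ^ 2 := h5
    rw [MonoidHom.mem_ker]
    show d ^ (Nat.gcd 3 (q + 1)) = 1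
    refine pow_gcd_eq_one.mpr ⟨h0', ?_⟩
    rw [pow_succ, ← fu_eq_pow hφ, h5', ← pow_succ, h0']
  have key : Function.Bijective (fun x : ↥(thE6 φ).ker =>
      (⟨x.1.2.2.2, hmem x⟩ : ↥(powMonoidHom (Nat.gcd 3 (q + 1)) : Kˣ →* Kˣ).ker)) := by
    constructor
    · rintro ⟨⟨⟨a, ha⟩, ⟨b, hb⟩, c, d⟩, hx⟩ ⟨⟨⟨a', ha'⟩, ⟨b', hb'⟩, c', d'⟩, hx'⟩ e
      have e1 : d = d' := congrArg Subtype.val e
      have k : tG chevE6 (cE6 φ a b c d) = 1 := hx
      have k' : tG chevE6 (cE6 φ a' b' c' d') = 1 := hx'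
      obtain ⟨h1, h3, -, h2, -, -⟩ := ker_E6 k
      obtain ⟨h1', h3', -, h2', -, -⟩ := ker_E6 k'
      have f1 : a = 1 := h1
      have f3 : b = 1 := h3
      have f2 : c = d ^ 2 := h2
      have f1' : a' = 1 := h1'
      have f3' : b' = 1 := h3'
      have f2' : c' = d' ^ 2 := h2'
      subst f1 f3 f2 f1' f3' f2' e1
      rfl
    · rintro ⟨d, hd⟩
      have hd' : d ^ (Nat.gcd 3 (q + 1)) = 1 := hd
      have d3 : d ^ 3 = 1 := by
        obtain ⟨k, hk⟩ := Nat.gcd_dvd_left 3 (q + 1)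
        rw [hk, pow_mul, hd', one_pow]
      have dq : d ^ (q + 1) = 1 := by
        obtain ⟨k, hk⟩ := Nat.gcd_dvd_right 3 (q + 1)
        rw [hk, pow_mul, hd', one_pow]
      have fd : fu φ d = d ^ 2 := by
        rw [fu_eq_pow hφ]
        have : d ^ q * d = d ^ 2 * d := by rw [← pow_succ, ← pow_succ, dq, d3]
        exact mul_right_cancel this
      refine ⟨⟨(1, 1, d ^ 2, d), ?_⟩, rfl⟩
      rw [MonoidHom.mem_ker, thE6_apply]
      apply ker_E6_conv rfl rfl d3 rfl _ fd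
      show fu φ (d ^ 2) = d
      rw [map_pow, fd, ← pow_mul]
      calc d ^ (2 * 2) = d ^ 3 * d := by rw [← pow_succ]
        _ = d := by rw [d3, one_mul]
  rw [Nat.card_congr (Equiv.ofBijective _ key), IsCyclic.card_powMonoidHom_ker, Nat.card_units,
    Nat.card_eq_fintype_card, hK]
  apply Nat.gcd_eq_right
  apply (Nat.gcd_dvd_right 3 (q + 1)).trans
  refine ⟨q - 1, ?_⟩
  obtain ⟨m, rfl⟩ : ∃ m, q = m + 1 := ⟨q - 1, by omega⟩
  rw [Nat.add_sub_cancel]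
  exact Nat.sub_eq_of_eq_add (by ring)

theorem card_H_E6 : Nat.gcd 3 (q + 1) * Nat.card ↥(chevE6.diagonalSubgroup K ⊓ twG hE6 φ blE6) =
    (q - 1) * ((q - 1) * ((q ^ 2 - 1) * (q ^ 2 - 1))) := by
  have hφ2 : ∀ t : K, φ^[2] t = t := fun t => by rw [iter_frob hφ, ← hK, FiniteField.pow_card]
  have hF : Nat.card ↥(Fx φ) = q - 1 := card_fu_fixed hq hK hφ
  rw [diag_inf_twE6 φ hφ2, ← card_ker_thE6 hq hK hφ, ← Subgroup.index_ker, Subgroup.card_mul_index, Nat.card_prod,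
    Nat.card_prod, Nat.card_prod, hF, Nat.card_units, Nat.card_eq_fintype_card, hK]

end

end Cfsg.Agent.Lib.Helper8
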