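import Cfsg.Agent.Lib.Helper8.Tw18
import Cfsg.Agent.Lib.Helper8.TwE6c

set_option autoImplicit false
set_option linter.unusedSectionVars false
set_option linter.unusedVariables false

namespace Cfsg.Agent.Lib.Helper8

open Cfsg Cfsg.Lie

section
variable {D : ChevalleyDatum} (hD : D ∈ allData) {K : Type*} [Field K]
include hD

theorem conj_nR_x_two (h2 : (-1 : K) = 1) (L : List ℕ) (hL : ∀ i ∈ L, i < D.rank) {s : ℕ} (hs : s < D.nroots) (t : K) :
    nR hD K L * xG hD K s t * (nR hD K L)⁻¹ = xG hD K (wR D L s) t := by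
  obtain ⟨ε, h1, h3⟩ := conj_nR_x (K := K) hD L hL s hs
  have : ε = 1 := by rcases h1 with h | h <;> rw [h]; exact h2
  rw [h3, this, one_mul]

end

/-- in a field where squaring is additive, `-1 = 1` -/
theorem neg_one_of_frob {K : Type*} [Field K] {φ : K →+* K} (hφ : ∀ t, φ t = t ^ 2) : (-1 : K) = 1 := by
  have h1 : φ (1 + 1) = (1 + 1) ^ 2 := hφ _
  rw [map_add, map_one] at h1
  have h2 : (1 : K) + 1 = 0 := by
    have : ((1 : K) + 1) * ((1 : K) + 1 - 1) = 0 := by ring_nf; ring_nf at h1; linear_combination -h1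
    rcases mul_eq_zero.mp this with h | h
    · exact h
    · simp at h
  exact (eq_neg_of_add_eq_zero_left h2).symm

theorem fixed_two {K : Type*} [Field K] {φ : K →+* K} (hφ : ∀ t, φ t = t ^ 2) {t : K} (ht : φ t = t) :
    t = 0 ∨ t = 1 := by
  rw [hφ] at ht
  have : t * (t - 1) = 0 := by ring_nf; linear_combination ht
  rcases mul_eq_zero.mp this with h | h
  · exact Or.inl h
  · exact Or.inr (sub_eq_zero.mp h)

/-! ### `³D₄(q)` is perfect -/

section
variable {K : Type*} [Field K] [Fintype K] {q : ℕ} (hq : 1 < q) (hK : Fintype.card K = q ^ 3)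
  {φ : K →+* K} (hφ : ∀ t, φ t = t ^ q) {C : Subgroup (GL chevD4.Idx K)} (hC : DerOK (twG hD4 φ blD4) C)
include hq hK hφ hC

theorem D4_long_two (h2 : q = 2) : ∀ t : K, φ t = t → xG hD4 K 23 t ∈ C := by
  subst h2
  have hn := neg_one_of_frob hφ
  have hM : ∀ J ∈ [[1], [0, 2, 3]], J ∈ blD4 := by decide
  have hM1 : ∀ J ∈ [[1]], J ∈ blD4 := by decide
  have hx := xB_mem_twG hD4 φ blD4 (J := [0, 2, 3]) (by decide) (iter_one φ 3)
  have n1 := nR_flatten_mem (K := K) hD4 φ blD4 blD4_ok hM1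
  have n2 := nR_flatten_mem (K := K) hD4 φ blD4 blD4_ok hM
  have eX : nR hD4 K [[1]].flatten * xB hD4 φ [0, 2, 3] 1 * (nR hD4 K [[1]].flatten)⁻¹ =
      wG hD4 [(19, (1 : K)), (16, 1), (15, 1)] := by
    have e : nR hD4 K [[1]].flatten * xB hD4 φ [0, 2, 3] 1 * (nR hD4 K [[1]].flatten)⁻¹ =
        (nR hD4 K [[1]].flatten * xG hD4 K (chevD4.simple 0) 1 * (nR hD4 K [[1]].flatten)⁻¹) *
        ((nR hD4 K [[1]].flatten * xG hD4 K (chevD4.simple 2) (φ 1) * (nR hD4 K [[1]].flatten)⁻¹) *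
        ((nR hD4 K [[1]].flatten * xG hD4 K (chevD4.simple 3) (φ (φ 1)) * (nR hD4 K [[1]].flatten)⁻¹) * 1)) := by
      show _ * (_ * (_ * (_ * 1))) * _ = _
      group
    rw [e, conj_nR_x_two hD4 hn _ (by decide) (by decide), conj_nR_x_two hD4 hn _ (by decide) (by decide),
      conj_nR_x_two hD4 hn _ (by decide) (by decide), map_one, map_one]
    rfl
  have eY : nR hD4 K [[1], [0, 2, 3]].flatten * xB hD4 φ [0, 2, 3] 1 * (nR hD4 K [[1], [0, 2, 3]].flatten)⁻¹ =
      wG hD4 [(17, (1 : K)), (20, 1), (21, 1)] := by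
    have e : nR hD4 K [[1], [0, 2, 3]].flatten * xB hD4 φ [0, 2, 3] 1 * (nR hD4 K [[1], [0, 2, 3]].flatten)⁻¹ =
        (nR hD4 K [[1], [0, 2, 3]].flatten * xG hD4 K (chevD4.simple 0) 1 * (nR hD4 K [[1], [0, 2, 3]].flatten)⁻¹) *
        ((nR hD4 K [[1], [0, 2, 3]].flatten * xG hD4 K (chevD4.simple 2) (φ 1) *
          (nR hD4 K [[1], [0, 2, 3]].flatten)⁻¹) *
        ((nR hD4 K [[1], [0, 2, 3]].flatten * xG hD4 K (chevD4.simple 3) (φ (φ 1)) *
          (nR hD4 K [[1], [0, 2, 3]].flatten)⁻¹) * 1)) := by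
      show _ * (_ * (_ * (_ * 1))) * _ = _
      group
    rw [e, conj_nR_x_two hD4 hn _ (by decide) (by decide), conj_nR_x_two hD4 hn _ (by decide) (by decide),
      conj_nR_x_two hD4 hn _ (by decide) (by decide), map_one, map_one]
    rfl
  have mX : wG hD4 [(19, (1 : K)), (16, 1), (15, 1)] ∈ twG hD4 φ blD4 := by
    rw [← eX]; exact mul_mem (mul_mem n1 hx) (inv_mem n1)
  have mY : wG hD4 [(17, (1 : K)), (20, 1), (21, 1)] ∈ twG hD4 φ blD4 := by
    rw [← eY]; exact mul_mem (mul_mem n2 hx) (inv_mem n2)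
  have cB : ∀ r ∈ [17, 20, 21], r < chevD4.nroots ∧ cenOK chevD4 23 r = true := by decide +kernel
  have cA : ∀ r ∈ [19, 16, 15], r < chevD4.nroots ∧ cenOK chevD4 23 r = true ∧
      ∀ s ∈ [17, 20, 21], pairOK chevD4 23 r s = true := by decide +kernel
  have hcw := comm_words (K := K) hD4 (θ := 23) (by decide) [(17, (1 : K)), (20, 1), (21, 1)]
    (by
      intro p hp
      exact cB p.1 (List.mem_map_of_mem (f := Prod.fst) hp))
    [(19, (1 : K)), (16, 1), (15, 1)]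
    (by
      intro a ha
      obtain ⟨c1, c2, c3⟩ := cA a.1 (List.mem_map_of_mem (f := Prod.fst) ha)
      exact ⟨c1, c2, fun p hp => c3 p.1 (List.mem_map_of_mem (f := Prod.fst) hp)⟩)
  have z1 : Nz chevD4 19 17 = -1 := by decide +kernel
  have z2 : Nz chevD4 19 20 = 0 := by decide +kernel
  have z3 : Nz chevD4 19 21 = 0 := by decide +kernel
  have z4 : Nz chevD4 16 17 = 0 := by decide +kernel
  have z5 : Nz chevD4 16 20 = -1 := by decide +kernel
  have z6 : Nz chevD4 16 21 = 0 := by decide +kernel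
  have z7 : Nz chevD4 15 17 = 0 := by decide +kernel
  have z8 : Nz chevD4 15 20 = 0 := by decide +kernel
  have z9 : Nz chevD4 15 21 = -1 := by decide +kernel
  simp only [List.map_cons, List.map_nil, List.sum_cons, List.sum_nil, z1, z2, z3, z4, z5, z6, z7, z8, z9] at hcw
  have hs : ((-1 : ℤ) : K) * 1 * 1 + (((0 : ℤ) : K) * 1 * 1 + (((0 : ℤ) : K) * 1 * 1 + 0)) +
      (((0 : ℤ) : K) * 1 * 1 + (((-1 : ℤ) : K) * 1 * 1 + (((0 : ℤ) : K) * 1 * 1 + 0)) +
      (((0 : ℤ) : K) * 1 * 1 + (((0 : ℤ) : K) * 1 * 1 + (((-1 : ℤ) : K) * 1 * 1 + 0)) + 0)) = 1 := by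
    simp only [Int.cast_neg, Int.cast_one, Int.cast_zero, hn]
    have : (1 : K) + 1 = 0 := by
      have := hn
      linear_combination -this
    linear_combination this
  rw [hs] at hcw
  have h1 := hC.comm _ (inv_mem mY) _ mX
  have e1 : (wG hD4 [(17, (1 : K)), (20, 1), (21, 1)])⁻¹ * wG hD4 [(19, (1 : K)), (16, 1), (15, 1)] *
      (wG hD4 [(17, (1 : K)), (20, 1), (21, 1)])⁻¹⁻¹ * (wG hD4 [(19, (1 : K)), (16, 1), (15, 1)])⁻¹ =
      (wG hD4 [(17, (1 : K)), (20, 1), (21, 1)])⁻¹ * (wG hD4 [(19, (1 : K)), (16, 1), (15, 1)] *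
      wG hD4 [(17, (1 : K)), (20, 1), (21, 1)] * (wG hD4 [(19, (1 : K)), (16, 1), (15, 1)])⁻¹) := by group
  rw [e1, hcw, inv_mul_cancel_left] at h1
  intro t ht
  rcases fixed_two hφ ht with rfl | rfl
  · rw [xG_zero]; exact one_mem _
  · exact h1

theorem D4_blocks : ∀ J ∈ blD4, ∀ t : K, φ^[J.length] t = t → xB hD4 φ J t ∈ C ∧ yB hD4 φ J t ∈ C := by
  have hφ3 : ∀ t : K, φ^[3] t = t := fun t => by rw [iter_frob hφ, ← hK, FiniteField.pow_card]
  have hcard : Nat.card Kˣ = q ^ 3 - 1 := by rw [Nat.card_units, Nat.card_eq_fintype_card, hK]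
  have hq3 : 8 ≤ q ^ 3 := by
    calc 8 = 2 ^ 3 := by norm_num
      _ ≤ q ^ 3 := Nat.pow_le_pow_left hq 3
  intro J hJ t ht
  simp only [blD4, List.mem_cons, List.not_mem_nil, or_false] at hJ
  rcases hJ with rfl | rfl
  · by_cases h2 : q = 2
    · have P0 := D4_long_two hq hK hφ hC h2
      have P1 := transport hD4 twS_D4 φ hC (M := [[1], [0, 2, 3]]) (by decide) (r := 23) (by decide) P0
      have e1 : wR chevD4 [[1], [0, 2, 3]].flatten 23 = chevD4.simple 1 := by decide +kernel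
      rw [e1] at P1
      have P2 := transport hD4 twS_D4 φ hC (M := [[1]]) (by decide) (r := chevD4.simple 1) (by decide) P1
      have e2 : wR chevD4 [[1]].flatten (chevD4.simple 1) = chevD4.neg (chevD4.simple 1) := by decide +kernel
      rw [e2] at P2
      constructor
      · show xG hD4 K (chevD4.simple 1) t * 1 ∈ C
        rw [mul_one]; exact P1 t ht
      · show xG hD4 K (chevD4.neg (chevD4.simple 1)) t * 1 ∈ C
        rw [mul_one]; exact P2 t ht
    · have hq' : 3 ≤ q := by omega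
      obtain ⟨l, hl⟩ := exists_pow_ne_one_of_isCyclic (G := Kˣ) (k := 1 + q + q * q) (by omega) (by
        rw [hcard]
        obtain ⟨m, rfl⟩ : ∃ m, q = m + 3 := ⟨q - 3, by omega⟩
        have : (m + 3) ^ 3 = (1 + (m + 3) + (m + 3) * (m + 3)) + 1 + ((m + 1) * (1 + (m + 3) + (m + 3) * (m + 3))) := by
          ring
        have h3 : 0 < (m + 1) * (1 + (m + 3) + (m + 3) * (m + 3)) := by positivity
        omega)
      refine torus_step hD4 twS_D4 φ hC (by decide) (c := cD4 φ 1 l) (tG_cD4_mem φ hφ3 (map_one _) l).2 ?_ ht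
      show chi chevD4 _ (chevD4.simple 1) ≠ 1
      rw [(chi_D4 _).2.1]
      show l⁻¹ * (1 : Kˣ) ^ 2 * (fu φ l)⁻¹ * (fu φ (fu φ l))⁻¹ ≠ 1
      rw [fu_eq_pow hφ, fu_eq_pow hφ, one_pow, mul_one, ← mul_inv, ← mul_inv, ← pow_mul]
      intro h
      apply hl
      rw [pow_add, pow_add, pow_one]
      exact inv_eq_one.mp h
  · obtain ⟨l, hl⟩ := exists_pow_ne_one_of_isCyclic (G := Kˣ) (k := 2) (by norm_num) (by rw [hcard]; omega)
    refine torus_step hD4 twS_D4 φ hC (by decide) (c := cD4 φ 1 l) (tG_cD4_mem φ hφ3 (map_one _) l).2 ?_ ht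
    show chi chevD4 _ (chevD4.simple 0) ≠ 1
    rw [(chi_D4 _).1]
    show l ^ 2 * (1 : Kˣ)⁻¹ ≠ 1
    rwa [inv_one, mul_one]

end

theorem perfect_D4 {K : Type*} [Field K] [Fintype K] {q : ℕ} (hq : 1 < q) (hK : Fintype.card K = q ^ 3)
    {φ : K →+* K} (hφ : ∀ t, φ t = t ^ q) : commutator ↥(twG hD4 φ blD4) = ⊤ :=
  perfect_of_le _ (perfect_of_blocks hD4 twS_D4 φ (derOK_commutator _)
    (D4_blocks hq hK hφ (derOK_commutator _)))

end Cfsg.Agent.Lib.Helper8
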