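import Cfsg.Agent.Lib.Helper8.Tw19

set_option autoImplicit false
set_option linter.unusedSectionVars false
set_option linter.unusedVariables false

namespace Cfsg.Agent.Lib.Helper8

open Cfsg Cfsg.Lie

/-! ### `²E₆(q)` is perfect -/

section
variable {K : Type*} [Field K] [Fintype K] {q : ℕ} (hq : 1 < q) (hK : Fintype.card K = q ^ 2)
  {φ : K →+* K} (hφ : ∀ t, φ t = t ^ q) {C : Subgroup (GL chevE6.Idx K)} (hC : DerOK (twG hE6 φ blE6) C)
include hq hK hφ

theorem exists_not_fixed : ∃ t : K, φ t ≠ t := by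
  by_contra h
  push Not at h
  have h1 := card_pow_fixed hq hK
  have h2 : Nat.card {t : K // t ^ q = t} = Nat.card K :=
    Nat.card_congr (Equiv.subtypeUnivEquiv (fun t => by rw [← hφ]; exact h t))
  rw [h1, Nat.card_eq_fintype_card, hK] at h2
  nlinarith

include hC

theorem E6_long_two (h2 : q = 2) : ∀ t : K, φ t = t → xG hE6 K 44 t ∈ C := by
  subst h2
  have hn := neg_one_of_frob hφ
  have hφ2 : ∀ t : K, φ^[2] t = t := fun t => by rw [iter_frob hφ, ← hK, FiniteField.pow_card]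
  obtain ⟨t0, ht0⟩ := exists_not_fixed hq hK hφ
  have hM1 : ∀ J ∈ [[3]], J ∈ blE6 := by decide
  have hx := xB_mem_twG hE6 φ blE6 (J := [2, 4]) (by decide) (iter_one φ 2)
  have mX := xB_mem_twG hE6 φ blE6 (J := [2, 4]) (by decide) (hφ2 t0)
  have n1 := nR_flatten_mem (K := K) hE6 φ blE6 blE6_ok hM1
  have eX : xB hE6 φ [2, 4] t0 = wG hE6 [(42, t0), (37, φ t0)] := rfl
  have eY : nR hE6 K [[3]].flatten * xB hE6 φ [2, 4] 1 * (nR hE6 K [[3]].flatten)⁻¹ =
      wG hE6 [(43, (1 : K)), (40, 1)] := by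
    have e : nR hE6 K [[3]].flatten * xB hE6 φ [2, 4] 1 * (nR hE6 K [[3]].flatten)⁻¹ =
        (nR hE6 K [[3]].flatten * xG hE6 K (chevE6.simple 2) 1 * (nR hE6 K [[3]].flatten)⁻¹) *
        ((nR hE6 K [[3]].flatten * xG hE6 K (chevE6.simple 4) (φ 1) * (nR hE6 K [[3]].flatten)⁻¹) * 1) := by
      show _ * (_ * (_ * 1)) * _ = _
      group
    rw [e, conj_nR_x_two hE6 hn _ (by decide) (by decide), conj_nR_x_two hE6 hn _ (by decide) (by decide), map_one]
    rfl
  rw [eX] at mX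
  have mY : wG hE6 [(43, (1 : K)), (40, 1)] ∈ twG hE6 φ blE6 := by
    rw [← eY]; exact mul_mem (mul_mem n1 hx) (inv_mem n1)
  have cB : ∀ r ∈ [43, 40], r < chevE6.nroots ∧ cenOK chevE6 44 r = true := by decide +kernel
  have cA : ∀ r ∈ [42, 37], r < chevE6.nroots ∧ cenOK chevE6 44 r = true ∧
      ∀ s ∈ [43, 40], pairOK chevE6 44 r s = true := by decide +kernel
  have hcw := comm_words (K := K) hE6 (θ := 44) (by decide) [(43, (1 : K)), (40, 1)]
    (by
      intro p hp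
      exact cB p.1 (List.mem_map_of_mem (f := Prod.fst) hp))
    [(42, t0), (37, φ t0)]
    (by
      intro a ha
      obtain ⟨c1, c2, c3⟩ := cA a.1 (List.mem_map_of_mem (f := Prod.fst) ha)
      exact ⟨c1, c2, fun p hp => c3 p.1 (List.mem_map_of_mem (f := Prod.fst) hp)⟩)
  have z1 : Nz chevE6 42 43 = 0 := by decide +kernel
  have z2 : Nz chevE6 42 40 = -1 := by decide +kernel
  have z3 : Nz chevE6 37 43 = 1 := by decide +kernel
  have z4 : Nz chevE6 37 40 = 0 := by decide +kernel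
  simp only [List.map_cons, List.map_nil, List.sum_cons, List.sum_nil, z1, z2, z3, z4] at hcw
  have h11 : (1 : K) + 1 = 0 := by linear_combination -hn
  have hfix : φ (φ t0 + t0) = φ t0 + t0 := by
    have := hφ2 t0
    rw [map_add]
    show φ (φ t0) + φ t0 = _
    have e : φ (φ t0) = t0 := this
    rw [e, add_comm]
  have hne : φ t0 + t0 ≠ 0 := by
    intro h
    apply ht0
    linear_combination h - t0 * h11
  have hs1 : φ t0 + t0 = 1 := by
    rcases fixed_two hφ hfix with h | h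
    · exact absurd h hne
    · exact h
  have hs : ((0 : ℤ) : K) * t0 * 1 + (((-1 : ℤ) : K) * t0 * 1 + 0) +
      (((1 : ℤ) : K) * φ t0 * 1 + (((0 : ℤ) : K) * φ t0 * 1 + 0) + 0) = 1 := by
    simp only [Int.cast_neg, Int.cast_one, Int.cast_zero, hn]
    linear_combination hs1
  rw [hs] at hcw
  have h1 := hC.comm _ (inv_mem mY) _ mX
  have e1 : (wG hE6 [(43, (1 : K)), (40, 1)])⁻¹ * wG hE6 [(42, t0), (37, φ t0)] *
      (wG hE6 [(43, (1 : K)), (40, 1)])⁻¹⁻¹ * (wG hE6 [(42, t0), (37, φ t0)])⁻¹ =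
      (wG hE6 [(43, (1 : K)), (40, 1)])⁻¹ * (wG hE6 [(42, t0), (37, φ t0)] *
      wG hE6 [(43, (1 : K)), (40, 1)] * (wG hE6 [(42, t0), (37, φ t0)])⁻¹) := by group
  rw [e1, hcw, inv_mul_cancel_left] at h1
  intro t ht
  rcases fixed_two hφ ht with rfl | rfl
  · rw [xG_zero]; exact one_mem _
  · exact h1

theorem tG_cE6_mem (hφ2 : ∀ t : K, φ^[2] t = t) {a b : Kˣ} (ha : fu φ a = a) (hb : fu φ b = b) (c d : Kˣ) :
    tG chevE6 (cE6 φ a b c d) ∈ twG hE6 φ blE6 := by
  have : tG chevE6 (cE6 φ a b c d) ∈ (thE6 φ).range := ⟨(⟨a, ha⟩, ⟨b, hb⟩, c, d), rfl⟩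
  rw [← diag_inf_twE6 φ hφ2] at this
  exact this.2

theorem E6_blocks : ∀ J ∈ blE6, ∀ t : K, φ^[J.length] t = t → xB hE6 φ J t ∈ C ∧ yB hE6 φ J t ∈ C := by
  have hφ2 : ∀ t : K, φ^[2] t = t := fun t => by rw [iter_frob hφ, ← hK, FiniteField.pow_card]
  have hcard : Nat.card Kˣ = q ^ 2 - 1 := by rw [Nat.card_units, Nat.card_eq_fintype_card, hK]
  have hq2 : 4 ≤ q ^ 2 := by
    calc 4 = 2 ^ 2 := by norm_num
      _ ≤ q ^ 2 := Nat.pow_le_pow_left hq 2
  obtain ⟨l1, hl1⟩ := exists_pow_ne_one_of_isCyclic (G := Kˣ) (k := 1) (by norm_num) (by rw [hcard]; omega)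
  rw [pow_one] at hl1
  have hmem := fun {a b : Kˣ} (ha : fu φ a = a) (hb : fu φ b = b) (c d : Kˣ) =>
    tG_cE6_mem hq hK hφ hC hφ2 ha hb c d
  -- the two singletons for q = 2
  have two : q = 2 → (∀ t : K, φ t = t → xG hE6 K (chevE6.simple 3) t ∈ C) ∧
      (∀ t : K, φ t = t → xG hE6 K (chevE6.neg (chevE6.simple 3)) t ∈ C) ∧
      (∀ t : K, φ t = t → xG hE6 K (chevE6.simple 1) t ∈ C) ∧
      (∀ t : K, φ t = t → xG hE6 K (chevE6.neg (chevE6.simple 1)) t ∈ C) := by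
    intro h2
    have P0 := E6_long_two hq hK hφ hC h2
    have P1 := transport hE6 twS_E6 φ hC (M := [[2, 4]]) (by decide) (r := 44) (by decide) P0
    have e1 : wR chevE6 [[2, 4]].flatten 44 = chevE6.simple 3 := by decide +kernel
    rw [e1] at P1
    have P2 := transport hE6 twS_E6 φ hC (M := [[3]]) (by decide) (r := chevE6.simple 3) (by decide) P1
    have e2 : wR chevE6 [[3]].flatten (chevE6.simple 3) = chevE6.neg (chevE6.simple 3) := by decide +kernel
    rw [e2] at P2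
    have P3 := transport hE6 twS_E6 φ hC (M := [[1], [3]]) (by decide) (r := chevE6.simple 3) (by decide) P1
    have e3 : wR chevE6 [[1], [3]].flatten (chevE6.simple 3) = chevE6.simple 1 := by decide +kernel
    rw [e3] at P3
    have P4 := transport hE6 twS_E6 φ hC (M := [[1]]) (by decide) (r := chevE6.simple 1) (by decide) P3
    have e4 : wR chevE6 [[1]].flatten (chevE6.simple 1) = chevE6.neg (chevE6.simple 1) := by decide +kernel
    rw [e4] at P4
    exact ⟨P1, P2, P3, P4⟩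
  -- a norm different from one for q > 2
  have big : q ≠ 2 → ∃ l : Kˣ, l ^ (q + 1) ≠ 1 := by
    intro h2
    apply exists_pow_ne_one_of_isCyclic (G := Kˣ) (by omega)
    rw [hcard]
    obtain ⟨m, rfl⟩ : ∃ m, q = m + 3 := ⟨q - 3, by omega⟩
    have : (m + 3) ^ 2 = (m + 3 + 1) + 1 + (m * m + 5 * m + 4) := by ring
    omega
  intro J hJ t ht
  simp only [blE6, List.mem_cons, List.not_mem_nil, or_false] at hJ
  rcases hJ with rfl | rfl | rfl | rfl
  · by_cases h2 : q = 2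
    · obtain ⟨-, -, P3, P4⟩ := two h2
      constructor
      · show xG hE6 K (chevE6.simple 1) t * 1 ∈ C
        rw [mul_one]; exact P3 t ht
      · show xG hE6 K (chevE6.neg (chevE6.simple 1)) t * 1 ∈ C
        rw [mul_one]; exact P4 t ht
    · obtain ⟨l, hl⟩ := big h2
      have hb : fu φ (l ^ (q + 1)) = l ^ (q + 1) := by
        rw [fu_eq_pow hφ, ← pow_mul]
        have h3 : l ^ (q ^ 2 - 1) = 1 := by rw [← hcard]; exact pow_card_eq_one'
        have h4 : (q + 1) * q = (q ^ 2 - 1) + (q + 1) := by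
          have : (q + 1) * q = q ^ 2 + q := by ring
          omega
        rw [h4, pow_add, h3, one_mul]
      refine torus_step hE6 twS_E6 φ hC (by decide) (c := cE6 φ 1 (l ^ (q + 1)) 1 1)
        (hmem (map_one _) hb 1 1) ?_ ht
      show chi chevE6 _ (chevE6.simple 1) ≠ 1
      rw [(chi_E6 _).2.1]
      show (1 : Kˣ) ^ 2 * (l ^ (q + 1))⁻¹ ≠ 1
      rw [one_pow, one_mul]
      exact fun h => hl (inv_eq_one.mp h)
  · by_cases h2 : q = 2
    · obtain ⟨P1, P2, -, -⟩ := two h2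
      constructor
      · show xG hE6 K (chevE6.simple 3) t * 1 ∈ C
        rw [mul_one]; exact P1 t ht
      · show xG hE6 K (chevE6.neg (chevE6.simple 3)) t * 1 ∈ C
        rw [mul_one]; exact P2 t ht
    · obtain ⟨l, hl⟩ := big h2
      refine torus_step hE6 twS_E6 φ hC (by decide) (c := cE6 φ 1 1 l 1)
        (hmem (map_one _) (map_one _) l 1) ?_ ht
      show chi chevE6 _ (chevE6.simple 3) ≠ 1
      rw [(chi_E6 _).2.2.2.1]
      show (1 : Kˣ)⁻¹ * l⁻¹ * (1 : Kˣ) ^ 2 * (fu φ l)⁻¹ ≠ 1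
      rw [fu_eq_pow hφ, inv_one, one_mul, one_pow, mul_one, ← mul_inv]
      intro h
      apply hl
      rw [pow_succ, mul_comm]
      exact inv_eq_one.mp h
  · refine torus_step hE6 twS_E6 φ hC (by decide) (c := cE6 φ 1 1 1 l1)
      (hmem (map_one _) (map_one _) 1 l1) ?_ ht
    show chi chevE6 _ (chevE6.simple 2) ≠ 1
    rw [(chi_E6 _).2.2.1]
    show l1⁻¹ * (1 : Kˣ) ^ 2 * (1 : Kˣ)⁻¹ ≠ 1
    rw [one_pow, inv_one, mul_one, mul_one]
    exact fun h => hl1 (inv_eq_one.mp h)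
  · refine torus_step hE6 twS_E6 φ hC (by decide) (c := cE6 φ 1 1 l1 1)
      (hmem (map_one _) (map_one _) l1 1) ?_ ht
    show chi chevE6 _ (chevE6.simple 0) ≠ 1
    rw [(chi_E6 _).1]
    show (1 : Kˣ) ^ 2 * l1⁻¹ ≠ 1
    rw [one_pow, one_mul]
    exact fun h => hl1 (inv_eq_one.mp h)

end

theorem perfect_E6 {K : Type*} [Field K] [Fintype K] {q : ℕ} (hq : 1 < q) (hK : Fintype.card K = q ^ 2)
    {φ : K →+* K} (hφ : ∀ t, φ t = t ^ q) : commutator ↥(twG hE6 φ blE6) = ⊤ :=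
  perfect_of_le _ (perfect_of_blocks hE6 twS_E6 φ (derOK_commutator _)
    (E6_blocks hq hK hφ (derOK_commutator _)))

end Cfsg.Agent.Lib.Helper8
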