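import Cfsg.Agent.Lib.Helper8.Tw20
import Cfsg.Agent.Lib.Helper8.Simple

set_option autoImplicit false
set_option linter.unusedSectionVars false
set_option linter.unusedVariables false
set_option linter.style.haveILetI false

namespace Cfsg.Agent.Lib.Helper8

open Cfsg Cfsg.Lie

/-- two blocks whose reflections do not commute -/
def adjB (D : ChevalleyDatum) (J J' : List ℕ) : Bool :=
  wR D J (wR D J' (wR D J (wR D J' (D.simple (J'.headD 0))))) != D.simple (J'.headD 0)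

section
variable {D : ChevalleyDatum} (hD : D ∈ allData) {tab tab' : List (ℕ × ℤ)} {r0 : List ℕ} {Bl M0 : List (List ℕ)}
  (S : TwS D tab tab' r0 Bl M0) {K : Type*} [Field K] (φ : K →+* K)
include hD S

theorem act_nR_block_inv {J : List ℕ} (hJ : J ∈ Bl) : Act hD (nR hD K J)⁻¹ (wR D J) := by
  have h1 : (nR hD K J * nR hD K J)⁻¹ ∈ D.diagonalSubgroup K :=
    inv_mem ((H1_ok hD S (RingHom.id K)).nR_sq hD S (RingHom.id K) hJ).1
  rw [diag_eq_torus hD] at h1
  obtain ⟨c, hc⟩ := h1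
  have a := (act_nR (F := K) hD J (S.bl J hJ).lt).mul (act_tG hD c)
  rw [hc] at a
  have e : nR hD K J * (nR hD K J * nR hD K J)⁻¹ = (nR hD K J)⁻¹ := by group
  rw [e] at a
  exact a

theorem comm_not_mem_block {J J' : List ℕ} (hJ : J ∈ Bl) (hJ' : J' ∈ Bl) (hadj : adjB D J J' = true) :
    nR hD K J * nR hD K J' * (nR hD K J)⁻¹ * (nR hD K J')⁻¹ ∉ D.borelSubgroup K := by
  intro h
  have m1 := nR_mem_mono (F := K) hD J (S.bl J hJ).lt
  have m2 := nR_mem_mono (F := K) hD J' (S.bl J' hJ').lt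
  have hN : nR hD K J * nR hD K J' * (nR hD K J)⁻¹ * (nR hD K J')⁻¹ ∈ D.monomialSubgroup K :=
    mul_mem (mul_mem (mul_mem m1 m2) (inv_mem m1)) (inv_mem m2)
  have h1 : nR hD K J * nR hD K J' * (nR hD K J)⁻¹ * (nR hD K J')⁻¹ ∈
      D.borelSubgroup K ⊓ D.monomialSubgroup K := ⟨h, hN⟩
  rw [borel_inf_mono hD, diag_eq_torus hD] at h1
  obtain ⟨c, hc⟩ := h1
  have a1 := (((act_nR (F := K) hD J (S.bl J hJ).lt).mul (act_nR hD J' (S.bl J' hJ').lt)).mul
    (act_nR_block_inv hD S hJ)).mul (act_nR_block_inv hD S hJ')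
  rw [← hc] at a1
  obtain ⟨j, J0, rfl⟩ := List.exists_cons_of_ne_nil (S.bl J' hJ').ne
  have h2 := a1.unique (act_tG hD c) _ (simple_lt hD ((S.bl _ hJ').lt j List.mem_cons_self))
  simp only [Function.comp, id] at h2
  simp only [adjB, List.headD_cons, bne_iff_ne, ne_eq] at hadj
  exact hadj h2

theorem bnPairTw_irreducible (hinj : ∀ J ∈ Bl, ∀ J' ∈ Bl,
      wR D J (D.simple (J.headD 0)) = wR D J' (D.simple (J.headD 0)) → J = J')
    (hchain : ∀ i, i + 1 < Bl.length → adjB D (Bl.getD i []) (Bl.getD (i + 1) []) = true) :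
    (bnPairTw hD S φ hinj).Irreducible := by
  intro A hA hne hne'
  by_contra hcon
  push Not at hcon
  let sG : ∀ J ∈ Bl, ↥(twG hD φ Bl) := fun J hJ => ⟨nR hD K J, nR_block_mem hD φ Bl S.bl hJ⟩
  have hS : ∀ J (hJ : J ∈ Bl), sG J hJ ∈ (bnPairTw hD S φ hinj).S := fun J hJ => ⟨J, hJ, rfl⟩
  have hS' : ∀ s ∈ (bnPairTw hD S φ hinj).S, ∃ J, ∃ hJ : J ∈ Bl, s = sG J hJ := by
    rintro s ⟨J, hJ, hs⟩
    exact ⟨J, hJ, Subtype.ext hs⟩
  have hadj : ∀ J (hJ : J ∈ Bl) J' (hJ' : J' ∈ Bl), adjB D J J' = true → (sG J hJ ∈ A ↔ sG J' hJ' ∈ A) := by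
    intro J hJ J' hJ' ha
    have hnot := comm_not_mem_block (K := K) hD S hJ hJ' ha
    by_cases h1 : sG J hJ ∈ A <;> by_cases h2 : sG J' hJ' ∈ A
    · exact ⟨fun _ => h2, fun _ => h1⟩
    · exact absurd (hcon (sG J hJ) h1 (sG J' hJ') ⟨hS J' hJ', h2⟩).1 hnot
    · exfalso
      have h3 : nR hD K J' * nR hD K J * (nR hD K J')⁻¹ * (nR hD K J)⁻¹ ∈ D.borelSubgroup K :=
        (hcon (sG J' hJ') h2 (sG J hJ) ⟨hS J hJ, h1⟩).1
      apply hnot
      have e : nR hD K J * nR hD K J' * (nR hD K J)⁻¹ * (nR hD K J')⁻¹ =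
          (nR hD K J' * nR hD K J * (nR hD K J')⁻¹ * (nR hD K J)⁻¹)⁻¹ := by group
      rw [e]
      exact inv_mem h3
    · exact ⟨fun h => absurd h h1, fun h => absurd h h2⟩
  have hall : ∀ i (hi : i < Bl.length) (h0 : 0 < Bl.length),
      (sG _ (getD_mem hi) ∈ A ↔ sG _ (getD_mem h0) ∈ A) := by
    intro i
    induction i with
    | zero => intro _ _; exact Iff.rfl
    | succ i ih =>
      intro hi h0
      rw [← ih (by omega) h0]
      exact (hadj _ (getD_mem (by omega)) _ (getD_mem hi) (hchain i hi)).symm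
  obtain ⟨s, hs⟩ := hne
  obtain ⟨s', hs', hs'A⟩ := hne'
  obtain ⟨J, hJ, rfl⟩ := hS' s (hA hs)
  obtain ⟨J', hJ', rfl⟩ := hS' s' hs'
  obtain ⟨i, hi, ei⟩ := List.mem_iff_getElem.mp hJ
  obtain ⟨i', hi', ei'⟩ := List.mem_iff_getElem.mp hJ'
  have h0 : 0 < Bl.length := by omega
  have e1 : Bl.getD i [] = J := by rw [List.getD_eq_getElem _ _ hi, ei]
  have e2 : Bl.getD i' [] = J' := by rw [List.getD_eq_getElem _ _ hi', ei']
  have k1 := hall i hi h0
  have k2 := hall i' hi' h0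
  simp only [e1] at k1
  simp only [e2] at k2
  exact hs'A (k2.mpr (k1.mp hs))

theorem twG_nontrivial (hne : Bl ≠ []) : Nontrivial ↥(twG hD φ Bl) := by
  obtain ⟨J, Bl', rfl⟩ := List.exists_cons_of_ne_nil hne
  have hJ : J ∈ J :: Bl' := List.mem_cons_self
  refine ⟨⟨⟨xB hD φ J 1, xB_mem_twG hD φ _ hJ (iter_one φ _)⟩, 1, ?_⟩⟩
  intro h
  have h1 : xB hD φ J 1 = 1 := congrArg Subtype.val h
  rw [← xB_zero hD φ J] at h1
  exact one_ne_zero (xB_inj hD φ (S.bl J hJ).toOrthL (S.bl J hJ).ne h1)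

theorem twG_simple (hne : Bl ≠ []) (hinj : ∀ J ∈ Bl, ∀ J' ∈ Bl,
      wR D J (D.simple (J.headD 0)) = wR D J' (D.simple (J.headD 0)) → J = J')
    (hchain : ∀ i, i + 1 < Bl.length → adjB D (Bl.getD i []) (Bl.getD (i + 1) []) = true)
    (hperf : commutator ↥(twG hD φ Bl) = ⊤) :
    IsSimpleGroup ↥(twG hD φ Bl) ∧ ¬ IsMulCommutative ↥(twG hD φ Bl) := by
  haveI := twG_nontrivial hD S φ hne
  constructor
  · refine Cfsg.Agent.S0319.result (bnPairTw hD S φ hinj) (bnPairTw_irreducible hD S φ hinj hchain) ?_ hperf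
      (borel_core_tw hD S φ)
    haveI := borel_solvable (F := K) hD
    have hle : D.borelSubgroup K ⊓ twG hD φ Bl ≤ D.borelSubgroup K := inf_le_left
    haveI : Group.IsSolvable ↥(D.borelSubgroup K ⊓ twG hD φ Bl) :=
      Group.isSolvable_of_isSolvable_injective (f := Subgroup.inclusion hle) (Subgroup.inclusion_injective hle)
    exact Group.isSolvable_of_isSolvable_injective
      (f := (Subgroup.subgroupOfEquivOfLe (inf_le_right : D.borelSubgroup K ⊓ twG hD φ Bl ≤ twG hD φ Bl)).toMonoidHom)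
      (Subgroup.subgroupOfEquivOfLe (inf_le_right : D.borelSubgroup K ⊓ twG hD φ Bl ≤ twG hD φ Bl)).injective
  · intro hc
    have h1 : commutator ↥(twG hD φ Bl) = ⊥ := by
      rw [commutator_def, Subgroup.commutator_eq_bot_iff_le_centralizer]
      intro x _
      rw [Subgroup.mem_centralizer_iff]
      intro y _
      exact hc.is_comm.comm y x
    rw [hperf] at h1
    exact top_ne_bot h1

end

end Cfsg.Agent.Lib.Helper8
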