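import Cfsg.Agent.Lib.Helper8.WordComb

set_option autoImplicit false

/-!
The weighted version of `WordComb`: the letters carry positive weights, and the length of a word is replaced by the
sum of the weights of its letters.
-/

namespace Cfsg.Agent.Lib.Helper8

section
variable {W : Type*} [Group W] (s : ℕ → W)

/-- the weight of a word -/
def wsum (wt : ℕ → ℕ) (L : List ℕ) : ℕ := (L.map wt).sum

theorem wsum_append (wt : ℕ → ℕ) (A B : List ℕ) : wsum wt (A ++ B) = wsum wt A + wsum wt B := by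
  simp [wsum]

theorem eq_nil_of_wsum {wt : ℕ → ℕ} {l : ℕ} (hw : ∀ i < l, 0 < wt i) {X : List ℕ} (hX : ∀ i ∈ X, i < l)
    (h : wsum wt X = 0) : X = [] := by
  cases X with
  | nil => rfl
  | cons a X =>
    exfalso
    have := hw a (hX a List.mem_cons_self)
    simp only [wsum, List.map_cons, List.sum_cons] at h
    omega

/-- the data of a chain of coset representatives -/
structure LevelsW (R : List ℕ → Prop) (wt : ℕ → ℕ) (l : ℕ) (Dk : ℕ → List (List ℕ)) : Prop where
  sq : ∀ p < l, s p * s p = 1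
  len : ∀ L L', R L → R L' → om s L = om s L' → wsum wt L = wsum wt L'
  wpos : ∀ i < l, 0 < wt i
  lt : ∀ k < l, ∀ B ∈ Dk k, ∀ i ∈ B, i < k + 1
  red : ∀ k < l, ∀ A, (∀ i ∈ A, i < k) → R A → ∀ B ∈ Dk k, R (A ++ B)
  nil : ∀ k < l, [] ∈ Dk k
  step : ∀ k < l, ∀ B ∈ Dk k, ∀ j < k + 1,
    (∃ B' ∈ Dk k, s j * om s B = om s B') ∨ (∃ i < k, s j * om s B = om s B * s i)
  inj : ∀ k < l, ∀ B ∈ Dk k, ∀ B' ∈ Dk k, om s B = om s B' → B = B'
  nodup : ∀ k < l, (Dk k).Nodup
  rnil : R []

variable {s}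

theorem LevelsW.uniq_aux {R : List ℕ → Prop} {wt : ℕ → ℕ} {l : ℕ} {Dk : ℕ → List (List ℕ)}
    (h : LevelsW s R wt l Dk) (k : ℕ) (hkl : k < l)
    (ih1 : ∀ t ∈ normalForms Dk k, R t ∧ ∀ i ∈ t, i < k)
    (ih2 : ∀ L : List ℕ, (∀ i ∈ L, i < k) → ∃ t ∈ normalForms Dk k, om s t = om s L)
    (ih3 : ∀ t ∈ normalForms Dk k, ∀ t' ∈ normalForms Dk k, om s t = om s t' → t = t') :
    ∀ A ∈ normalForms Dk k, ∀ A' ∈ normalForms Dk k, ∀ B ∈ Dk k, ∀ B' ∈ Dk k,
        om s B * om s A = om s B' * om s A' → A = A' ∧ B = B' := by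
  have hRB : ∀ B ∈ Dk k, R B := fun B hB => by
    have := h.red k hkl [] (by simp) h.rnil B hB
    simpa using this
  intro A hA A' hA' B hB B' hB' e
  have hAl : ∀ i ∈ A, i < l := fun i hi => lt_trans ((ih1 A hA).2 i hi) hkl
  have hAl' : ∀ i ∈ A', i < l := fun i hi => lt_trans ((ih1 A' hA').2 i hi) hkl
  obtain ⟨X, hX, eX⟩ := ih2 (A'.reverse ++ A) (by
    intro a ha
    rcases List.mem_append.mp ha with ha | ha
    · exact (ih1 A' hA').2 a (List.mem_reverse.mp ha)
    · exact (ih1 A hA).2 a ha)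
  obtain ⟨X', hX', eX'⟩ := ih2 (A.reverse ++ A') (by
    intro a ha
    rcases List.mem_append.mp ha with ha | ha
    · exact (ih1 A hA).2 a (List.mem_reverse.mp ha)
    · exact (ih1 A' hA').2 a ha)
  rw [om_append, om_reverse s h.sq A' hAl'] at eX
  rw [om_append, om_reverse s h.sq A hAl] at eX'
  have l1 := h.len (X ++ B) B' (h.red k hkl X (ih1 X hX).2 (ih1 X hX).1 B hB) (hRB B' hB') (by
    rw [om_append, eX, ← mul_assoc, e]; group)
  have l2 := h.len (X' ++ B') B (h.red k hkl X' (ih1 X' hX').2 (ih1 X' hX').1 B' hB') (hRB B hB) (by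
    rw [om_append, eX', ← mul_assoc, ← e]; group)
  rw [wsum_append] at l1 l2
  have hX0 : X = [] := eq_nil_of_wsum h.wpos (fun i hi => lt_trans ((ih1 X hX).2 i hi) hkl) (by omega)
  rw [hX0] at eX
  have eA : om s A = om s A' := by
    have : om s A * (om s A')⁻¹ = 1 := eX.symm
    exact mul_inv_eq_one.mp this
  refine ⟨ih3 A hA A' hA' eA, h.inj k hkl B hB B' hB' ?_⟩
  rw [eA] at e
  exact mul_right_cancel e

theorem LevelsW.main {R : List ℕ → Prop} {wt : ℕ → ℕ} {l : ℕ} {Dk : ℕ → List (List ℕ)}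
    (h : LevelsW s R wt l Dk) (k : ℕ) (hk : k ≤ l) :
    (∀ t ∈ normalForms Dk k, R t ∧ ∀ i ∈ t, i < k) ∧
    (∀ L : List ℕ, (∀ i ∈ L, i < k) → ∃ t ∈ normalForms Dk k, om s t = om s L) ∧
    (∀ t ∈ normalForms Dk k, ∀ t' ∈ normalForms Dk k, om s t = om s t' → t = t') := by
  induction k with
  | zero =>
    refine ⟨?_, ?_, ?_⟩
    · intro t ht
      simp only [normalForms, Finset.mem_singleton] at ht
      subst ht
      exact ⟨h.rnil, by simp⟩
    · intro L hL
      cases L with
      | nil => exact ⟨[], by simp [normalForms], rfl⟩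
      | cons p L => exact absurd (hL p List.mem_cons_self) (Nat.not_lt_zero _)
    · intro t ht t' ht' _
      simp only [normalForms, Finset.mem_singleton] at ht ht'
      rw [ht, ht']
  | succ k ih =>
    have hkl : k < l := hk
    obtain ⟨ih1, ih2, ih3⟩ := ih (Nat.le_of_lt hkl)
    have hcov : ∀ L : List ℕ, (∀ i ∈ L, i < k + 1) →
        ∃ A ∈ normalForms Dk k, ∃ B ∈ Dk k, om s B * om s A = om s L := by
      intro L
      induction L using List.reverseRecOn with
      | nil =>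
        intro _
        obtain ⟨A, hA, e⟩ := ih2 [] (by simp)
        exact ⟨A, hA, [], h.nil k hkl, by rw [e]; simp [om]⟩
      | append_singleton L j ihL =>
        intro hL
        obtain ⟨A, hA, B, hB, e⟩ := ihL (fun i hi => hL i (by simp [hi]))
        have hj : j < k + 1 := hL j (by simp)
        rw [om_append, om_singleton, ← e, ← mul_assoc]
        rcases h.step k hkl B hB j hj with ⟨B', hB', e'⟩ | ⟨i, hi, e'⟩
        · exact ⟨A, hA, B', hB', by rw [e']⟩
        · obtain ⟨A', hA', e2⟩ := ih2 (A ++ [i]) (by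
            intro a ha
            rcases List.mem_append.mp ha with ha | ha
            · exact (ih1 A hA).2 a ha
            · simp only [List.mem_singleton] at ha; omega)
          refine ⟨A', hA', B, hB, ?_⟩
          rw [e2, om_append, om_singleton, e', mul_assoc]
    have huniq := h.uniq_aux k hkl ih1 ih2 ih3
    refine ⟨?_, ?_, ?_⟩
    · intro t ht
      obtain ⟨A, hA, B, hB, rfl⟩ := mem_normalForms_succ.mp ht
      refine ⟨h.red k hkl A (ih1 A hA).2 (ih1 A hA).1 B hB, ?_⟩
      intro i hi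
      rcases List.mem_append.mp hi with hi | hi
      · exact Nat.lt_succ_of_lt ((ih1 A hA).2 i hi)
      · exact h.lt k hkl B hB i hi
    · intro L hL
      obtain ⟨A, hA, B, hB, e⟩ := hcov L hL
      exact ⟨A ++ B, mem_normalForms_succ.mpr ⟨A, hA, B, hB, rfl⟩, by rw [om_append, e]⟩
    · intro t ht t' ht' e
      obtain ⟨A, hA, B, hB, rfl⟩ := mem_normalForms_succ.mp ht
      obtain ⟨A', hA', B', hB', rfl⟩ := mem_normalForms_succ.mp ht'
      rw [om_append, om_append] at e
      obtain ⟨rfl, rfl⟩ := huniq A hA A' hA' B hB B' hB' e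
      rfl

theorem LevelsW.sum {R : List ℕ → Prop} {wt : ℕ → ℕ} {l : ℕ} {Dk : ℕ → List (List ℕ)}
    (h : LevelsW s R wt l Dk) (x : ℕ) (k : ℕ) (hk : k ≤ l) :
    ∑ t ∈ normalForms Dk k, x ^ wsum wt t =
      ∏ m ∈ Finset.range k, ((Dk m).map (fun B => x ^ wsum wt B)).sum := by
  induction k with
  | zero => simp [normalForms, wsum]
  | succ k ih =>
    have hkl : k < l := hk
    obtain ⟨ih1, ih2, ih3⟩ := h.main k (Nat.le_of_lt hkl)
    rw [Finset.prod_range_succ, ← ih (Nat.le_of_lt hkl)]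
    show ∑ t ∈ ((normalForms Dk k) ×ˢ (Dk k).toFinset).image (fun p => p.1 ++ p.2), x ^ wsum wt t = _
    rw [Finset.sum_image, Finset.sum_product, ← List.sum_toFinset _ (h.nodup k hkl), Finset.sum_mul_sum]
    · apply Finset.sum_congr rfl
      intro A _
      apply Finset.sum_congr rfl
      intro B _
      rw [wsum_append, pow_add]
    · rintro ⟨A, B⟩ hAB ⟨A', B'⟩ hAB' e
      simp only [Finset.coe_product, Set.mem_prod, Finset.mem_coe, List.mem_toFinset] at hAB hAB'
      simp only at e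
      have e1 : om s B * om s A = om s B' * om s A' := by rw [← om_append, ← om_append, e]
      obtain ⟨rfl, rfl⟩ := h.uniq_aux k hkl ih1 ih2 ih3 A hAB.1 A' hAB'.1 B hAB.2 B' hAB'.2 e1
      rfl

end

end Cfsg.Agent.Lib.Helper8
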