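import Cfsg.Agent.Lib.Helper8.Tw7
import Cfsg.Agent.Lib.Helper8.WordCombW

set_option autoImplicit false
set_option linter.unusedSectionVars false
set_option linter.unusedVariables false

namespace Cfsg.Agent.Lib.Helper8

open Cfsg Cfsg.Lie

/-- the word in the fundamental reflections of a word in the blocks -/
def exB (Bl : List (List ℕ)) (L : List ℕ) : List (List ℕ) := L.map (fun b => Bl.getD b [])

/-- all the checks for the levels of the fixed-point subgroup of the Weyl group -/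
structure LevWOK (D : ChevalleyDatum) (nrow : ℕ → ℕ) (Bl : List (List ℕ)) (lev : ℕ → List (List ℕ))
    (mask : ℕ → ℕ) : Prop where
  sq : ∀ b < Bl.length, keyL D nrow (Bl.getD b [] ++ Bl.getD b []) = keyL D nrow []
  m1 : ∀ k < Bl.length, ∀ b < k, ∀ p ∈ Bl.getD b [], Nat.testBit (mask k) (D.simple p) = true
  m2 : ∀ k < Bl.length, ∀ b < k, ∀ i ∈ Bl.getD b [], ∀ s < D.nroots, Nat.testBit (mask k) s = true →
    Nat.testBit (mask k) (w9 (nrow i) s) = true
  lt : ∀ k < Bl.length, ∀ B ∈ lev k, ∀ i ∈ B, i < k + 1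
  red : ∀ k < Bl.length, ∀ B ∈ lev k, chkRed D nrow (exB Bl B).flatten = true
  pos : ∀ k < Bl.length, ∀ B ∈ lev k, ∀ s < D.nroots, Nat.testBit (mask k) s = true → D.nroots / 2 ≤ s →
    D.nroots / 2 ≤ wR9 nrow (exB Bl B).flatten s
  nil : ∀ k < Bl.length, [] ∈ lev k
  nodup : ∀ k < Bl.length, ((lev k).map (fun B => keyL D nrow (exB Bl B).flatten)).Nodup
  step : ∀ k < Bl.length, ∀ B ∈ lev k, ∀ j < k + 1,
    (∃ B' ∈ lev k, keyL D nrow ((exB Bl B).flatten ++ Bl.getD j []) = keyL D nrow (exB Bl B').flatten) ∨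
    (∃ i < k, keyL D nrow ((exB Bl B).flatten ++ Bl.getD j []) = keyL D nrow (Bl.getD i [] ++ (exB Bl B).flatten))

section
variable {D : ChevalleyDatum} (hD : D ∈ allData)
include hD

theorem mask_wR' {P : ℕ → Prop} {M : ℕ} (hP : ∀ p, P p → p < D.rank)
    (hm2 : ∀ i, P i → ∀ s < D.nroots, Nat.testBit M s = true → Nat.testBit M (D.reflectRoot i s) = true)
    (A : List ℕ) (hA : ∀ i ∈ A, P i) {s : ℕ} (hs : s < D.nroots) (h : Nat.testBit M s = true) :
    Nat.testBit M (wR D A s) = true := by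
  induction A generalizing s with
  | nil => exact h
  | cons p A ih =>
    have hp := hA p List.mem_cons_self
    exact ih (fun j hj => hA j (List.mem_cons_of_mem _ hj)) (reflect_lt hD (hP p hp) hs) (hm2 p hp s hs h)

theorem red_append' {P : ℕ → Prop} {M : ℕ} (hP : ∀ p, P p → p < D.rank)
    (hm1 : ∀ p, P p → Nat.testBit M (D.simple p) = true)
    (hm2 : ∀ i, P i → ∀ s < D.nroots, Nat.testBit M s = true → Nat.testBit M (D.reflectRoot i s) = true)
    {B : List ℕ} (hB : Red D B)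
    (hpos : ∀ s < D.nroots, Nat.testBit M s = true → D.IsPosRoot s → D.IsPosRoot (wR D B s))
    (A : List ℕ) (hA : ∀ i ∈ A, P i) (hR : Red D A) : Red D (A ++ B) := by
  induction A with
  | nil => exact hB
  | cons p A ih =>
    obtain ⟨hp, hp2, hr⟩ := hR
    have hA' : ∀ i ∈ A, P i := fun j hj => hA j (List.mem_cons_of_mem _ hj)
    refine ⟨hp, ?_, ih hA' hr⟩
    show D.IsPosRoot (wR D (A ++ B) (D.simple p))
    rw [wR_append]
    exact hpos _ hp2.1 (mask_wR' hD hP hm2 A hA' (simple_lt hD hp) (hm1 p (hA p List.mem_cons_self))) hp2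

theorem om_eq_of_key {L L' : List ℕ} (hL : ∀ i ∈ L, i < D.rank) (hL' : ∀ i ∈ L', i < D.rank)
    (e : keyL D (nrowOf D) L = keyL D (nrowOf D) L') : om (sP hD) L = om (sP hD) L' :=
  om_eq_of_simple hD hL hL' ((keyL_eq_iff hD hL hL').mp e)

theorem key_eq_of_om {L L' : List ℕ} (hL : ∀ i ∈ L, i < D.rank) (hL' : ∀ i ∈ L', i < D.rank)
    (e : om (sP hD) L = om (sP hD) L') : keyL D (nrowOf D) L = keyL D (nrowOf D) L' :=
  (keyL_eq_iff hD hL hL').mpr (fun i hi => (om_eq_iff hD hL hL').mp e _ (simple_lt hD hi))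

variable {Bl : List (List ℕ)} (hlt : ∀ J ∈ Bl, ∀ i ∈ J, i < D.rank) (hne : ∀ J ∈ Bl, J ≠ [])

omit hD in
theorem getD_mem {b : ℕ} (hb : b < Bl.length) : Bl.getD b [] ∈ Bl := by
  rw [List.getD_eq_getElem _ _ hb]
  exact List.getElem_mem hb

omit hD in
theorem exB_mem {L : List ℕ} (hL : ∀ i ∈ L, i < Bl.length) : ∀ J ∈ exB Bl L, J ∈ Bl := by
  intro J hJ
  obtain ⟨b, hb, rfl⟩ := List.mem_map.mp hJ
  exact getD_mem (hL b hb)

omit hD in
include hlt in
theorem exB_lt {L : List ℕ} (hL : ∀ i ∈ L, i < Bl.length) : ∀ i ∈ (exB Bl L).flatten, i < D.rank := by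
  intro i hi
  obtain ⟨J, hJ, hi⟩ := List.mem_flatten.mp hi
  exact hlt J (exB_mem hL J hJ) i hi

theorem om_exB (L : List ℕ) :
    om (fun b => om (sP hD) (Bl.getD b [])) L = om (sP hD) (exB Bl L).flatten := by
  induction L with
  | nil => rfl
  | cons b L ih =>
    show om (fun b => om (sP hD) (Bl.getD b [])) L * om (sP hD) (Bl.getD b []) = _
    rw [ih]
    show _ = om (sP hD) (Bl.getD b [] ++ (exB Bl L).flatten)
    rw [om_append]

omit hD in
theorem wsum_exB (L : List ℕ) : wsum (fun b => (Bl.getD b []).length) L = (exB Bl L).flatten.length := by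
  rw [List.length_flatten, exB, List.map_map]
  rfl

omit hD in
theorem exB_append (A B : List ℕ) : (exB Bl (A ++ B)).flatten = (exB Bl A).flatten ++ (exB Bl B).flatten := by
  simp [exB]

include hlt hne in
theorem levelsW_of_ok {lev : ℕ → List (List ℕ)} {mask : ℕ → ℕ} (h : LevWOK D (nrowOf D) Bl lev mask) :
    LevelsW (fun b => om (sP hD) (Bl.getD b [])) (fun L => (∀ i ∈ L, i < Bl.length) ∧ Red D (exB Bl L).flatten)
      (fun b => (Bl.getD b []).length) Bl.length lev := by
  have hb : ∀ b < Bl.length, ∀ i ∈ Bl.getD b [], i < D.rank := fun b hb => hlt _ (getD_mem hb)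
  have hBlt : ∀ k < Bl.length, ∀ B ∈ lev k, ∀ i ∈ B, i < Bl.length := fun k hk B hB i hi => by
    have := h.lt k hk B hB i hi
    omega
  have app_lt : ∀ {X Y : List ℕ}, (∀ i ∈ X, i < D.rank) → (∀ i ∈ Y, i < D.rank) → ∀ i ∈ X ++ Y, i < D.rank := by
    intro X Y hX hY i hi
    rcases List.mem_append.mp hi with hi | hi
    · exact hX i hi
    · exact hY i hi
  refine ⟨?_, ?_, ?_, h.lt, ?_, h.nil, ?_, ?_, ?_, ⟨by simp, trivial⟩⟩
  · intro b hbl
    show om (sP hD) (Bl.getD b []) * om (sP hD) (Bl.getD b []) = 1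
    rw [← om_append]
    exact om_eq_of_key hD (app_lt (hb b hbl) (hb b hbl)) (by simp) (h.sq b hbl)
  · intro L L' hL hL' e
    rw [om_exB, om_exB] at e
    rw [wsum_exB, wsum_exB]
    exact red_length_eq hD hL.2 hL'.2 e
  · intro b hbl
    exact List.length_pos_iff.mpr (hne _ (getD_mem hbl))
  · intro k hk A hA hR B hB
    refine ⟨?_, ?_⟩
    · intro i hi
      rcases List.mem_append.mp hi with hi | hi
      · exact hR.1 i hi
      · exact hBlt k hk B hB i hi
    · rw [exB_append]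
      have hBr := chkRed_spec hD (h.red k hk B hB)
      apply red_append' hD (P := fun p => ∃ b < k, p ∈ Bl.getD b []) (M := mask k)
        (fun p ⟨b, hbk, hp⟩ => hb b (lt_trans hbk hk) p hp)
        (fun p ⟨b, hbk, hp⟩ => h.m1 k hk b hbk p hp)
        (fun i ⟨b, hbk, hi⟩ s hs hm => by
          rw [← w9_eq hD (hb b (lt_trans hbk hk) i hi) hs]
          exact h.m2 k hk b hbk i hi s hs hm) hBr ?_ _ ?_ hR.2
      · intro s hs hm hpos
        rw [isPos_iff hD] at hpos ⊢
        refine ⟨?_, wR_lt hD _ hBr.lt hs⟩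
        rw [← wR9_eq hD _ hBr.lt hs]
        exact h.pos k hk B hB s hs hm hpos.1
      · intro i hi
        obtain ⟨J, hJ, hi⟩ := List.mem_flatten.mp hi
        obtain ⟨b, hbA, rfl⟩ := List.mem_map.mp hJ
        exact ⟨b, hA b hbA, hi⟩
  · intro k hk B hB j hj
    have hjl : j < Bl.length := by omega
    have hBl' := exB_lt hlt (hBlt k hk B hB)
    have e0 : om (sP hD) (Bl.getD j []) * om (fun b => om (sP hD) (Bl.getD b [])) B =
        om (sP hD) ((exB Bl B).flatten ++ Bl.getD j []) := by rw [om_exB, om_append]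
    rcases h.step k hk B hB j hj with ⟨B', hB', e⟩ | ⟨i, hi, e⟩
    · left
      refine ⟨B', hB', ?_⟩
      show om (sP hD) (Bl.getD j []) * _ = _
      rw [e0, om_exB]
      exact om_eq_of_key hD (app_lt hBl' (hb j hjl)) (exB_lt hlt (hBlt k hk B' hB')) e
    · right
      refine ⟨i, hi, ?_⟩
      show om (sP hD) (Bl.getD j []) * _ = _ * om (sP hD) (Bl.getD i [])
      rw [e0, om_exB, ← om_append]
      exact om_eq_of_key hD (app_lt hBl' (hb j hjl)) (app_lt (hb i (lt_trans hi hk)) hBl') e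
  · intro k hk B hB B' hB' e
    rw [om_exB, om_exB] at e
    exact List.inj_on_of_nodup_map (h.nodup k hk) hB hB'
      (key_eq_of_om hD (exB_lt hlt (hBlt k hk B hB)) (exB_lt hlt (hBlt k hk B' hB')) e)
  · intro k hk
    exact (h.nodup k hk).of_map _

end

end Cfsg.Agent.Lib.Helper8
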