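import Cfsg.Agent.Lib.Helper8.Tw8
import Cfsg.Agent.Lib.Helper8.Tw5

set_option autoImplicit false
set_option linter.unusedSectionVars false
set_option linter.unusedVariables false

namespace Cfsg.Agent.Lib.Helper8

open Cfsg Cfsg.Lie

section
variable {D : ChevalleyDatum} (hD : D ∈ allData) {tab tab' : List (ℕ × ℤ)} {r0 : List ℕ} {Bl M0 : List (List ℕ)}
  (S : TwS D tab tab' r0 Bl M0) {K : Type*} [Field K] (φ : K →+* K)
include hD S

omit hD S in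
theorem exists_exB : ∀ (M : List (List ℕ)), (∀ J ∈ M, J ∈ Bl) → ∃ L : List ℕ, (∀ i ∈ L, i < Bl.length) ∧ exB Bl L = M
  | [], _ => ⟨[], by simp, rfl⟩
  | J :: M, h => by
    obtain ⟨L, hL, e⟩ := exists_exB M (fun A hA => h A (List.mem_cons_of_mem _ hA))
    obtain ⟨b, hb, e2⟩ := List.mem_iff_getElem.mp (h J List.mem_cons_self)
    refine ⟨b :: L, ?_, ?_⟩
    · intro i hi
      rcases List.mem_cons.mp hi with rfl | hi
      · exact hb
      · exact hL i hi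
    · show Bl.getD b [] :: exB Bl L = J :: M
      rw [e, List.getD_eq_getElem _ _ hb, e2]

/-- the order of the twisted group in terms of the order of `H¹` -/
theorem card_twG [Fintype K] {q : ℕ} (hq : ∀ J ∈ Bl, Nat.card {t : K // φ^[J.length] t = t} = q ^ J.length)
    {lev : ℕ → List (List ℕ)} {mask : ℕ → ℕ} (hlev : LevWOK D (nrowOf D) Bl lev mask) :
    Nat.card ↥(twG hD φ Bl) = q ^ M0.flatten.length * Nat.card ↥(D.diagonalSubgroup K ⊓ twG hD φ Bl) *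
      ∏ m ∈ Finset.range Bl.length, ((lev m).map (fun B => q ^ (exB Bl B).flatten.length)).sum := by
  have hL := levelsW_of_ok hD (fun J hJ => (S.bl J hJ).lt) (fun J hJ => (S.bl J hJ).ne) hlev
  obtain ⟨m1, m2, m3⟩ := hL.main Bl.length le_rfl
  have hinj : Set.InjOn (exB Bl) (normalForms lev Bl.length : Set (List ℕ)) := by
    intro t ht t' ht' e
    apply m3 t ht t' ht'
    rw [om_exB, om_exB, e]
  have hsum := hL.sum q Bl.length le_rfl
  simp only [wsum_exB] at hsum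
  rw [card_twG_of_reps hD S φ hq ((normalForms lev Bl.length).image (exB Bl)) ?_ ?_ ?_, Finset.sum_image hinj,
    hsum]
  · intro t ht
    obtain ⟨t0, ht0, rfl⟩ := Finset.mem_image.mp ht
    exact ⟨exB_mem (m1 t0 ht0).1.1, (m1 t0 ht0).1.2⟩
  · intro M hM
    obtain ⟨L, hL1, rfl⟩ := exists_exB M hM
    obtain ⟨t0, ht0, e⟩ := m2 L hL1
    refine ⟨exB Bl t0, Finset.mem_image_of_mem _ ht0, ?_⟩
    rw [← om_exB, ← om_exB, e]
  · intro t ht t' ht' e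
    obtain ⟨t0, ht0, rfl⟩ := Finset.mem_image.mp ht
    obtain ⟨t0', ht0', rfl⟩ := Finset.mem_image.mp ht'
    rw [← om_exB, ← om_exB] at e
    rw [m3 t0 ht0 t0' ht0' e]

end

/-! ### the data -/

def levTwE6 (k : ℕ) : List (List ℕ) :=
  [[[], [0]], [[], [1], [1, 0]], [[], [2], [2, 1], [2, 1, 0], [2, 1, 2], [2, 1, 0, 2], [2, 1, 0, 2, 1],
    [2, 1, 0, 2, 1, 2]], [[], [3], [3, 2], [3, 2, 1], [3, 2, 1, 0], [3, 2, 1, 2], [3, 2, 1, 0, 2], [3, 2, 1, 2, 3],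
    [3, 2, 1, 0, 2, 1], [3, 2, 1, 0, 2, 3], [3, 2, 1, 0, 2, 1, 2], [3, 2, 1, 0, 2, 1, 3], [3, 2, 1, 0, 2, 1, 2, 3],
    [3, 2, 1, 0, 2, 1, 3, 2], [3, 2, 1, 0, 2, 1, 2, 3, 2], [3, 2, 1, 0, 2, 1, 3, 2, 1],
    [3, 2, 1, 0, 2, 1, 2, 3, 2, 1], [3, 2, 1, 0, 2, 1, 3, 2, 1, 0], [3, 2, 1, 0, 2, 1, 2, 3, 2, 1, 0],
    [3, 2, 1, 0, 2, 1, 2, 3, 2, 1, 2], [3, 2, 1, 0, 2, 1, 2, 3, 2, 1, 0, 2], [3, 2, 1, 0, 2, 1, 2, 3, 2, 1, 0, 2, 1],
    [3, 2, 1, 0, 2, 1, 2, 3, 2, 1, 0, 2, 1, 2], [3, 2, 1, 0, 2, 1, 2, 3, 2, 1, 0, 2, 1, 2, 3]]].getD k []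

def maskTwE6 (k : ℕ) : ℕ := [0, 70368777732096, 211660333645824, 12910077840457728].getD k 0

def levTwD4 (k : ℕ) : List (List ℕ) :=
  [[[], [0]], [[], [1], [1, 0], [1, 0, 1], [1, 0, 1, 0], [1, 0, 1, 0, 1]]].getD k []

def maskTwD4 (k : ℕ) : ℕ := [0, 16896].getD k 0

theorem levWOK_D4 : LevWOK chevD4 (nrowOf chevD4) blD4 levTwD4 maskTwD4 :=
  ⟨by decide +kernel, by decide +kernel, by decide +kernel, by decide +kernel, by decide +kernel,
    by decide +kernel, by decide +kernel, by decide +kernel, by decide +kernel⟩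

theorem levWOK_E6 : LevWOK chevE6 (nrowOf chevE6) blE6 levTwE6 maskTwE6 :=
  ⟨by decide +kernel, by decide +kernel, by decide +kernel, by decide +kernel, by decide +kernel,
    by decide +kernel, by decide +kernel, by decide +kernel, by decide +kernel⟩

theorem twS_E6 : TwS chevE6 gTabE6 gInvE6 [5, 1, 4, 3, 2, 0] blE6 w0BlE6 :=
  ⟨twOK_E6, blE6_ok, by decide +kernel, by decide +kernel, w0BlE6_mem, w0BlE6_red, w0BlE6_chk⟩

theorem twS_D4 : TwS chevD4 gTabD4a gInvD4a [2, 1, 3, 0] blD4 w0BlD4 :=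
  ⟨twOK_D4, blD4_ok, by decide +kernel, by decide +kernel, w0BlD4_mem, w0BlD4_red, w0BlD4_chk⟩

end Cfsg.Agent.Lib.Helper8
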