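import Cfsg.Agent.Lib.Helper8.Tw10

set_option autoImplicit false
set_option linter.unusedSectionVars false
set_option linter.unusedVariables false

namespace Cfsg.Agent.Lib.Helper8

open Cfsg Cfsg.Lie

theorem cartan_D4_tab : ∀ i < 4, ∀ k < 4, chevD4.cartan k (chevD4.simple i) =
    (([[2, -1, 0, 0], [-1, 2, -1, -1], [0, -1, 2, 0], [0, -1, 0, 2]] : List (List ℤ)).getD i []).getD k 0 := by
  decide +kernel

theorem chi_D4 {K : Type*} [Field K] (c : ℕ → Kˣ) :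
    chi chevD4 c (chevD4.simple 0) = c 0 ^ 2 * (c 1)⁻¹ ∧
    chi chevD4 c (chevD4.simple 1) = (c 0)⁻¹ * c 1 ^ 2 * (c 2)⁻¹ * (c 3)⁻¹ ∧
    chi chevD4 c (chevD4.simple 2) = (c 1)⁻¹ * c 2 ^ 2 ∧
    chi chevD4 c (chevD4.simple 3) = (c 1)⁻¹ * c 3 ^ 2 := by
  have hr : chevD4.rank = 4 := rfl
  unfold chi
  rw [hr]
  simp only [Finset.prod_range_succ, Finset.prod_range_zero]
  rw [cartan_D4_tab 0 (by norm_num) 0 (by norm_num), cartan_D4_tab 0 (by norm_num) 1 (by norm_num),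
    cartan_D4_tab 0 (by norm_num) 2 (by norm_num), cartan_D4_tab 0 (by norm_num) 3 (by norm_num),
    cartan_D4_tab 1 (by norm_num) 0 (by norm_num), cartan_D4_tab 1 (by norm_num) 1 (by norm_num),
    cartan_D4_tab 1 (by norm_num) 2 (by norm_num), cartan_D4_tab 1 (by norm_num) 3 (by norm_num),
    cartan_D4_tab 2 (by norm_num) 0 (by norm_num), cartan_D4_tab 2 (by norm_num) 1 (by norm_num),
    cartan_D4_tab 2 (by norm_num) 2 (by norm_num), cartan_D4_tab 2 (by norm_num) 3 (by norm_num),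
    cartan_D4_tab 3 (by norm_num) 0 (by norm_num), cartan_D4_tab 3 (by norm_num) 1 (by norm_num),
    cartan_D4_tab 3 (by norm_num) 2 (by norm_num), cartan_D4_tab 3 (by norm_num) 3 (by norm_num)]
  simp [zpow_ofNat]

section
variable {K : Type*} [Field K] (φ : K →+* K)

/-- `φ` on the units -/
noncomputable abbrev fu : Kˣ →* Kˣ := Units.map (φ : K →* K)

theorem fu_of_sq {z : Kˣ} (h : z ^ 2 = 1) : fu φ z = z := by
  have h1 : (z : K) * (z : K) = 1 := by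
    rw [← Units.val_mul, ← pow_two, h]; rfl
  apply Units.ext
  show φ (z : K) = z
  rcases mul_self_eq_one_iff.mp h1 with e | e
  · rw [e, map_one]
  · rw [e, map_neg, map_one]

omit φ in
theorem ker_D4 {z : ℕ → Kˣ} (h : tG chevD4 z = 1) :
    z 1 = 1 ∧ z 0 ^ 2 = 1 ∧ z 2 ^ 2 = 1 ∧ z 3 ^ 2 = 1 ∧ z 0 * z 2 * z 3 = 1 := by
  obtain ⟨e0, e1, e2, e3⟩ := chi_D4 z
  rw [chi_eq_one_of_tG hD4 h (simple_lt hD4 (by decide))] at e0 e1 e2 e3
  have a0 : z 0 ^ 2 = z 1 := by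
    rw [eq_mul_inv_iff_mul_eq, one_mul] at e0; exact e0.symm
  have a2 : z 2 ^ 2 = z 1 := by
    rw [eq_inv_mul_iff_mul_eq, mul_one] at e2; exact e2.symm
  have a3 : z 3 ^ 2 = z 1 := by
    rw [eq_inv_mul_iff_mul_eq, mul_one] at e3; exact e3.symm
  have a1 : z 1 ^ 2 = z 0 * z 2 * z 3 := by
    rw [eq_mul_inv_iff_mul_eq, eq_mul_inv_iff_mul_eq, eq_inv_mul_iff_mul_eq, one_mul] at e1
    rw [← e1]
    simp only [mul_comm, mul_assoc]
  have a4 : z 1 ^ 3 * z 1 = z 1 ^ 3 * 1 := by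
    calc z 1 ^ 3 * z 1 = (z 1 ^ 2) ^ 2 := by rw [← pow_succ, ← pow_mul]
      _ = z 0 ^ 2 * z 2 ^ 2 * z 3 ^ 2 := by rw [a1, mul_pow, mul_pow]
      _ = z 1 ^ 3 * 1 := by rw [a0, a2, a3, mul_one, pow_succ, pow_two]
  have a5 : z 1 = 1 := mul_left_cancel a4
  rw [a5] at a0 a2 a3 a1
  exact ⟨a5, a0, a2, a3, by rw [← a1, one_pow]⟩

omit φ in
theorem ker_D4_conv {z : ℕ → Kˣ} (h1 : z 1 = 1) (h0 : z 0 ^ 2 = 1) (h2 : z 2 ^ 2 = 1) (h3 : z 3 ^ 2 = 1)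
    (h4 : z 0 * z 2 * z 3 = 1) : tG chevD4 z = 1 := by
  apply tG_eq_one_of_chi hD4
  apply chi_eq_one_of_simple hD4
  obtain ⟨e0, e1, e2, e3⟩ := chi_D4 z
  intro i hi
  have hi' : i < 4 := hi
  interval_cases i
  · rw [e0, h0, h1]; simp
  · rw [e1, h1, one_pow, mul_one, ← mul_inv, ← mul_inv, h4, inv_one]
  · rw [e2, h2, h1]; simp
  · rw [e3, h3, h1]; simp

/-- the parameters of the fixed points of `σ` on the torus -/
noncomputable def cD4 (a b : Kˣ) : ℕ → Kˣ := fun i =>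
  match i with
  | 0 => b
  | 1 => a
  | 2 => fu φ b
  | 3 => fu φ (fu φ b)
  | _ => 1

theorem tG_cD4 (a b : Kˣ) :
    tG chevD4 (cD4 φ a b) = hB hD4 φ [1] (a : K) * hB hD4 φ [0, 2, 3] (b : K) := by
  have e1 : hB hD4 φ [1] (a : K) = tG chevD4 (Function.update (1 : ℕ → Kˣ) 1 a) := by
    rw [← hG_simple_eq_tG hD4 (by decide)]
    exact mul_one _
  have e2 : hB hD4 φ [0, 2, 3] (b : K) = tG chevD4 (Function.update (1 : ℕ → Kˣ) 0 b) *
      (tG chevD4 (Function.update (1 : ℕ → Kˣ) 2 (fu φ b)) *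
        tG chevD4 (Function.update (1 : ℕ → Kˣ) 3 (fu φ (fu φ b)))) := by
    rw [← hG_simple_eq_tG hD4 (by decide), ← hG_simple_eq_tG hD4 (by decide), ← hG_simple_eq_tG hD4 (by decide)]
    show _ * (_ * (_ * 1)) = _
    rw [mul_one]
    rfl
  rw [e1, e2, tG_mul, tG_mul, tG_mul]
  apply tG_congr
  intro i hi
  have hi' : i < 4 := hi
  interval_cases i <;> simp [cD4, Function.update]

theorem tG_cD4_mem (hφ3 : ∀ t : K, φ^[3] t = t) {a : Kˣ} (ha : fu φ a = a) (b : Kˣ) :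
    tG chevD4 (cD4 φ a b) ∈ chevD4.diagonalSubgroup K ⊓ twG hD4 φ blD4 := by
  refine ⟨by rw [diag_eq_torus hD4]; exact ⟨_, rfl⟩, ?_⟩
  rw [tG_cD4]
  refine mul_mem (hB_mem_twG hD4 φ blD4 blD4_ok (by simp [blD4]) ?_)
    (hB_mem_twG hD4 φ blD4 blD4_ok (by simp [blD4]) (hφ3 _))
  exact congrArg Units.val ha

theorem fixed_D4 {h : GL chevD4.Idx K} (hh : h ∈ chevD4.diagonalSubgroup K) (hfix : sig twOK_D4 φ h = h) :
    ∃ a b : Kˣ, fu φ a = a ∧ h = tG chevD4 (cD4 φ a b) := by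
  rw [diag_eq_torus hD4] at hh
  obtain ⟨c, rfl⟩ := hh
  rw [sig_tG hD4] at hfix
  have hz : tG chevD4 (twc twOK_D4 φ c * c⁻¹) = 1 := by
    rw [← tG_mul, hfix, ← tG_inv, mul_inv_cancel]
  obtain ⟨z1, z0, z2, z3, z4⟩ := ker_D4 hz
  have k0 : (twc twOK_D4 φ c * c⁻¹) 0 = fu φ (c 3) * (c 0)⁻¹ := rfl
  have k1 : (twc twOK_D4 φ c * c⁻¹) 1 = fu φ (c 1) * (c 1)⁻¹ := rfl
  have k2 : (twc twOK_D4 φ c * c⁻¹) 2 = fu φ (c 0) * (c 2)⁻¹ := rfl
  have k3 : (twc twOK_D4 φ c * c⁻¹) 3 = fu φ (c 2) * (c 3)⁻¹ := rfl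
  generalize (twc twOK_D4 φ c * c⁻¹) 0 = w0 at *
  generalize (twc twOK_D4 φ c * c⁻¹) 1 = w1 at *
  generalize (twc twOK_D4 φ c * c⁻¹) 2 = w2 at *
  generalize (twc twOK_D4 φ c * c⁻¹) 3 = w3 at *
  have m0 : fu φ (c 3) = w0 * c 0 := by rw [k0]; simp
  have m1 : fu φ (c 1) = c 1 := by rw [z1] at k1; rw [eq_mul_inv_iff_mul_eq, one_mul] at k1; exact k1.symm
  have m2 : fu φ (c 0) = w2 * c 2 := by rw [k2]; simp
  have m3 : fu φ (c 2) = w3 * c 3 := by rw [k3]; simp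
  have n0 : w0 = w2 * w3 := by
    calc w0 = w0 * 1 := (mul_one _).symm
      _ = w0 * (w0 * w2 * w3) := by rw [z4]
      _ = w0 ^ 2 * (w2 * w3) := by rw [pow_two]; simp only [mul_assoc]
      _ = w2 * w3 := by rw [z0, one_mul]
  have n2 : w2 = w3 * w0 := by
    rw [n0, mul_comm w2 w3, ← mul_assoc, ← pow_two, z3, one_mul]
  let y : ℕ → Kˣ := fun i => match i with
    | 0 => w3
    | 1 => 1
    | 2 => w0
    | 3 => w2
    | _ => 1
  have hy : tG chevD4 y = 1 := ker_D4_conv rfl z3 z0 z2 (by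
    show w3 * w0 * w2 = 1
    rw [← z4]; simp only [mul_comm, mul_left_comm])
  refine ⟨c 1, c 0 * w3, m1, ?_⟩
  have e1 : tG chevD4 c = tG chevD4 (c * y) := by rw [← tG_mul, hy, mul_one]
  rw [e1]
  apply tG_congr
  intro i hi
  have hi' : i < 4 := hi
  interval_cases i
  · rfl
  · exact mul_one _
  · show c 2 * w0 = fu φ (c 0 * w3)
    rw [map_mul, m2, fu_of_sq φ z3, n0]
    simp only [mul_comm, mul_left_comm, mul_assoc]
  · show c 3 * w2 = fu φ (fu φ (c 0 * w3))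
    rw [map_mul, m2, fu_of_sq φ z3, map_mul, map_mul, m3, fu_of_sq φ z3, fu_of_sq φ z2]
    calc c 3 * w2 = w2 * c 3 * 1 := by rw [mul_one, mul_comm]
      _ = w2 * c 3 * w3 ^ 2 := by rw [z3]
      _ = _ := by rw [pow_two]; simp only [mul_comm, mul_left_comm, mul_assoc]

theorem cD4_inj {a b a' b' : Kˣ} (e : tG chevD4 (cD4 φ a b) = tG chevD4 (cD4 φ a' b')) : a = a' ∧ b = b' := by
  have hz : tG chevD4 (cD4 φ a b * (cD4 φ a' b')⁻¹) = 1 := by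
    rw [← tG_mul, e, ← tG_inv, mul_inv_cancel]
  obtain ⟨z1, z0, -, -, z4⟩ := ker_D4 hz
  have k1 : a * a'⁻¹ = 1 := z1
  have k0 : (b * b'⁻¹) ^ 2 = 1 := z0
  have k4 : (b * b'⁻¹) * (fu φ b * (fu φ b')⁻¹) * (fu φ (fu φ b) * (fu φ (fu φ b'))⁻¹) = 1 := z4
  rw [← map_inv, ← map_inv, ← map_inv, ← map_mul, ← map_mul, ← map_mul, fu_of_sq φ k0, fu_of_sq φ k0, ← pow_two, k0,
    one_mul] at k4
  exact ⟨mul_inv_eq_one.mp k1, mul_inv_eq_one.mp k4⟩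

end

theorem card_fu_fixed {K : Type*} [Field K] [Fintype K] {q d : ℕ} (hq : 1 < q) (hK : Fintype.card K = q ^ d)
    {φ : K →+* K} (hφ : ∀ t, φ t = t ^ q) : Nat.card {a : Kˣ // fu φ a = a} = q - 1 := by
  rw [← card_units_pow_fixed hq hK]
  apply Nat.card_congr
  apply Equiv.subtypeEquivRight
  intro a
  rw [MonoidHom.mem_ker]
  show _ ↔ a ^ (q - 1) = 1
  have h1 : fu φ a = a ^ (q - 1) * a := by
    apply Units.ext
    show φ (a : K) = _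
    rw [hφ, ← pow_succ, Nat.sub_add_cancel hq.le, Units.val_pow_eq_pow_val]
  rw [h1]
  exact mul_eq_right

theorem card_H_D4 {K : Type*} [Field K] [Fintype K] {q : ℕ} (hq : 1 < q) (hK : Fintype.card K = q ^ 3)
    {φ : K →+* K} (hφ : ∀ t, φ t = t ^ q) :
    Nat.card ↥(chevD4.diagonalSubgroup K ⊓ twG hD4 φ blD4) = (q - 1) * (q ^ 3 - 1) := by
  have hφ3 : ∀ t : K, φ^[3] t = t := fun t => by rw [iter_frob hφ, ← hK, FiniteField.pow_card]
  have key : Function.Bijective (fun x : {a : Kˣ // fu φ a = a} × Kˣ =>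
      (⟨tG chevD4 (cD4 φ x.1.1 x.2), tG_cD4_mem φ hφ3 x.1.2 x.2⟩ :
        ↥(chevD4.diagonalSubgroup K ⊓ twG hD4 φ blD4))) := by
    constructor
    · rintro ⟨⟨a, ha⟩, b⟩ ⟨⟨a', ha'⟩, b'⟩ e
      obtain ⟨rfl, rfl⟩ := cD4_inj φ (congrArg Subtype.val e)
      rfl
    · rintro ⟨h, hh1, hh2⟩
      obtain ⟨a, b, ha, rfl⟩ := fixed_D4 φ hh1 (twG_le_fixS hD4 twOK_D4 φ blD4 blD4_ok hh2)
      exact ⟨⟨⟨a, ha⟩, b⟩, rfl⟩
  rw [← Nat.card_congr (Equiv.ofBijective _ key), Nat.card_prod, card_fu_fixed hq hK hφ, Nat.card_units,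
    Nat.card_eq_fintype_card, hK]

end Cfsg.Agent.Lib.Helper8
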