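import Cfsg.Agent.Lib.Helper8.Tw16
import Cfsg.Agent.Lib.Helper8.TwD4

set_option autoImplicit false
set_option linter.unusedSectionVars false
set_option linter.unusedVariables false

namespace Cfsg.Agent.Lib.Helper8

open Cfsg Cfsg.Lie

theorem cartan_E6_tab : ∀ i < 6, ∀ k < 6, chevE6.cartan k (chevE6.simple i) =
    (([[2, 0, -1, 0, 0, 0], [0, 2, 0, -1, 0, 0], [-1, 0, 2, -1, 0, 0], [0, -1, -1, 2, -1, 0], [0, 0, 0, -1, 2, -1],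
      [0, 0, 0, 0, -1, 2]] : List (List ℤ)).getD i []).getD k 0 := by
  decide +kernel

theorem chi_E6 {K : Type*} [Field K] (c : ℕ → Kˣ) :
    chi chevE6 c (chevE6.simple 0) = c 0 ^ 2 * (c 2)⁻¹ ∧
    chi chevE6 c (chevE6.simple 1) = c 1 ^ 2 * (c 3)⁻¹ ∧
    chi chevE6 c (chevE6.simple 2) = (c 0)⁻¹ * c 2 ^ 2 * (c 3)⁻¹ ∧
    chi chevE6 c (chevE6.simple 3) = (c 1)⁻¹ * (c 2)⁻¹ * c 3 ^ 2 * (c 4)⁻¹ ∧
    chi chevE6 c (chevE6.simple 4) = (c 3)⁻¹ * c 4 ^ 2 * (c 5)⁻¹ ∧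
    chi chevE6 c (chevE6.simple 5) = (c 4)⁻¹ * c 5 ^ 2 := by
  have hr : chevE6.rank = 6 := rfl
  unfold chi
  rw [hr]
  simp only [Finset.prod_range_succ, Finset.prod_range_zero]
  rw [cartan_E6_tab 0 (by norm_num) 0 (by norm_num), cartan_E6_tab 0 (by norm_num) 1 (by norm_num), cartan_E6_tab 0 (by norm_num) 2 (by norm_num), cartan_E6_tab 0 (by norm_num) 3 (by norm_num), cartan_E6_tab 0 (by norm_num) 4 (by norm_num), cartan_E6_tab 0 (by norm_num) 5 (by norm_num),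
    cartan_E6_tab 1 (by norm_num) 0 (by norm_num), cartan_E6_tab 1 (by norm_num) 1 (by norm_num), cartan_E6_tab 1 (by norm_num) 2 (by norm_num), cartan_E6_tab 1 (by norm_num) 3 (by norm_num), cartan_E6_tab 1 (by norm_num) 4 (by norm_num), cartan_E6_tab 1 (by norm_num) 5 (by norm_num),
    cartan_E6_tab 2 (by norm_num) 0 (by norm_num), cartan_E6_tab 2 (by norm_num) 1 (by norm_num), cartan_E6_tab 2 (by norm_num) 2 (by norm_num), cartan_E6_tab 2 (by norm_num) 3 (by norm_num), cartan_E6_tab 2 (by norm_num) 4 (by norm_num), cartan_E6_tab 2 (by norm_num) 5 (by norm_num),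
    cartan_E6_tab 3 (by norm_num) 0 (by norm_num), cartan_E6_tab 3 (by norm_num) 1 (by norm_num), cartan_E6_tab 3 (by norm_num) 2 (by norm_num), cartan_E6_tab 3 (by norm_num) 3 (by norm_num), cartan_E6_tab 3 (by norm_num) 4 (by norm_num), cartan_E6_tab 3 (by norm_num) 5 (by norm_num),
    cartan_E6_tab 4 (by norm_num) 0 (by norm_num), cartan_E6_tab 4 (by norm_num) 1 (by norm_num), cartan_E6_tab 4 (by norm_num) 2 (by norm_num), cartan_E6_tab 4 (by norm_num) 3 (by norm_num), cartan_E6_tab 4 (by norm_num) 4 (by norm_num), cartan_E6_tab 4 (by norm_num) 5 (by norm_num),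
    cartan_E6_tab 5 (by norm_num) 0 (by norm_num), cartan_E6_tab 5 (by norm_num) 1 (by norm_num), cartan_E6_tab 5 (by norm_num) 2 (by norm_num), cartan_E6_tab 5 (by norm_num) 3 (by norm_num), cartan_E6_tab 5 (by norm_num) 4 (by norm_num), cartan_E6_tab 5 (by norm_num) 5 (by norm_num)]
  simp [zpow_ofNat]

theorem kerE6_aux {G : Type*} [CommGroup G] (z0 z1 z2 z3 z4 z5 : G) (e0 : z0 ^ 2 * z2⁻¹ = 1)
    (e1 : z1 ^ 2 * z3⁻¹ = 1) (e2 : z0⁻¹ * z2 ^ 2 * z3⁻¹ = 1) (e3 : z1⁻¹ * z2⁻¹ * z3 ^ 2 * z4⁻¹ = 1)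
    (e4 : z3⁻¹ * z4 ^ 2 * z5⁻¹ = 1) (e5 : z4⁻¹ * z5 ^ 2 = 1) :
    z1 = 1 ∧ z3 = 1 ∧ z0 ^ 3 = 1 ∧ z2 = z0 ^ 2 ∧ z4 = z0 ∧ z5 = z0 ^ 2 := by
  refine ⟨?_, ?_, ?_, ?_, ?_, ?_⟩
  · calc z1 = (z0 ^ 2 * z2⁻¹) * (z1 ^ 2 * z3⁻¹) ^ 2 * (z0⁻¹ * z2 ^ 2 * z3⁻¹) ^ 2 *
          (z1⁻¹ * z2⁻¹ * z3 ^ 2 * z4⁻¹) ^ 3 * (z3⁻¹ * z4 ^ 2 * z5⁻¹) ^ 2 * (z4⁻¹ * z5 ^ 2) := by
            apply Additive.ofMul.injective
            simp only [ofMul_mul, ofMul_pow, ofMul_inv]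
            abel
      _ = 1 := by rw [e0, e1, e2, e3, e4, e5]; simp
  · calc z3 = (z0 ^ 2 * z2⁻¹) ^ 2 * (z1 ^ 2 * z3⁻¹) ^ 3 * (z0⁻¹ * z2 ^ 2 * z3⁻¹) ^ 4 *
          (z1⁻¹ * z2⁻¹ * z3 ^ 2 * z4⁻¹) ^ 6 * (z3⁻¹ * z4 ^ 2 * z5⁻¹) ^ 4 * (z4⁻¹ * z5 ^ 2) ^ 2 := by
            apply Additive.ofMul.injective
            simp only [ofMul_mul, ofMul_pow, ofMul_inv]
            abel
      _ = 1 := by rw [e0, e1, e2, e3, e4, e5]; simp
  · calc z0 ^ 3 = (z0 ^ 2 * z2⁻¹) ^ 4 * (z1 ^ 2 * z3⁻¹) ^ 3 * (z0⁻¹ * z2 ^ 2 * z3⁻¹) ^ 5 *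
          (z1⁻¹ * z2⁻¹ * z3 ^ 2 * z4⁻¹) ^ 6 * (z3⁻¹ * z4 ^ 2 * z5⁻¹) ^ 4 * (z4⁻¹ * z5 ^ 2) ^ 2 := by
            apply Additive.ofMul.injective
            simp only [ofMul_mul, ofMul_pow, ofMul_inv]
            abel
      _ = 1 := by rw [e0, e1, e2, e3, e4, e5]; simp
  · calc z2 = z0 ^ 2 * (z0 ^ 2 * z2⁻¹)⁻¹ := by
            apply Additive.ofMul.injective
            simp only [ofMul_mul, ofMul_pow, ofMul_inv]
            abel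
      _ = z0 ^ 2 := by rw [e0]; simp
  · calc z4 = z0 * ((z1 ^ 2 * z3⁻¹) * (z0⁻¹ * z2 ^ 2 * z3⁻¹) *
          (z1⁻¹ * z2⁻¹ * z3 ^ 2 * z4⁻¹) ^ 2 * (z3⁻¹ * z4 ^ 2 * z5⁻¹) ^ 2 * (z4⁻¹ * z5 ^ 2)) := by
            apply Additive.ofMul.injective
            simp only [ofMul_mul, ofMul_pow, ofMul_inv]
            abel
      _ = z0 := by rw [e1, e2, e3, e4, e5]; simp
  · calc z5 = z0 ^ 2 * ((z0 ^ 2 * z2⁻¹) ^ 2 * (z1 ^ 2 * z3⁻¹) * (z0⁻¹ * z2 ^ 2 * z3⁻¹) ^ 2 *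
          (z1⁻¹ * z2⁻¹ * z3 ^ 2 * z4⁻¹) ^ 2 * (z3⁻¹ * z4 ^ 2 * z5⁻¹))⁻¹ := by
            apply Additive.ofMul.injective
            simp only [ofMul_mul, ofMul_pow, ofMul_inv]
            abel
      _ = z0 ^ 2 := by rw [e0, e1, e2, e3, e4]; simp

section
variable {K : Type*} [Field K] (φ : K →+* K)

omit φ in
theorem ker_E6 {z : ℕ → Kˣ} (h : tG chevE6 z = 1) :
    z 1 = 1 ∧ z 3 = 1 ∧ z 0 ^ 3 = 1 ∧ z 2 = z 0 ^ 2 ∧ z 4 = z 0 ∧ z 5 = z 0 ^ 2 := by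
  obtain ⟨e0, e1, e2, e3, e4, e5⟩ := chi_E6 z
  rw [chi_eq_one_of_tG hE6 h (simple_lt hE6 (by decide))] at e0 e1 e2 e3 e4 e5
  exact kerE6_aux _ _ _ _ _ _ e0.symm e1.symm e2.symm e3.symm e4.symm e5.symm

omit φ in
theorem ker_E6_cube {z : ℕ → Kˣ} (h : tG chevE6 z = 1) : ∀ i < 6, z i ^ 3 = 1 := by
  obtain ⟨h1, h3, h0, h2, h4, h5⟩ := ker_E6 h
  intro i hi
  interval_cases i
  · exact h0
  · rw [h1, one_pow]
  · rw [h2, ← pow_mul, mul_comm, pow_mul, h0, one_pow]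
  · rw [h3, one_pow]
  · rw [h4, h0]
  · rw [h5, ← pow_mul, mul_comm, pow_mul, h0, one_pow]

omit φ in
theorem ker_E6_conv {z : ℕ → Kˣ} (h1 : z 1 = 1) (h3 : z 3 = 1) (h0 : z 0 ^ 3 = 1) (h2 : z 2 = z 0 ^ 2)
    (h4 : z 4 = z 0) (h5 : z 5 = z 0 ^ 2) : tG chevE6 z = 1 := by
  apply tG_eq_one_of_chi hE6
  apply chi_eq_one_of_simple hE6
  obtain ⟨e0, e1, e2, e3, e4, e5⟩ := chi_E6 z
  have h6 : (z 0)⁻¹ * (z 0 ^ 2) ^ 2 = 1 := by
    rw [← h0]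
    apply Additive.ofMul.injective
    simp only [ofMul_mul, ofMul_pow, ofMul_inv]
    abel
  intro i hi
  have hi' : i < 6 := hi
  interval_cases i
  · rw [e0, h2]; simp
  · rw [e1, h1, h3]; simp
  · rw [e2, h2, h3, inv_one, mul_one, h6]
  · rw [e3, h1, h2, h3, h4, inv_one, one_mul, one_pow, mul_one, ← mul_inv, ← pow_succ, h0, inv_one]
  · rw [e4, h3, h4, h5]; simp
  · rw [e5, h4, h5, h6]

/-- the parameters of the fixed points of `σ` on the torus -/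
noncomputable def cE6 (a b c d : Kˣ) : ℕ → Kˣ := fun i =>
  match i with
  | 0 => d
  | 1 => a
  | 2 => c
  | 3 => b
  | 4 => fu φ c
  | 5 => fu φ d
  | _ => 1

theorem tG_cE6 (a b c d : Kˣ) :
    tG chevE6 (cE6 φ a b c d) = hB hE6 φ [1] (a : K) * hB hE6 φ [3] (b : K) * hB hE6 φ [2, 4] (c : K) *
      hB hE6 φ [0, 5] (d : K) := by
  have e1 : ∀ (j : ℕ) (hj : j < chevE6.rank) (a : Kˣ),
      hB hE6 φ [j] (a : K) = tG chevE6 (Function.update (1 : ℕ → Kˣ) j a) := by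
    intro j hj a
    rw [← hG_simple_eq_tG hE6 hj]
    exact mul_one _
  have e2 : ∀ (j j' : ℕ) (hj : j < chevE6.rank) (hj' : j' < chevE6.rank) (b : Kˣ),
      hB hE6 φ [j, j'] (b : K) = tG chevE6 (Function.update (1 : ℕ → Kˣ) j b) *
        tG chevE6 (Function.update (1 : ℕ → Kˣ) j' (fu φ b)) := by
    intro j j' hj hj' b
    rw [← hG_simple_eq_tG hE6 hj, ← hG_simple_eq_tG hE6 hj']
    show _ * (_ * 1) = _
    rw [mul_one]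
    rfl
  rw [e1 1 (by decide), e1 3 (by decide), e2 2 4 (by decide) (by decide), e2 0 5 (by decide) (by decide),
    tG_mul, tG_mul, tG_mul, tG_mul, tG_mul]
  apply tG_congr
  intro i hi
  have hi' : i < 6 := hi
  interval_cases i <;> simp [cE6, Function.update]

/-- the fixed points of `φ` on the units -/
noncomputable def Fx : Subgroup Kˣ := (fu φ).eqLocus (MonoidHom.id Kˣ)

theorem mem_Fx {a : Kˣ} : a ∈ Fx φ ↔ fu φ a = a := Iff.rfl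

/-- the parametrisation of `H¹` -/
noncomputable def thE6 : (↥(Fx φ) × ↥(Fx φ) × Kˣ × Kˣ) →* GL chevE6.Idx K where
  toFun x := tG chevE6 (cE6 φ x.1 x.2.1 x.2.2.1 x.2.2.2)
  map_one' := by
    rw [← tG_one chevE6]
    apply tG_congr
    intro i hi
    have hi' : i < 6 := hi
    interval_cases i <;> simp [cE6]
  map_mul' x y := by
    rw [tG_mul]
    apply tG_congr
    intro i hi
    have hi' : i < 6 := hi
    interval_cases i <;> simp [cE6]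

theorem thE6_apply (x : ↥(Fx φ) × ↥(Fx φ) × Kˣ × Kˣ) :
    thE6 φ x = tG chevE6 (cE6 φ x.1 x.2.1 x.2.2.1 x.2.2.2) := rfl

end

end Cfsg.Agent.Lib.Helper8
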