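import Cfsg.Agent.Lib.Helper8.TwE6

set_option autoImplicit false
set_option linter.unusedSectionVars false
set_option linter.unusedVariables false

namespace Cfsg.Agent.Lib.Helper8

open Cfsg Cfsg.Lie

section
variable {D : ChevalleyDatum} (hD : D ∈ allData) {K : Type*} [Field K] (φ : K →+* K)
include hD

theorem hB_one : ∀ {J : List ℕ}, (∀ j ∈ J, j < D.rank) → hB hD φ J 1 = 1
  | [], _ => rfl
  | j :: J, h => by
    show hG hD K (D.simple j) 1 * hB hD φ J (φ 1) = 1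
    rw [map_one, hB_one (fun a ha => h a (List.mem_cons_of_mem _ ha))]
    have := hG_simple_eq_tG (F := K) hD (h j List.mem_cons_self) 1
    rw [Units.val_one] at this
    have h2 : Function.update (1 : ℕ → Kˣ) j 1 = 1 := Function.update_eq_self_iff.mpr rfl
    rw [this, mul_one, h2, tG_one]

end

section
variable {K : Type*} [Field K] (φ : K →+* K) (hφ2 : ∀ t : K, φ^[2] t = t)
include hφ2

theorem fu_fu (a : Kˣ) : fu φ (fu φ a) = a := Units.ext (hφ2 a)

theorem sig_cE6 {a b : Kˣ} (ha : fu φ a = a) (hb : fu φ b = b) (c d : Kˣ) :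
    sig twOK_E6 φ (tG chevE6 (cE6 φ a b c d)) = tG chevE6 (cE6 φ a b c d) := by
  rw [sig_tG hE6]
  apply tG_congr
  intro i hi
  have hi' : i < 6 := hi
  interval_cases i
  · exact fu_fu φ hφ2 d
  · exact ha
  · exact fu_fu φ hφ2 c
  · exact hb
  · rfl
  · rfl

theorem H0E6_ok : HOK hE6 twS_E6.T φ blE6 (thE6 φ).range := by
  refine ⟨?_, ?_, ?_⟩
  · rintro _ ⟨x, rfl⟩
    rw [diag_eq_torus hE6]
    exact ⟨_, rfl⟩
  · rintro _ ⟨x, rfl⟩
    exact sig_cE6 φ hφ2 x.1.2 x.2.1.2 _ _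
  · intro J hJ t h0 ht
    have o1 := hB_one (K := K) hE6 φ (J := [1]) (by decide)
    have o3 := hB_one (K := K) hE6 φ (J := [3]) (by decide)
    have o24 := hB_one (K := K) hE6 φ (J := [2, 4]) (by decide)
    have o05 := hB_one (K := K) hE6 φ (J := [0, 5]) (by decide)
    simp only [blE6, List.mem_cons, List.not_mem_nil, or_false] at hJ
    rcases hJ with rfl | rfl | rfl | rfl
    · refine ⟨(⟨Units.mk0 t h0, Units.ext ht⟩, 1, 1, 1), ?_⟩
      rw [thE6_apply, tG_cE6]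
      simp only [OneMemClass.coe_one, Units.val_one, o3, o24, o05, mul_one, Units.val_mk0]
    · refine ⟨(1, ⟨Units.mk0 t h0, Units.ext ht⟩, 1, 1), ?_⟩
      rw [thE6_apply, tG_cE6]
      simp only [OneMemClass.coe_one, Units.val_one, o1, o24, o05, mul_one, one_mul, Units.val_mk0]
    · refine ⟨(1, 1, Units.mk0 t h0, 1), ?_⟩
      rw [thE6_apply, tG_cE6]
      simp only [OneMemClass.coe_one, Units.val_one, o1, o3, o05, mul_one, one_mul, Units.val_mk0]
    · refine ⟨(1, 1, 1, Units.mk0 t h0), ?_⟩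
      rw [thE6_apply, tG_cE6]
      simp only [OneMemClass.coe_one, Units.val_one, o1, o3, o24, mul_one, one_mul, Units.val_mk0]

omit hφ2 in
theorem invol_E6 {c : ℕ → Kˣ} (h2 : tG chevE6 (c * c) = 1) (hfix : sig twOK_E6 φ (tG chevE6 c) = tG chevE6 c) :
    tG chevE6 c ∈ (thE6 φ).range := by
  have e1 : tG chevE6 c = tG chevE6 (c * c * c) := by rw [← tG_mul, h2, one_mul]
  have hc3 := ker_E6_cube h2
  have hsq : ∀ i < 6, (c * c * c) i ^ 2 = 1 := by
    intro i hi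
    rw [← hc3 i hi]
    show (c i * c i * c i) ^ 2 = (c i * c i) ^ 3
    apply Additive.ofMul.injective
    simp only [ofMul_mul, ofMul_pow]
    abel
  rw [e1] at hfix ⊢
  generalize c * c * c = c' at *
  rw [sig_tG hE6] at hfix
  have hz : tG chevE6 (twc twOK_E6 φ c' * c'⁻¹) = 1 := by
    rw [← tG_mul, hfix, ← tG_inv, mul_inv_cancel]
  have hw3 := ker_E6_cube hz
  have key : ∀ i < 6, twc twOK_E6 φ c' i = c' i := by
    intro i hi
    have a3 := hw3 i hi
    have a2 : (twc twOK_E6 φ c' * c'⁻¹) i ^ 2 = 1 := by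
      show (fu φ (c' (twOK_E6.p^[5] i)) * (c' i)⁻¹) ^ 2 = 1
      rw [mul_pow, inv_pow, hsq i hi, ← map_pow, hsq _ (twOK_E6.iter_lt (show i < chevE6.rank from hi) 5), map_one,
        inv_one, mul_one]
    have a1 : (twc twOK_E6 φ c' * c'⁻¹) i = 1 := by
      have : (twc twOK_E6 φ c' * c'⁻¹) i ^ 3 = (twc twOK_E6 φ c' * c'⁻¹) i ^ 2 * (twc twOK_E6 φ c' * c'⁻¹) i :=
        pow_succ _ 2
      rw [a3, a2, one_mul] at this
      exact this.symm
    exact mul_inv_eq_one.mp a1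
  refine ⟨(⟨c' 1, key 1 (by norm_num)⟩, ⟨c' 3, key 3 (by norm_num)⟩, c' 2, c' 0), ?_⟩
  rw [thE6_apply]
  apply tG_congr
  intro i hi
  have hi' : i < 6 := hi
  interval_cases i
  · rfl
  · rfl
  · rfl
  · rfl
  · exact key 4 (by norm_num)
  · exact key 5 (by norm_num)

/-- `H¹` for `²E₆` -/
theorem diag_inf_twE6 : chevE6.diagonalSubgroup K ⊓ twG hE6 φ blE6 = (thE6 φ).range := by
  apply le_antisymm
  · rintro h ⟨hh1, hh2⟩
    obtain ⟨h1, m1, t, ⟨t1, t2⟩, h2, m2, rfl⟩ := diag_inf_twG_le hE6 twS_E6 φ (H0E6_ok φ hφ2) hh1 hh2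
    refine mul_mem (mul_mem m1 ?_) m2
    obtain ⟨-, t3, -, -⟩ := T0_props hE6 twS_E6 φ (H0E6_ok φ hφ2) t1
    rw [diag_eq_torus hE6] at t2
    obtain ⟨c, rfl⟩ := t2
    exact invol_E6 φ (T0_diag_sq hE6 (fun J hJ => (blE6_ok J hJ).lt) t1) t3
  · rintro _ ⟨x, rfl⟩
    refine ⟨by rw [diag_eq_torus hE6]; exact ⟨_, rfl⟩, ?_⟩
    rw [thE6_apply, tG_cE6]
    exact mul_mem (mul_mem (mul_mem
      (hB_mem_twG hE6 φ blE6 blE6_ok (by simp [blE6]) (congrArg Units.val x.1.2))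
      (hB_mem_twG hE6 φ blE6 blE6_ok (by simp [blE6]) (congrArg Units.val x.2.1.2)))
      (hB_mem_twG hE6 φ blE6 blE6_ok (by simp [blE6]) (hφ2 _)))
      (hB_mem_twG hE6 φ blE6 blE6_ok (by simp [blE6]) (hφ2 _))

end

end Cfsg.Agent.Lib.Helper8
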