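import Cfsg.Agent.Lib.Helper8.Par3
import Cfsg.Agent.Lib.Helper8.UList

set_option autoImplicit false
set_option linter.unusedSectionVars false
set_option linter.unusedVariables false

/-! Unique factorisation in `U`, in the order of the indices: the finite checks. -/

namespace Cfsg.Agent.Lib.Helper8

open Cfsg Cfsg.Lie

def wtl (D : ChevalleyDatum) (l : List ℕ) (f : ℕ → ℤ) : ℤ := (l.map (fun k => f k * 13 ^ (D.rank - 1 - k))).sum

/-- a weight compatible with the order of the roots -/
def wtC (D : ChevalleyDatum) (j : ℕ) : ℤ := wtl D (List.range D.rank) (fun k => rcC D k j)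
def wtR (D : ChevalleyDatum) (r : ℕ) : ℤ := wtl D (List.range D.rank) (fun k => rcf D r k)

theorem wtl_lin (D : ChevalleyDatum) (f g h : ℕ → ℤ) (m : ℤ) : ∀ l : List ℕ, (∀ k ∈ l, f k = g k + m * h k) →
    wtl D l f = wtl D l g + m * wtl D l h
  | [], _ => by simp [wtl]
  | k :: l, H => by
    have ih := wtl_lin D f g h m l (fun j hj => H j (List.mem_cons_of_mem _ hj))
    have hk := H k List.mem_cons_self
    unfold wtl at ih ⊢
    simp only [List.map_cons, List.sum_cons]
    rw [ih, hk]
    ring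

theorem chkWt_all : ∀ D ∈ allData, (∀ j < D.rank + D.nroots, 0 ≤ wtC D j + 13 ^ D.rank) ∧
    (∀ i < D.rank, wtC D i = 0) ∧
    (∀ r < D.nroots, wtC D (D.rank + r) = wtR D r ∧ wtR D (D.neg r) = - wtR D r) ∧
    (∀ r < D.nroots, D.nroots / 2 ≤ r → 0 < wtR D r) ∧
    (∀ r < D.nroots, D.nroots / 2 ≤ r → r + 1 < D.nroots → wtR D r < wtR D (r + 1)) := by
  apply all_of <;> decide +kernel

theorem chkUnit_all : ∀ D ∈ allData, ∀ r < D.nroots, ∃ i, i < D.rank ∧
    (D.cartan i r = 1 ∨ D.cartan i r = -1 ∨ crd D r i = 1 ∨ crd D r i = -1) := by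
  apply all_of <;> decide +kernel

set_option maxHeartbeats 0 in
theorem closedL_all : ∀ D ∈ allData, ClosedL D D.posRoots := by
  apply all_of <;> decide +kernel

end Cfsg.Agent.Lib.Helper8
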