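import Cfsg.Agent.Lib.Helper8.UF1

set_option autoImplicit false
set_option linter.unusedSectionVars false
set_option linter.unusedVariables false

/-! Unique factorisation in `U`, in the order of the indices. -/

namespace Cfsg.Agent.Lib.Helper8

open Cfsg Cfsg.Lie

/-- the position of a basis vector -/
def posW (D : ChevalleyDatum) (a : D.Idx) : ℕ := (wtC D (code a) + 13 ^ D.rank).toNat

section
variable {D : ChevalleyDatum} (hD : D ∈ allData) {F : Type*} [Field F]
include hD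

theorem posW_cast (a : D.Idx) : (posW D a : ℤ) = wtC D (code a) + 13 ^ D.rank :=
  Int.toNat_of_nonneg ((chkWt_all D hD).1 _ (code_lt a))

theorem wtR_pos {r : ℕ} (hr : D.IsPosRoot r) : 0 < wtR D r :=
  (chkWt_all D hD).2.2.2.1 r hr.1 ((isPos_iff hD).mp hr).1

theorem wtR_lt : ∀ (d : ℕ) {r : ℕ}, D.nroots / 2 ≤ r → r + d + 1 < D.nroots → wtR D r < wtR D (r + d + 1)
  | 0, r, h1, h2 => (chkWt_all D hD).2.2.2.2 r (by omega) h1 h2
  | d + 1, r, h1, h2 => by
    have a1 := wtR_lt d h1 (by omega)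
    have a2 := (chkWt_all D hD).2.2.2.2 (r + d + 1) (by omega) (by omega) (by omega)
    exact lt_trans a1 a2

theorem wtR_mono {r s : ℕ} (hr : D.IsPosRoot r) (hs : s < D.nroots) (h : r < s) : wtR D r < wtR D s := by
  obtain ⟨d, rfl⟩ : ∃ d, s = r + d + 1 := ⟨s - r - 1, by omega⟩
  exact wtR_lt hD d ((isPos_iff hD).mp hr).1 hs

theorem x_fil_wt {s : ℕ} (hs : D.IsPosRoot s) (t : F) : Fil (posW D) (wtR D s).toNat (D.x F s t - 1) := by
  intro i j hij
  obtain ⟨tl, h1, h2⟩ := x_sub_one_gd hD hs.1 t i j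
  rw [h1]
  apply colVal_eq_zero
  intro e he hh
  obtain ⟨hm, hk⟩ := h2 e he
  have h3 : wtC D e.1 = wtC D (code j) + (e.2.1 : ℤ) * wtR D s :=
    wtl_lin D _ _ _ _ _ (fun k hk' => hk k (List.mem_range.mp hk'))
  rw [hh] at h3
  have p1 := posW_cast hD i
  have p2 := posW_cast hD j
  have p3 := wtR_pos hD hs
  have p4 : wtR D s ≤ (e.2.1 : ℤ) * wtR D s := by
    have : (1 : ℤ) ≤ (e.2.1 : ℤ) := by exact_mod_cast hm
    nlinarith
  have p5 : ((wtR D s).toNat : ℤ) = wtR D s := Int.toNat_of_nonneg (le_of_lt p3)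
  have p6 : (posW D i : ℤ) < posW D j + (wtR D s).toNat := by exact_mod_cast hij
  omega

theorem xG_mem_lev {s : ℕ} (hs : D.IsPosRoot s) {k : ℕ} (hk : k ≤ (wtR D s).toNat) (t : F) :
    xG hD F s t ∈ lev (R := F) (posW D) k := by
  refine ⟨(x_fil_wt hD hs t).mono hk, ?_⟩
  rw [xG_inv]
  exact (x_fil_wt hD hs (-t)).mono hk

theorem x_entry_h {r : ℕ} (hr : r < D.nroots) (i : Fin D.rank) (t : F) :
    D.x F r t (Sum.inr ⟨r, hr⟩) (Sum.inl i) = -((D.cartan i.val r : ℤ) : F) * t := by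
  rw [ChevalleyDatum.x, dif_pos hr]
  simp [ChevalleyDatum.xMat, ChevalleyDatum.cartan]

theorem x_entry_hn {r : ℕ} (hr : r < D.nroots) (i : Fin D.rank) (t : F) :
    D.x F r t (Sum.inl i) (Sum.inr ⟨D.neg r, neg_lt' hD r hr⟩) = ((crd D r i.val : ℤ) : F) * t := by
  have hne := neg_ne hD hr
  have hne' : (⟨D.neg r, neg_lt' hD r hr⟩ : Fin D.nroots) ≠ ⟨r, hr⟩ := by
    intro hh; exact hne (Fin.mk.inj_iff.mp hh)
  rw [ChevalleyDatum.x, dif_pos hr]
  simp only [ChevalleyDatum.xMat, Matrix.of_apply]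
  rw [if_neg hne', if_pos (show D.neg r = D.negIdx.getD r 0 from rfl)]
  rfl

theorem xG_lev_zero {r : ℕ} (hr : D.IsPosRoot r) {c : F}
    (h : xG hD F r c ∈ lev (R := F) (posW D) ((wtR D r).toNat + 1)) : c = 0 := by
  obtain ⟨i, hi, hu⟩ := chkUnit_all D hD r hr.1
  have hf := h.1
  have p3 := wtR_pos hD hr
  have p5 : ((wtR D r).toNat : ℤ) = wtR D r := Int.toNat_of_nonneg (le_of_lt p3)
  have w0 : wtC D i = 0 := (chkWt_all D hD).2.1 i hi
  have w1 := ((chkWt_all D hD).2.2.1 r hr.1)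
  have w2 := ((chkWt_all D hD).2.2.1 (D.neg r) (neg_lt' hD r hr.1))
  have A : ((D.cartan i r : ℤ) : F) * c = 0 := by
    have q1 := posW_cast hD (Sum.inr ⟨r, hr.1⟩ : D.Idx)
    have q2 := posW_cast hD (Sum.inl ⟨i, hi⟩ : D.Idx)
    rw [code_inr] at q1
    rw [code_inl] at q2
    simp only at q1 q2
    have hlt : posW D (Sum.inr ⟨r, hr.1⟩ : D.Idx) < posW D (Sum.inl ⟨i, hi⟩ : D.Idx) + ((wtR D r).toNat + 1) := by
      have : (posW D (Sum.inr ⟨r, hr.1⟩ : D.Idx) : ℤ) <
          posW D (Sum.inl ⟨i, hi⟩ : D.Idx) + ((wtR D r).toNat + 1) := by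
        rw [q1, q2, w0, w1.1, p5]; omega
      exact_mod_cast this
    have e := hf _ _ hlt
    rw [Matrix.sub_apply, xG_coe, x_entry_h hD hr.1 ⟨i, hi⟩, Matrix.one_apply, if_neg (by simp), sub_zero] at e
    linear_combination -e
  have B : ((crd D r i : ℤ) : F) * c = 0 := by
    have q1 := posW_cast hD (Sum.inl ⟨i, hi⟩ : D.Idx)
    have q2 := posW_cast hD (Sum.inr ⟨D.neg r, neg_lt' hD r hr.1⟩ : D.Idx)
    rw [code_inl] at q1
    rw [code_inr] at q2
    simp only at q1 q2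
    have hlt : posW D (Sum.inl ⟨i, hi⟩ : D.Idx) <
        posW D (Sum.inr ⟨D.neg r, neg_lt' hD r hr.1⟩ : D.Idx) + ((wtR D r).toNat + 1) := by
      have : (posW D (Sum.inl ⟨i, hi⟩ : D.Idx) : ℤ) <
          posW D (Sum.inr ⟨D.neg r, neg_lt' hD r hr.1⟩ : D.Idx) + ((wtR D r).toNat + 1) := by
        rw [q1, q2, w0, w2.1, w1.2, p5]; omega
      exact_mod_cast this
    have e := hf _ _ hlt
    rw [Matrix.sub_apply, xG_coe, x_entry_hn hD hr.1 ⟨i, hi⟩, Matrix.one_apply, if_neg (by simp), sub_zero] at e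
    exact e
  rcases hu with h1 | h1 | h1 | h1
  · rw [h1] at A; simpa using A
  · rw [h1] at A; simpa using A
  · rw [h1] at B; simpa using B
  · rw [h1] at B; simpa using B

theorem wG_unique : ∀ (L : List ℕ), L.Pairwise (· < ·) → (∀ r ∈ L, D.IsPosRoot r) → ∀ τ τ' : ℕ → F,
    wG hD (L.map fun r => (r, τ r)) = wG hD (L.map fun r => (r, τ' r)) → ∀ r ∈ L, τ r = τ' r
  | [], _, _, _, _, _, r, hr => by simp at hr
  | r1 :: L1, hs, hp, τ, τ', e, r, hr => by
    obtain ⟨hs1, hs2⟩ := List.pairwise_cons.mp hs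
    have hr1 := hp r1 List.mem_cons_self
    have hmem : ∀ σ : ℕ → F, wG hD (L1.map fun r => (r, σ r)) ∈ lev (R := F) (posW D) ((wtR D r1).toNat + 1) := by
      intro σ
      apply wG_mem
      intro p hp'
      obtain ⟨s, hs', rfl⟩ := List.mem_map.mp hp'
      have hsp := hp s (List.mem_cons_of_mem _ hs')
      apply xG_mem_lev hD hsp
      have := wtR_mono hD hr1 hsp.1 (hs1 s hs')
      have p3 := wtR_pos hD hr1
      omega
    have e1 : xG hD F r1 (τ r1) * wG hD (L1.map fun r => (r, τ r)) =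
        xG hD F r1 (τ' r1) * wG hD (L1.map fun r => (r, τ' r)) := by
      simpa [wG] using e
    have e2 : xG hD F r1 (-τ' r1 + τ r1) =
        wG hD (L1.map fun r => (r, τ' r)) * (wG hD (L1.map fun r => (r, τ r)))⁻¹ := by
      rw [← xG_mul, ← xG_inv, eq_mul_inv_iff_mul_eq, mul_assoc, e1, inv_mul_cancel_left]
    have h0 : -τ' r1 + τ r1 = 0 := by
      apply xG_lev_zero hD hr1
      rw [e2]
      exact mul_mem (hmem τ') (inv_mem (hmem τ))
    have h1 : τ r1 = τ' r1 := by linear_combination h0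
    rcases List.mem_cons.mp hr with rfl | hr
    · exact h1
    · rw [h1] at e1
      exact wG_unique L1 hs2 (fun s hs' => hp s (List.mem_cons_of_mem _ hs')) τ τ' (mul_left_cancel e1) r hr

theorem mem_posRoots {r : ℕ} : r ∈ D.posRoots ↔ D.IsPosRoot r := by
  unfold ChevalleyDatum.posRoots
  rw [List.mem_filter, List.mem_range, decide_eq_true_eq]
  exact ⟨fun h => h.2, fun h => ⟨h.1, h⟩⟩

theorem posRoots_sorted : D.posRoots.Pairwise (· < ·) := by
  unfold ChevalleyDatum.posRoots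
  exact List.Pairwise.filter _ List.pairwise_lt_range

theorem posU_eq_NL' : D.posUnipotent F = NL (F := F) hD D.posRoots := by
  unfold ChevalleyDatum.posUnipotent NL
  congr 1
  ext g
  constructor
  · rintro ⟨r, t, hr, hg⟩
    exact ⟨r, (mem_posRoots hD).mpr hr, t, eq_xG hD hg⟩
  · rintro ⟨r, hr, t, rfl⟩
    exact ⟨r, t, (mem_posRoots hD).mp hr, rfl⟩

theorem posU_factor :
    (∀ g : GL D.Idx F, g ∈ D.posUnipotent F →
      ∃! t : ℕ → F, (∀ r, ¬ D.IsPosRoot r → t r = 0) ∧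
        (g : Matrix D.Idx D.Idx F) = D.wordMat F (D.posRoots.map fun r => (r, t r))) ∧
    (∀ t : ℕ → F, ∃ g : GL D.Idx F, g ∈ D.posUnipotent F ∧
      (g : Matrix D.Idx D.Idx F) = D.wordMat F (D.posRoots.map fun r => (r, t r))) := by
  classical
  constructor
  · intro g hg
    rw [posU_eq_NL' hD] at hg
    obtain ⟨τ, rfl⟩ := NL_normal_form hD (closedL_all D hD) hg
    refine ⟨fun r => if D.IsPosRoot r then τ r else 0, ⟨fun r hr => if_neg hr, ?_⟩, ?_⟩
    · rw [wG_coe]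
      congr 1
      apply List.map_congr_left
      intro r hr
      simp only
      rw [if_pos ((mem_posRoots hD).mp hr)]
    · rintro t ⟨ht0, ht⟩
      rw [← wG_coe hD] at ht
      have e := Units.ext ht
      have h := wG_unique hD D.posRoots (posRoots_sorted hD) (fun r hr => (mem_posRoots hD).mp hr) τ t e
      funext r
      by_cases hr : D.IsPosRoot r
      · rw [if_pos hr, h r ((mem_posRoots hD).mpr hr)]
      · rw [if_neg hr, ht0 r hr]
  · intro t
    refine ⟨wG hD (D.posRoots.map fun r => (r, t r)), ?_, wG_coe hD _⟩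
    apply wG_mem
    intro p hp
    obtain ⟨r, hr, rfl⟩ := List.mem_map.mp hp
    exact xG_mem_posU hD ((mem_posRoots hD).mp hr) _

end

end Cfsg.Agent.Lib.Helper8
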